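import Mathlib
import Cfsg.Prelude.Def_GeometricClasses

/-!
Decompositions into independent subspaces of one dimension: projections, membership in the stabiliser.
-/

set_option autoImplicit false

namespace CfsgLib.GeoDecomp

open Matrix

variable {ι : Type} [Fintype ι] [DecidableEq ι] {F : Type*} [Field F] {t k : ℕ}
  {D : Fin t → Submodule F (ι → F)}

theorem exists_proj (hD : Cfsg.Geo.IsMDecomposition k D) :
    ∃ π : Fin t → ((ι → F) →ₗ[F] (ι → F)), (∀ i x, π i x ∈ D i) ∧ (∀ x, ∑ i, π i x = x) ∧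
      (∀ i, ∀ d ∈ D i, π i d = d) ∧ ∀ i j, i ≠ j → ∀ d ∈ D j, π i d = 0 := by
  have hc : ∀ i, IsCompl (D i) (⨆ (j) (_ : j ≠ i), D j) := fun i => by
    refine ⟨hD.indep i, codisjoint_iff.2 (top_unique ?_)⟩
    rw [← hD.iSup_eq_top]
    refine iSup_le fun j => ?_
    rcases eq_or_ne j i with rfl | hj
    · exact le_sup_left
    · exact le_sup_of_le_right (le_iSup₂ (f := fun j (_ : j ≠ i) => D j) j hj)
  let π : Fin t → ((ι → F) →ₗ[F] (ι → F)) := fun i =>
    (D i).subtype.comp ((D i).linearProjOfIsCompl _ (hc i))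
  have h1 : ∀ i, ∀ d ∈ D i, π i d = d := fun i d hd =>
    congrArg Subtype.val (Submodule.linearProjOfIsCompl_apply_left (hc i) ⟨d, hd⟩)
  have h0 : ∀ i j, i ≠ j → ∀ d ∈ D j, π i d = 0 := fun i j hij d hd => by
    have hmem : d ∈ ⨆ (l) (_ : l ≠ i), D l :=
      le_iSup₂ (f := fun l (_ : l ≠ i) => D l) j hij.symm hd
    exact congrArg Subtype.val (Submodule.linearProjOfIsCompl_apply_right' (hc i) hmem)
  refine ⟨π, fun i x => Submodule.coe_mem _, fun x => ?_, h1, h0⟩
  have hle : (⊤ : Submodule F (ι → F)) ≤ LinearMap.ker ((∑ i, π i) - LinearMap.id) := by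
    rw [← hD.iSup_eq_top]
    refine iSup_le fun j d hd => ?_
    rw [LinearMap.mem_ker, LinearMap.sub_apply, LinearMap.sum_apply,
      Finset.sum_eq_single j (fun i _ hij => h0 i j hij d hd) (fun h => absurd (Finset.mem_univ j) h),
      h1 j d hd, LinearMap.id_apply, sub_self]
  have := hle (Submodule.mem_top (x := x))
  rwa [LinearMap.mem_ker, LinearMap.sub_apply, LinearMap.sum_apply, LinearMap.id_apply, sub_eq_zero] at this

/-- Distinct members meet trivially. -/
theorem eq_zero_of_mem (hD : Cfsg.Geo.IsMDecomposition k D) {i j : Fin t} (hij : i ≠ j) {x : ι → F}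
    (hi : x ∈ D i) (hj : x ∈ D j) : x = 0 :=
  Submodule.disjoint_def.1 (hD.indep.pairwiseDisjoint hij) x hi hj

/-- Mapping every member into a member permutes them. -/
theorem mem_stabilizer (hD : Cfsg.Geo.IsMDecomposition k D) {g : GL ι F}
    (h : ∀ i, ∃ j, ∀ x ∈ D i, (g : Matrix ι ι F) *ᵥ x ∈ D j) : g ∈ Cfsg.Geo.decompositionStabilizer D := by
  choose σ hσ using h
  have hinj : Function.Injective (Matrix.toLin' (g : Matrix ι ι F)) := fun a b e =>
    mulVec_injective_of_isUnit g.isUnit (by simpa using e)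
  have hmap : ∀ i, (D i).map (Matrix.toLin' (g : Matrix ι ι F)) = D (σ i) := fun i => by
    refine Submodule.eq_of_le_of_finrank_le ?_ ?_
    · rintro _ ⟨x, hx, rfl⟩
      simpa using hσ i x hx
    · rw [← (Submodule.equivMapOfInjective _ hinj (D i)).finrank_eq, hD.finrank_eq, hD.finrank_eq]
  have hσi : Function.Injective σ := by
    intro a b e
    by_contra hab
    have hm : (D a).map (Matrix.toLin' (g : Matrix ι ι F)) = (D b).map (Matrix.toLin' (g : Matrix ι ι F)) := by
      rw [hmap, hmap, e]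
    have e' := Submodule.map_injective_of_injective hinj hm
    obtain ⟨x, hx, hx0⟩ := (D a).exists_mem_ne_zero_of_ne_bot fun h0 => by
      have := hD.finrank_eq a; rw [h0, finrank_bot] at this; exact hD.pos.ne this
    exact hx0 (eq_zero_of_mem hD hab hx (e' ▸ hx))
  exact ⟨Equiv.ofBijective σ ⟨hσi, Finite.surjective_of_injective hσi⟩, hmap⟩

end CfsgLib.GeoDecomp
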