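import Cfsg.Agent.GeoLib.FullSL
import Cfsg.Agent.GeoLib.Decomp

/-!
Maximality of the stabiliser of a decomposition into members of dimension at least two.
-/

set_option autoImplicit false

namespace CfsgLib.GeoBlock

open Matrix CfsgLib.GeoParabolic

variable {ι : Type} [Fintype ι] [DecidableEq ι] {F : Type*} [Field F] {M : Subgroup (GL ι F)}

/-- Removing a common centre. -/
theorem hasTv_centre_sub {x w : ι → F} {φ : Module.Dual F (ι → F)} (hx : φ x = 0) (hw : φ w = 0)
    (h1 : HasTv M (x + w) φ) (h2 : HasTv M x φ) : HasTv M w φ := by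
  intro g hg
  obtain ⟨s, -, hs⟩ := GeoTransvection.exists_transvection (x + w) φ (by simp [hx, hw])
  obtain ⟨t, -, ht⟩ := GeoTransvection.exists_transvection x (-φ) (by simp [hx])
  have : g = s * t := GeoFull.gl_ext fun y => by
    rw [Units.val_mul, ← mulVec_mulVec, ht, hs, hg, map_add, map_smul, hx]
    simp only [LinearMap.neg_apply, smul_zero, add_zero]
    module
  rw [this]
  exact mul_mem (h1 s hs) (GeoFull.hasTv_neg hx h2 t ht)

/-- A product of two homologies of inverse determinants. -/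
theorem exists_two_homologies (y z : ι → F) (χ θ : Module.Dual F (ι → F)) (hy : χ y = 1) (hz : θ z = 1)
    (hyz : θ y = 0) {δ : F} (hδ : δ ≠ 0) :
    ∃ g ∈ Cfsg.Geo.specialLinear ι F, ∀ x, (g : Matrix ι ι F) *ᵥ x = x + ((δ - 1) * χ x) • y + ((δ⁻¹ - 1) * θ x) • z := by
  obtain ⟨H, hH⟩ : ∃ H : (ι → F) → Module.Dual F (ι → F) → F → Matrix ι ι F, ∀ v φ c, H v φ c =
      1 + vecMulVec v (fun i => c * φ (Pi.single i 1)) := ⟨_, fun _ _ _ => rfl⟩
  have hdot : ∀ (φ : Module.Dual F (ι → F)) c x, (fun i => c * φ (Pi.single i 1)) ⬝ᵥ x = c * φ x := by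
    intro φ c x
    conv_rhs => rw [pi_eq_sum_univ' x, map_sum, Finset.mul_sum]
    simp only [dotProduct, map_smul, smul_eq_mul]
    exact Finset.sum_congr rfl fun i _ => by ring
  have hmul : ∀ v φ c x, H v φ c *ᵥ x = x + (c * φ x) • v := fun v φ c x => by
    rw [hH, add_mulVec, one_mulVec, vecMulVec_mulVec, op_smul_eq_smul, hdot]
  have hdet : ∀ v φ c, (H v φ c).det = 1 + c * φ v := fun v φ c => by
    rw [hH, vecMulVec_eq Unit, det_one_add_replicateCol_mul_replicateRow, hdot]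
  have hd : (H z θ (δ⁻¹ - 1) * H y χ (δ - 1)).det = 1 := by
    rw [det_mul, hdet, hdet, hy, hz]
    field_simp
    ring
  refine ⟨GeneralLinearGroup.mkOfDetNeZero _ (by rw [hd]; exact one_ne_zero), ?_, fun x => ?_⟩
  · rw [Cfsg.Geo.specialLinear, MonoidHom.mem_ker]
    exact Units.ext hd
  · show (H z θ (δ⁻¹ - 1) * H y χ (δ - 1)) *ᵥ x = _
    rw [← mulVec_mulVec, hmul, hmul, map_add, map_smul, hyz, smul_zero, add_zero]

variable {t m : ℕ} {D : Fin t → Submodule F (ι → F)}

/-- An element of determinant one exchanging two members. -/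
theorem exists_member_swap (hD : Cfsg.Geo.IsMDecomposition m D) {a c : Fin t} (hac : a ≠ c) :
    ∃ g ∈ Cfsg.Geo.specialLinear ι F, ∀ l, (D l).map (Matrix.toLin' (g : Matrix ι ι F)) = D (Equiv.swap a c l) := by
  obtain ⟨π, hπm, hπs, hπi, hπ0⟩ := GeoDecomp.exists_proj hD
  let e : D a ≃ₗ[F] D c := LinearEquiv.ofFinrankEq _ _ (by rw [hD.finrank_eq, hD.finrank_eq])
  let Lf : (ι → F) →ₗ[F] (ι → F) := (D c).subtype ∘ₗ e.toLinearMap ∘ₗ (π a).codRestrict (D a) (hπm a)
  let Lb : (ι → F) →ₗ[F] (ι → F) := -((D a).subtype ∘ₗ e.symm.toLinearMap ∘ₗ (π c).codRestrict (D c) (hπm c))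
  have hpa : ∀ x (hx : x ∈ D a), (π a).codRestrict (D a) (hπm a) x = ⟨x, hx⟩ := fun x hx => Subtype.ext (hπi a x hx)
  have hpc : ∀ x (hx : x ∈ D c), (π c).codRestrict (D c) (hπm c) x = ⟨x, hx⟩ := fun x hx => Subtype.ext (hπi c x hx)
  have hf0 : ∀ l, l ≠ a → ∀ x ∈ D l, Lf x = 0 := fun l hl x hx => by
    have : (π a).codRestrict (D a) (hπm a) x = 0 := Subtype.ext (hπ0 a l hl.symm x hx)
    simp [Lf, this]
  have hb0 : ∀ l, l ≠ c → ∀ x ∈ D l, Lb x = 0 := fun l hl x hx => by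
    have : (π c).codRestrict (D c) (hπm c) x = 0 := Subtype.ext (hπ0 c l hl.symm x hx)
    simp [Lb, this]
  have hfa : ∀ x (hx : x ∈ D a), Lf x = e ⟨x, hx⟩ := fun x hx => by simp [Lf, hpa x hx]
  have hbc : ∀ x (hx : x ∈ D c), Lb x = -(e.symm ⟨x, hx⟩ : ι → F) := fun x hx => by simp [Lb, hpc x hx]
  have hshear : ∀ (L P : (ι → F) →ₗ[F] (ι → F)), (∀ x, L (P x) = L x) → (∀ x, P (L x) = 0) →
      (1 + LinearMap.toMatrix' L).det = 1 := fun L P h1 h2 => by
    have e1 : LinearMap.toMatrix' L = LinearMap.toMatrix' L * LinearMap.toMatrix' P := by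
      rw [← LinearMap.toMatrix'_comp]; exact congrArg _ (LinearMap.ext fun x => (h1 x).symm)
    have e2 : LinearMap.toMatrix' P * LinearMap.toMatrix' L = 0 := by
      rw [← LinearMap.toMatrix'_comp, show P ∘ₗ L = 0 from LinearMap.ext h2, map_zero]
    rw [e1, det_one_add_mul_comm, e2, add_zero, det_one]
  have hdf : (1 + LinearMap.toMatrix' Lf).det = 1 := hshear Lf (π a) (fun x => by
      have : (π a).codRestrict (D a) (hπm a) (π a x) = (π a).codRestrict (D a) (hπm a) x :=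
        Subtype.ext (hπi a _ (hπm a x))
      simp [Lf, this])
    (fun x => hπ0 a c hac _ (Submodule.coe_mem _))
  have hdb : (1 + LinearMap.toMatrix' Lb).det = 1 := hshear Lb (π c) (fun x => by
      have : (π c).codRestrict (D c) (hπm c) (π c x) = (π c).codRestrict (D c) (hπm c) x :=
        Subtype.ext (hπi c _ (hπm c x))
      simp [Lb, this])
    (fun x => by simp only [Lb, LinearMap.neg_apply, map_neg, neg_eq_zero]; exact hπ0 c a hac.symm _ (Submodule.coe_mem _))
  set A := 1 + LinearMap.toMatrix' Lb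
  set B := 1 + LinearMap.toMatrix' Lf
  have hA : ∀ x, A *ᵥ x = x + Lb x := fun x => by
    simp only [A, add_mulVec, one_mulVec, LinearMap.toMatrix'_mulVec]
  have hB : ∀ x, B *ᵥ x = x + Lf x := fun x => by
    simp only [B, add_mulVec, one_mulVec, LinearMap.toMatrix'_mulVec]
  have hd : (A * B * A).det = 1 := by rw [det_mul, det_mul, hdf, hdb, one_mul, one_mul]
  refine ⟨GeneralLinearGroup.mkOfDetNeZero (A * B * A) (by rw [hd]; exact one_ne_zero), ?_, fun l => ?_⟩
  · rw [Cfsg.Geo.specialLinear, MonoidHom.mem_ker]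
    exact Units.ext hd
  have hinj : Function.Injective (Matrix.toLin' (A * B * A)) := fun x y h =>
    mulVec_injective_of_isUnit ((Matrix.isUnit_iff_isUnit_det _).2 (by rw [hd]; exact isUnit_one)) (by rwa [Matrix.toLin'_apply, Matrix.toLin'_apply] at h)
  refine Submodule.eq_of_le_of_finrank_le ?_ ?_
  · rintro _ ⟨x, hx, rfl⟩
    show Matrix.toLin' (A * B * A) x ∈ _
    rw [Matrix.toLin'_apply, ← mulVec_mulVec, ← mulVec_mulVec, hA x, hB]
    rcases eq_or_ne l a with rfl | hla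
    · rw [Equiv.swap_apply_left, hb0 l hac x hx, add_zero, hfa x hx, hA, map_add, hb0 l hac x hx, zero_add,
        hbc _ (Submodule.coe_mem _)]
      simp
    rcases eq_or_ne l c with rfl | hlc
    · rw [Equiv.swap_apply_right, hbc x hx, map_add, hf0 l hac.symm x hx, zero_add, map_neg,
        hfa _ (Submodule.coe_mem _)]
      have e1 : x + -(e.symm ⟨x, hx⟩ : ι → F) + -((e (⟨(e.symm ⟨x, hx⟩ : ι → F), Submodule.coe_mem _⟩ : D a)) : ι → F) =
          -(e.symm ⟨x, hx⟩ : ι → F) := by simp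
      rw [e1, hA, map_neg, hb0 a hac _ (Submodule.coe_mem _), neg_zero, add_zero]
      exact neg_mem (Submodule.coe_mem _)
    · rw [Equiv.swap_apply_of_ne_of_ne hla hlc, hb0 l hlc x hx, add_zero, hf0 l hla x hx, add_zero, hA,
        hb0 l hlc x hx, add_zero]
      exact hx
  · show _ ≤ Module.finrank F ((D l).map (Matrix.toLin' (A * B * A)))
    rw [← (Submodule.equivMapOfInjective _ hinj (D l)).finrank_eq, hD.finrank_eq, hD.finrank_eq]

theorem exists_dual {W : Submodule F (ι → F)} {x : ι → F} (hx : x ∉ W) :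
    ∃ η : Module.Dual F (ι → F), η x = 1 ∧ ∀ w ∈ W, η w = 0 := by
  obtain ⟨φ, hφx, hφ⟩ := Submodule.exists_dual_map_eq_bot_of_notMem hx inferInstance
  exact ⟨(φ x)⁻¹ • φ, by simp [inv_mul_cancel₀ hφx], fun w hw => by
    have h0 : φ w = 0 := (Submodule.mem_bot F).mp (hφ ▸ Submodule.mem_map_of_mem hw)
    rw [LinearMap.smul_apply, h0, smul_zero]⟩

theorem exists_notMem_of_finrank_lt {U W : Submodule F (ι → F)} (h : Module.finrank F W < Module.finrank F U) :
    ∃ x ∈ U, x ∉ W :=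
  SetLike.not_le_iff_exists.1 fun hle => absurd (Submodule.finrank_mono hle) (by omega)

theorem finrank_span_singleton_le (v : ι → F) : Module.finrank F (Submodule.span F ({v} : Set (ι → F))) ≤ 1 :=
  (finrank_span_le_card ({v} : Set (ι → F))).trans (by simp)

theorem specialLinear_le_of_not_stab [Nontrivial ι] [Fintype F] (hD : Cfsg.Geo.IsMDecomposition m D) (hm : 2 ≤ m)
    (hsmall : m = 2 → 3 ≤ t ∧ 3 ≤ Fintype.card F)
    (hG : Cfsg.Geo.decompositionStabilizer D ⊓ Cfsg.Geo.specialLinear ι F ≤ M) {g : GL ι F} (hg : g ∈ M)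
    (hgn : g ∉ Cfsg.Geo.decompositionStabilizer D) : Cfsg.Geo.specialLinear ι F ≤ M := by
  classical
  obtain ⟨π, hπm, hπs, hπi, hπ0⟩ := GeoDecomp.exists_proj hD
  have hπid : ∀ a, ∀ x, π a (π a x) = π a x := fun a x => hπi a _ (hπm a x)
  -- transvections inside a member
  have hin : ∀ a, ∀ v ∈ D a, ∀ η : Module.Dual F (ι → F), η v = 0 → (∀ x, η x = η (π a x)) → HasTv M v η := by
    intro a v hv η hηv hη h hh
    refine hG ⟨GeoDecomp.mem_stabilizer hD fun c => ⟨c, fun x hx => ?_⟩, ?_⟩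
    · rw [hh]
      rcases eq_or_ne c a with rfl | hca
      · exact add_mem hx ((D c).smul_mem _ hv)
      · rw [hη, hπ0 a c hca.symm x hx, map_zero, zero_smul, add_zero]; exact hx
    · obtain ⟨s, hsS, hs⟩ := GeoTransvection.exists_transvection v η hηv
      rwa [GeoFull.gl_ext (g := h) (h := s) fun x => by rw [hh, hs]]
  -- moving a transvection by one inside a member
  have hconj : ∀ a, ∀ y ∈ D a, ∀ θ : Module.Dual F (ι → F), θ y = 0 → (∀ x, θ x = θ (π a x)) →
      ∀ x ψ, HasTv M x ψ → HasTv M (x + θ x • y) (ψ - ψ y • θ) := by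
    intro a y hy θ hθy hθ x ψ h
    obtain ⟨s, -, hs⟩ := GeoTransvection.exists_transvection y θ hθy
    have h' := hasTv_conj (hin a y hy θ hθy hθ s hs) h
    rw [hs] at h'
    convert h' using 1
    refine LinearMap.ext fun z => ?_
    have hinv : ((s⁻¹ : GL ι F) : Matrix ι ι F) *ᵥ z = z - θ z • y := by
      apply mulVec_injective_of_isUnit s.isUnit
      show (s : Matrix ι ι F) *ᵥ _ = (s : Matrix ι ι F) *ᵥ _
      rw [GeoFull.mulVec_inv_cancel, hs]
      simp [hθy]
    simp [hinv, -Matrix.coe_units_inv]; ring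
  -- a centre inside a member
  have hwstep : ∀ x ψ, (∀ c : F, HasTv M x (c • ψ)) → ψ x = 0 → ∀ a, π a x ≠ 0 → ∀ w ∈ D a, w ≠ 0 → ψ w = 0 →
      w ∉ Submodule.span F {π a x} → ∀ c : F, HasTv M w (c • ψ) := by
    intro x ψ hT hx a hxa w hw hw0 hψw hwx c
    obtain ⟨η, hη1, hη⟩ := exists_dual (x := π a x) (W := Submodule.span F {w}) fun h => by
      obtain ⟨k, hk⟩ := Submodule.mem_span_singleton.1 h
      have hk0 : k ≠ 0 := fun h0 => hxa (by rw [← hk, h0, zero_smul])
      exact hwx (Submodule.mem_span_singleton.2 ⟨k⁻¹, by rw [← hk, smul_smul, inv_mul_cancel₀ hk0, one_smul]⟩)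
    have h1 := hconj a w hw (η.comp (π a)) (by simp [hπi a w hw, hη w (Submodule.mem_span_singleton_self w)])
      (fun z => by simp [hπid]) x (c • ψ) (hT c)
    rw [LinearMap.comp_apply, hη1, one_smul, LinearMap.smul_apply, hψw, smul_zero, zero_smul, sub_zero] at h1
    exact hasTv_centre_sub (by simp [hx]) (by simp [hψw]) h1 (hT c)
  -- a transvection between two members gives everything
  have hroot : ∀ a b, a ≠ b → ∀ w ∈ D a, w ≠ 0 → ∀ ψ : Module.Dual F (ι → F), (∀ c : F, HasTv M w (c • ψ)) → ψ w = 0 →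
      (∃ y ∈ D b, ψ y ≠ 0) → Cfsg.Geo.specialLinear ι F ≤ M := by
    intro a b hab w hw hw0 ψ hT hψw ⟨y, hy, hψy⟩
    have hwb : ∀ η : Module.Dual F (ι → F), η (π b w) = 0 := fun η => by rw [hπ0 b a hab.symm w hw, map_zero]
    -- the functional in the second member
    have hd : ∀ ψ₀ : Module.Dual F (ι → F), (∀ c : F, HasTv M w (c • ψ₀)) → ψ₀ w = 0 → ∀ y ∈ D b, ψ₀ y ≠ 0 →
        ∀ η : Module.Dual F (ι → F), η y = 0 → HasTv M w (η.comp (π b)) := by
      intro ψ₀ hT hψw y hy hψy η hηy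
      have h1 := hconj b y hy (η.comp (π b)) (by simp [hπi b y hy, hηy]) (fun z => by simp [hπid])
        w ((ψ₀ y)⁻¹ • ψ₀) (hT _)
      rw [LinearMap.comp_apply, hwb, zero_smul, add_zero, LinearMap.smul_apply, smul_eq_mul, inv_mul_cancel₀ hψy,
        one_smul] at h1
      have := GeoFull.hasTv_sub (φ := (ψ₀ y)⁻¹ • ψ₀) (ψ := (ψ₀ y)⁻¹ • ψ₀ - η.comp (π b)) (by simp [hψw])
        (by simp [hψw, hwb]) (hT _) h1
      rwa [sub_sub_cancel] at this
    obtain ⟨y₁, hy₁, hy₁y⟩ := exists_notMem_of_finrank_lt (U := D b) (W := Submodule.span F {y})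
      (lt_of_le_of_lt (finrank_span_singleton_le y) (by rw [hD.finrank_eq]; omega))
    obtain ⟨η₀, hη₀, hη₀y⟩ := exists_dual hy₁y
    have hη₀' : ∀ c : F, HasTv M w (c • η₀.comp (π b)) := fun c => by
      have := hd ψ hT hψw y hy hψy (c • η₀) (by simp [hη₀y y (Submodule.mem_span_singleton_self y)])
      rwa [LinearMap.smul_comp] at this
    have hR1 : ∀ η : Module.Dual F (ι → F), HasTv M w (η.comp (π b)) := by
      intro η
      have h1 := hd (η₀.comp (π b)) hη₀' (hwb _) y₁ hy₁ (by simp [hπi b y₁ hy₁, hη₀]) (η - η y₁ • η₀) (by simp [hη₀])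
      have h2 := GeoFull.hasTv_add (by simp [hwb]) (by simp [hwb]) h1 (hη₀' (η y₁))
      rwa [LinearMap.sub_comp, LinearMap.smul_comp, sub_add_cancel] at h2
    have hR2 : ∀ v ∈ D a, ∀ η : Module.Dual F (ι → F), HasTv M v (η.comp (π b)) := by
      intro v hv η
      by_cases hvw : w ∈ Submodule.span F {v}
      · obtain ⟨k, hk⟩ := Submodule.mem_span_singleton.1 hvw
        have hk0 : k ≠ 0 := fun h0 => hw0 (by rw [← hk, h0, zero_smul])
        intro h hh
        refine hR1 (k⁻¹ • η) h fun z => ?_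
        rw [hh, LinearMap.comp_apply, LinearMap.comp_apply, LinearMap.smul_apply, ← hk, smul_smul, smul_eq_mul,
          mul_comm k⁻¹, mul_assoc, inv_mul_cancel₀ hk0, mul_one]
      · obtain ⟨θ, hθ1, hθ⟩ := exists_dual hvw
        have hvb : η (π b v) = 0 := by rw [hπ0 b a hab.symm v hv, map_zero]
        have h1 := hconj a v hv (θ.comp (π a)) (by simp [hπi a v hv, hθ v (Submodule.mem_span_singleton_self v)])
          (fun z => by simp [hπid]) w (η.comp (π b)) (hR1 η)
        rw [LinearMap.comp_apply, hπi a w hw, hθ1, one_smul, LinearMap.comp_apply, hvb, zero_smul, sub_zero] at h1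
        exact hasTv_centre_sub (hwb η) hvb h1 (hR1 η)
    let R : Fin t → Fin t → Prop := fun i j => ∀ v ∈ D i, ∀ η : Module.Dual F (ι → F), HasTv M v (η.comp (π j))
    have hswap : ∀ p q, p ≠ q → ∀ i j, i ≠ j → R i j → R (Equiv.swap p q i) (Equiv.swap p q j) := by
      intro p q hpq i j hij h v hv η
      obtain ⟨s, hsS, hs⟩ := exists_member_swap hD hpq
      have hsM : s ∈ M := hG ⟨⟨_, hs⟩, hsS⟩
      rw [← hs i, Submodule.mem_map] at hv
      obtain ⟨v₀, hv₀, rfl⟩ := hv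
      rw [Matrix.toLin'_apply]
      obtain ⟨φ, hφ⟩ : ∃ φ, φ = (η.comp (π (Equiv.swap p q j))).comp (Matrix.toLin' (s : Matrix ι ι F)) := ⟨_, rfl⟩
      have e : φ.comp (π j) = φ := LinearMap.ext fun z => by
        conv_rhs => rw [← hπs z, map_sum]
        rw [Finset.sum_eq_single j (fun l _ hl => by
          rw [hφ, LinearMap.comp_apply, LinearMap.comp_apply,
            hπ0 _ _ ((Equiv.swap p q).injective.ne hl.symm) _ (hs l ▸ Submodule.mem_map_of_mem (hπm l z)), map_zero])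
          (by simp), LinearMap.comp_apply]
      have h1 := hasTv_conj hsM (h v₀ hv₀ φ)
      rw [e] at h1
      convert h1 using 1
      refine LinearMap.ext fun z => ?_
      simp [hφ, GeoFull.mulVec_inv_cancel]
    have hall : ∀ i j, i ≠ j → R i j := by
      intro i j hij
      obtain ⟨b', hb', h1⟩ : ∃ b', b' ≠ i ∧ R i b' := by
        by_cases hai : a = i
        · exact ⟨b, hai ▸ hab.symm, hai ▸ hR2⟩
        · refine ⟨Equiv.swap a i b, fun e => hab (((Equiv.swap a i).injective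
            ((Equiv.swap_apply_left a i).trans e.symm))), ?_⟩
          have := hswap a i hai a b hab hR2
          rwa [Equiv.swap_apply_left] at this
      by_cases hbj : b' = j
      · exact hbj ▸ h1
      · have := hswap b' j hbj i b' hb'.symm h1
        rwa [Equiv.swap_apply_left, Equiv.swap_apply_of_ne_of_ne hb'.symm hij] at this
    refine GeoFull.specialLinear_le_of_fullSub (eq_top_iff.2 (hD.iSup_eq_top ▸ iSup_le fun i v hv => ?_))
    refine GeoFull.mem_fullSub.2 fun φ hφ => ?_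
    have hdec : φ = ∑ j, φ.comp (π j) := LinearMap.ext fun z => by
      conv_lhs => rw [← hπs z, map_sum]
      simp
    rw [hdec]
    refine (Finset.sum_induction _ (fun χ : Module.Dual F (ι → F) => χ v = 0 ∧ HasTv M v χ)
      (fun f f' hf hf' => ⟨by simp [hf.1, hf'.1], GeoFull.hasTv_add hf.1 hf'.1 hf.2 hf'.2⟩)
      ⟨rfl, GeoFull.hasTv_zero _⟩ fun j _ => ?_).2
    rcases eq_or_ne i j with rfl | hij
    · exact ⟨by simp [hπi i v hv, hφ], hin i v hv _ (by simp [hπi i v hv, hφ]) fun z => by simp [hπid]⟩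
    · exact ⟨by simp [hπ0 j i hij.symm v hv], hall i j hij v hv φ⟩
  -- a member with an image outside all members
  obtain ⟨i, v, hv, hgv⟩ : ∃ i, ∃ v ∈ D i, ∀ j, (g : Matrix ι ι F) *ᵥ v ∉ D j := by
    by_contra hall
    push Not at hall
    refine hgn (GeoDecomp.mem_stabilizer hD fun i => ?_)
    obtain ⟨v₀, hv₀, hv₀0⟩ := (D i).exists_mem_ne_zero_of_ne_bot fun h => by
      have := hD.finrank_eq i; rw [h, finrank_bot] at this; omega
    obtain ⟨j, hj⟩ := hall i v₀ hv₀
    refine ⟨j, fun x hx => ?_⟩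
    obtain ⟨j', hj'⟩ := hall i x hx
    obtain ⟨j'', hj''⟩ := hall i (v₀ + x) (add_mem hv₀ hx)
    rcases eq_or_ne j' j with rfl | hne
    · exact hj'
    rw [mulVec_add] at hj''
    have hp : π j ((g : Matrix ι ι F) *ᵥ v₀ + (g : Matrix ι ι F) *ᵥ x) = (g : Matrix ι ι F) *ᵥ v₀ := by
      rw [map_add, hπi j _ hj, hπ0 j j' hne.symm _ hj', add_zero]
    rcases eq_or_ne j'' j with rfl | hne''
    · simpa using sub_mem hj'' hj
    · rw [hπ0 j j'' hne''.symm _ hj''] at hp
      exact absurd (mulVec_injective_of_isUnit g.isUnit (hp.symm.trans (mulVec_zero _).symm)) hv₀0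
  have hv0 : v ≠ 0 := fun h => hgv ⟨0, by have := hD.two_le; omega⟩ (by rw [h, mulVec_zero]; exact zero_mem _)
  obtain ⟨x, hx⟩ : ∃ x, x = (g : Matrix ι ι F) *ᵥ v := ⟨_, rfl⟩
  rw [← hx] at hgv
  obtain ⟨w₀, hw₀, hw₀v⟩ := exists_notMem_of_finrank_lt (U := D i) (W := Submodule.span F {v})
    (lt_of_le_of_lt (finrank_span_singleton_le v) (by rw [hD.finrank_eq]; omega))
  obtain ⟨η, hη, hηv⟩ := exists_dual hw₀v
  obtain ⟨ψ, hψ⟩ : ∃ ψ, ψ = (η.comp (π i)).comp (Matrix.toLin' ((g⁻¹ : GL ι F) : Matrix ι ι F)) := ⟨_, rfl⟩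
  have hT : ∀ c : F, HasTv M x (c • ψ) := fun c => by
    have := hasTv_conj hg (hin i v hv (c • η.comp (π i)) (by simp [hπi i v hv, hηv v (Submodule.mem_span_singleton_self v)])
      fun z => by simp [hπid])
    rwa [← hx, LinearMap.smul_comp, ← hψ] at this
  have hψx : ψ x = 0 := by
    simp [hψ, hx, GeoFull.inv_mulVec_cancel, hπi i v hv, hηv v (Submodule.mem_span_singleton_self v)]
  obtain ⟨b, y, hy, hψy⟩ : ∃ b, ∃ y ∈ D b, ψ y ≠ 0 := by
    by_contra hall
    push Not at hall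
    have : ψ ((g : Matrix ι ι F) *ᵥ w₀) = 0 := by
      rw [← hπs ((g : Matrix ι ι F) *ᵥ w₀), map_sum]
      exact Finset.sum_eq_zero fun l _ => hall l _ (hπm l _)
    simp [hψ, GeoFull.inv_mulVec_cancel, hπi i w₀ hw₀, hη] at this
  obtain ⟨a, hab, hxa⟩ : ∃ a, a ≠ b ∧ π a x ≠ 0 := by
    by_contra hall
    push Not at hall
    refine hgv b ?_
    rw [← hπs x, Finset.sum_eq_single b (fun l _ hl => hall l hl) (by simp)]
    exact hπm b x
  obtain ⟨a', ha', hxa'⟩ : ∃ a', a' ≠ a ∧ π a' x ≠ 0 := by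
    by_contra hall
    push Not at hall
    refine hgv a ?_
    rw [← hπs x, Finset.sum_eq_single a (fun l _ hl => hall l hl) (by simp)]
    exact hπm a x
  let K : Fin t → Submodule F (ι → F) := fun c => D c ⊓ LinearMap.ker ψ
  have hK : ∀ c, m ≤ Module.finrank F (K c) + 1 := fun c => by
    have h1 := (ψ.comp (D c).subtype).finrank_range_add_finrank_ker
    have h2 := Submodule.finrank_le (LinearMap.range (ψ.comp (D c).subtype))
    rw [Module.finrank_self] at h2
    rw [hD.finrank_eq] at h1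
    have h3 : Module.finrank F (LinearMap.ker (ψ.comp (D c).subtype)) ≤ Module.finrank F (K c) :=
      LinearMap.finrank_le_finrank_of_injective (f := ((D c).subtype.comp
        (LinearMap.ker (ψ.comp (D c).subtype)).subtype).codRestrict (K c) (fun z => ⟨z.1.2, z.2⟩))
        (fun z z' e => Subtype.ext (Subtype.ext
          (show ((z : D c) : ι → F) = ((z' : D c) : ι → F) from congrArg (fun w : K c => (w : ι → F)) e)))
    omega
  have hgood : ∀ c, π c x ≠ 0 → (∃ b', b' ≠ c ∧ ∃ y ∈ D b', ψ y ≠ 0) → ¬ K c ≤ Submodule.span F {π c x} →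
      Cfsg.Geo.specialLinear ι F ≤ M := by
    rintro c hxc ⟨b', hb', y', hy', hψy'⟩ hK'
    obtain ⟨w, hwK, hwx⟩ := SetLike.not_le_iff_exists.1 hK'
    have hw0 : w ≠ 0 := fun h => hwx (h ▸ zero_mem _)
    exact hroot c b' hb'.symm w hwK.1 hw0 ψ (hwstep x ψ hT hψx c hxc w hwK.1 hw0 hwK.2 hwx) hwK.2 ⟨y', hy', hψy'⟩
  by_cases hKa : K a ≤ Submodule.span F {π a x}
  swap
  · exact hgood a hxa ⟨b, hab.symm, y, hy, hψy⟩ hKa
  have hKa1 := (Submodule.finrank_mono hKa).trans (finrank_span_singleton_le _)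
  have hm2 : m = 2 := by have := hK a; omega
  obtain ⟨ht, hq⟩ := hsmall hm2
  have hψa : ∃ z ∈ D a, ψ z ≠ 0 := by
    by_contra hall
    push Not at hall
    have : Module.finrank F (D a) ≤ Module.finrank F (K a) :=
      Submodule.finrank_mono fun z hz => ⟨hz, hall z hz⟩
    rw [hD.finrank_eq] at this
    omega
  by_cases hKa' : K a' ≤ Submodule.span F {π a' x}
  swap
  · exact hgood a' hxa' ⟨a, ha'.symm, hψa⟩ hKa'
  have hKa'1 := (Submodule.finrank_mono hKa').trans (finrank_span_singleton_le _)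
  have horth : ψ (π a' x) = 0 := by
    have h1 := hK a'
    have h2 : K a' = Submodule.span F {π a' x} :=
      Submodule.eq_of_le_of_finrank_le hKa' (by rw [finrank_span_singleton hxa']; omega)
    exact ((h2 ▸ Submodule.mem_span_singleton_self _ : π a' x ∈ K a')).2
  obtain ⟨y', hy', hψy'⟩ : ∃ z ∈ D a', ψ z = 1 := by
    by_contra hall
    push Not at hall
    have : Module.finrank F (D a') ≤ Module.finrank F (K a') :=
      Submodule.finrank_mono fun z hz => ⟨hz, by
        show ψ z = 0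
        by_contra h0
        exact hall ((ψ z)⁻¹ • z) ((D a').smul_mem _ hz) (by simp [inv_mul_cancel₀ h0])⟩
    rw [hD.finrank_eq] at this
    omega
  obtain ⟨c, hca, hca'⟩ : ∃ c, c ≠ a ∧ c ≠ a' := by
    obtain ⟨c, -, hc⟩ := Finset.exists_mem_notMem_of_card_lt_card (s := ({a, a'} : Finset (Fin t))) (t := Finset.univ)
      (lt_of_le_of_lt Finset.card_le_two (by rw [Finset.card_univ, Fintype.card_fin]; omega))
    simp only [Finset.mem_insert, Finset.mem_singleton, not_or] at hc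
    exact ⟨c, hc⟩
  obtain ⟨z, hz, hzx⟩ := exists_notMem_of_finrank_lt (U := D c) (W := Submodule.span F {π c x})
    (lt_of_le_of_lt (finrank_span_singleton_le _) (by rw [hD.finrank_eq]; omega))
  obtain ⟨θ, hθz, hθx⟩ := exists_dual hzx
  obtain ⟨δ, hδ0, hδ1⟩ : ∃ δ : F, δ ≠ 0 ∧ δ ≠ 1 := by
    obtain ⟨δ, -, hδ⟩ := Finset.exists_mem_notMem_of_card_lt_card (s := ({0, 1} : Finset F)) (t := Finset.univ)
      (lt_of_le_of_lt Finset.card_le_two (by rw [Finset.card_univ]; omega))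
    simp only [Finset.mem_insert, Finset.mem_singleton, not_or] at hδ
    exact ⟨δ, hδ⟩
  obtain ⟨h, hhS, hh⟩ := exists_two_homologies y' z (ψ.comp (π a')) (θ.comp (π c))
    (by simp [hπi a' y' hy', hψy']) (by simp [hπi c z hz, hθz]) (by simp [hπ0 c a' hca' y' hy']) hδ0
  have hhM : h ∈ M := hG ⟨GeoDecomp.mem_stabilizer hD fun l => ⟨l, fun u hu => by
    rw [hh]
    rcases eq_or_ne l a' with rfl | hla'
    · rw [show (θ.comp (π c)) u = 0 by simp [hπ0 c l hca' u hu], mul_zero, zero_smul, add_zero]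
      exact add_mem hu ((D l).smul_mem _ hy')
    rw [show (ψ.comp (π a')) u = 0 by simp [hπ0 a' l hla'.symm u hu], mul_zero, zero_smul, add_zero]
    rcases eq_or_ne l c with rfl | hlc
    · exact add_mem hu ((D l).smul_mem _ hz)
    · rw [show (θ.comp (π c)) u = 0 by simp [hπ0 c l (Ne.symm hlc) u hu], mul_zero, zero_smul, add_zero]; exact hu⟩, hhS⟩
  have hhx : (h : Matrix ι ι F) *ᵥ x = x := by
    rw [hh]; simp [horth, hθx _ (Submodule.mem_span_singleton_self _)]
  obtain ⟨ψ', hψ'⟩ : ∃ ψ', ψ' = ψ - ψ.comp (Matrix.toLin' ((h⁻¹ : GL ι F) : Matrix ι ι F)) := ⟨_, rfl⟩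
  have hinvx : ((h⁻¹ : GL ι F) : Matrix ι ι F) *ᵥ x = x := by
    conv_lhs => rw [← hhx, GeoFull.inv_mulVec_cancel]
  have hT' : ∀ k : F, HasTv M x (k • ψ') := fun k => by
    have h1 := hasTv_conj hhM (hT k)
    rw [hhx, LinearMap.smul_comp] at h1
    rw [hψ', smul_sub]
    exact GeoFull.hasTv_sub (by simp [hψx]) (by simp [hinvx, hψx, -Matrix.coe_units_inv]) (hT k) h1
  have hψ'x : ψ' x = 0 := by simp [hψ', hinvx, hψx, -Matrix.coe_units_inv]
  obtain ⟨w, hw, hwx⟩ := exists_notMem_of_finrank_lt (U := D a) (W := Submodule.span F {π a x})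
    (lt_of_le_of_lt (finrank_span_singleton_le _) (by rw [hD.finrank_eq]; omega))
  have hw0 : w ≠ 0 := fun e => hwx (e ▸ zero_mem _)
  have hψ'w : ψ' w = 0 := by
    have hw' : (h : Matrix ι ι F) *ᵥ w = w := by
      rw [hh]; simp [hπ0 a' a ha' w hw, hπ0 c a hca w hw]
    have : ((h⁻¹ : GL ι F) : Matrix ι ι F) *ᵥ w = w := by conv_lhs => rw [← hw', GeoFull.inv_mulVec_cancel]
    simp [hψ', this, -Matrix.coe_units_inv]
  refine hroot a a' ha'.symm w hw hw0 ψ' (hwstep x ψ' hT' hψ'x a hxa w hw hw0 hψ'w hwx) hψ'w ⟨y', hy', ?_⟩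
  have hy'h : (h : Matrix ι ι F) *ᵥ y' = δ • y' := by
    rw [hh]; simp [hπi a' y' hy', hψy', hπ0 c a' hca' y' hy']; module
  have : ((h⁻¹ : GL ι F) : Matrix ι ι F) *ᵥ y' = δ⁻¹ • y' := by
    apply mulVec_injective_of_isUnit h.isUnit
    show (h : Matrix ι ι F) *ᵥ _ = (h : Matrix ι ι F) *ᵥ _
    rw [GeoFull.mulVec_inv_cancel, mulVec_smul, hy'h, smul_smul, inv_mul_cancel₀ hδ0, one_smul]
  simp only [hψ', LinearMap.sub_apply, LinearMap.comp_apply, Matrix.toLin'_apply, this, map_smul, hψy', smul_eq_mul,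
    mul_one, sub_ne_zero]
  exact fun e => hδ1 (inv_eq_one.1 e.symm)

end CfsgLib.GeoBlock
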