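import Cfsg.Agent.GeoLib.Parabolic

/-!
Closure properties of the transvections of a subgroup, and the symplectic criterion: a subgroup with all
symplectic transvections and one further transvection contains the special linear group.
-/

set_option autoImplicit false

namespace CfsgLib.GeoFull

open Matrix CfsgLib.GeoParabolic

variable {ι : Type} [Fintype ι] [DecidableEq ι] {F : Type*} [Field F] {M : Subgroup (GL ι F)}

theorem mulVec_inv_cancel (g : GL ι F) (x : ι → F) :
    (g : Matrix ι ι F) *ᵥ (((g⁻¹ : GL ι F) : Matrix ι ι F) *ᵥ x) = x := by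
  rw [mulVec_mulVec, ← Units.val_mul, mul_inv_cancel, Units.val_one, one_mulVec]

theorem inv_mulVec_cancel (g : GL ι F) (x : ι → F) :
    ((g⁻¹ : GL ι F) : Matrix ι ι F) *ᵥ ((g : Matrix ι ι F) *ᵥ x) = x := by
  rw [mulVec_mulVec, ← Units.val_mul, inv_mul_cancel, Units.val_one, one_mulVec]

theorem gl_ext {g h : GL ι F} (e : ∀ x, (g : Matrix ι ι F) *ᵥ x = (h : Matrix ι ι F) *ᵥ x) : g = h :=
  Units.ext (Matrix.ext_iff_mulVec.2 e)

theorem hasTv_zero (v : ι → F) : HasTv M v 0 := fun g hg => by
  have : g = 1 := gl_ext fun x => by simp [hg x]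
  rw [this]; exact one_mem M

theorem hasTv_add {v : ι → F} {φ ψ : Module.Dual F (ι → F)} (hφ : φ v = 0) (hψ : ψ v = 0)
    (h1 : HasTv M v φ) (h2 : HasTv M v ψ) : HasTv M v (φ + ψ) := by
  intro g hg
  obtain ⟨s, -, hs⟩ := GeoTransvection.exists_transvection v φ hφ
  obtain ⟨t, -, ht⟩ := GeoTransvection.exists_transvection v ψ hψ
  have : g = s * t := gl_ext fun x => by
    rw [Units.val_mul, ← mulVec_mulVec, ht, hs, hg, map_add, map_smul, hφ, smul_zero, add_zero,
      LinearMap.add_apply, add_smul]
    abel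
  rw [this]; exact mul_mem (h1 s hs) (h2 t ht)

theorem hasTv_neg {v : ι → F} {φ : Module.Dual F (ι → F)} (hφ : φ v = 0) (h : HasTv M v φ) :
    HasTv M v (-φ) := by
  intro g hg
  obtain ⟨s, -, hs⟩ := GeoTransvection.exists_transvection v φ hφ
  have : g = s⁻¹ := eq_inv_of_mul_eq_one_left (gl_ext fun x => by
    rw [Units.val_mul, ← mulVec_mulVec, hs, hg, map_add, map_smul, Units.val_one, one_mulVec]
    simp [hφ])
  rw [this]; exact inv_mem (h s hs)

theorem hasTv_sub {v : ι → F} {φ ψ : Module.Dual F (ι → F)} (hφ : φ v = 0) (hψ : ψ v = 0)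
    (h1 : HasTv M v φ) (h2 : HasTv M v ψ) : HasTv M v (φ - ψ) := by
  rw [sub_eq_add_neg]; exact hasTv_add hφ (by simp [hψ]) h1 (hasTv_neg hψ h2)

theorem full_add {v w : ι → F} (hv : Full M v) (hw : Full M w) : Full M (v + w) := by
  rcases eq_or_ne w 0 with rfl | hw0
  · rwa [add_zero]
  by_cases hd : v ∈ Submodule.span F {w}
  · obtain ⟨c, rfl⟩ := Submodule.mem_span_singleton.1 hd
    rw [show c • w + w = (c + 1) • w by rw [add_smul, one_smul]]
    exact full_smul hw _
  obtain ⟨φ, hφv, hφ⟩ := Submodule.exists_dual_map_eq_bot_of_notMem hd inferInstance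
  have hw' : φ w = 0 := (Submodule.mem_bot F).mp (hφ ▸ Submodule.mem_map_of_mem (Submodule.mem_span_singleton_self w))
  have h0 : ((φ v)⁻¹ • φ) w = 0 := by simp [hw']
  obtain ⟨t, -, ht⟩ := GeoTransvection.exists_transvection w _ h0
  have := full_map (hw _ h0 t ht) hv
  rwa [ht, LinearMap.smul_apply, smul_eq_mul, inv_mul_cancel₀ hφv, one_smul] at this

/-- The centres all of whose transvections lie in `M`. -/
def fullSub (M : Subgroup (GL ι F)) : Submodule F (ι → F) where
  carrier := {v | Full M v}
  add_mem' := full_add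
  zero_mem' := fun φ hφ g hg => by
    have : g = 1 := gl_ext fun x => by simp [hg x]
    rw [this]; exact one_mem M
  smul_mem' c _ h := full_smul h c

theorem mem_fullSub {v : ι → F} : v ∈ fullSub M ↔ Full M v := Iff.rfl

theorem specialLinear_le_of_fullSub [Nontrivial ι] (h : fullSub M = ⊤) :
    Cfsg.Geo.specialLinear ι F ≤ M :=
  specialLinear_le M fun v => mem_fullSub.1 (by rw [h]; trivial)

section Symplectic

variable {B : LinearMap.BilinForm F (ι → F)}

/-- A subgroup with the symplectic transvections and one transvection outside contains `SL`. -/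
theorem symplectic_le [Nontrivial ι] (halt : ∀ x, B x x = 0) (hB : ∀ x, (∀ y, B x y = 0) → x = 0)
    (hsymp : ∀ (w : ι → F) (c : F), HasTv M w (c • B w)) {v : ι → F} (hv0 : v ≠ 0)
    {ψ : Module.Dual F (ι → F)}
    (hψv : ψ v = 0) (hψ : ψ ∉ Submodule.span F {B v}) (hM : HasTv M v ψ) :
    Cfsg.Geo.specialLinear ι F ≤ M := by
  have hskew : ∀ x y, B y x = -B x y := fun x y => by
    have h := halt (x + y)
    simp only [map_add, LinearMap.add_apply, halt] at h
    linear_combination h
  have hinj : Function.Injective B := (injective_iff_map_eq_zero B).2 fun x hx => hB x fun y => by rw [hx]; rfl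
  have hsurj : Function.Surjective B :=
    (LinearMap.injective_iff_surjective_of_finrank_eq_finrank Subspace.dual_finrank_eq.symm).1 hinj
  obtain ⟨u, rfl⟩ := hsurj ψ
  -- all functionals `B z`, `B v z = 0`, for the centre `v`
  have hstep : ∀ z, B v z = 0 → B u z ≠ 0 → ∀ c : F, HasTv M v (c • B z) := by
    intro z hvz huz c
    have hzv : B z v = 0 := by rw [hskew, hvz, neg_zero]
    have h0 : ((c / B u z) • B z) z = 0 := by simp [halt]
    obtain ⟨s, -, hs⟩ := GeoTransvection.exists_transvection z _ h0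
    have hsv : (s : Matrix ι ι F) *ᵥ v = v := by rw [hs]; simp [hzv]
    have h1 := hasTv_conj (hsymp z _ s hs) hM
    rw [hsv] at h1
    set φ := (B u).comp (Matrix.toLin' ((s⁻¹ : GL ι F) : Matrix ι ι F)) with hφ
    have hinv : ∀ x, ((s⁻¹ : GL ι F) : Matrix ι ι F) *ᵥ x = x - (c / B u z * B z x) • z := by
      intro x
      apply mulVec_injective_of_isUnit s.isUnit
      show (s : Matrix ι ι F) *ᵥ _ = (s : Matrix ι ι F) *ᵥ _
      rw [mulVec_inv_cancel, hs]
      simp [halt]
    have e : B u - φ = c • B z := LinearMap.ext fun x => by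
      show B u x - B u (((s⁻¹ : GL ι F) : Matrix ι ι F) *ᵥ x) = c * B z x
      rw [hinv, map_sub, map_smul, smul_eq_mul]
      field_simp
      ring
    have hφv : φ v = 0 := by
      have := LinearMap.congr_fun e v
      simpa [hψv, hzv] using this
    rw [← e]
    exact hasTv_sub hψv hφv hM h1
  have hZ : ∀ z, B v z = 0 → ∀ c : F, HasTv M v (c • B z) := by
    obtain ⟨z₀, hz₀, huz₀⟩ : ∃ z, B v z = 0 ∧ B u z ≠ 0 := by
      by_contra hall
      push Not at hall
      obtain ⟨x, hx⟩ : ∃ x, B v x ≠ 0 := by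
        by_contra h'; push Not at h'; exact hv0 (hB v h')
      refine hψ (Submodule.mem_span_singleton.2 ⟨B u x / B v x, LinearMap.ext fun y => ?_⟩)
      have := hall (y - (B v y / B v x) • x) (by simp [div_mul_cancel₀ _ hx])
      simp at this
      simp
      linear_combination -this
    intro z hz c
    by_cases huz : B u z = 0
    · have h1 := hstep (z + z₀) (by simp [hz, hz₀]) (by simpa [huz] using huz₀) c
      have h2 := hstep z₀ hz₀ huz₀ c
      have hzv : B z v = 0 := by rw [hskew, hz, neg_zero]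
      have hzv₀ : B z₀ v = 0 := by rw [hskew, hz₀, neg_zero]
      have := hasTv_sub (φ := c • B (z + z₀)) (ψ := c • B z₀) (by simp [hzv, hzv₀]) (by simp [hzv₀]) h1 h2
      simpa using this
    · exact hstep z hz huz c
  have hfull : v ∈ fullSub M := by
    intro φ hφ
    obtain ⟨z, rfl⟩ := hsurj φ
    have := hZ z (by rw [hskew, hφ, neg_zero]) 1
    simpa using this
  -- the centres with all transvections are invariant under the symplectic transvections
  refine specialLinear_le_of_fullSub (eq_top_iff.2 fun x _ => ?_)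
  have hmove : ∀ a ∈ fullSub M, ∀ b, B a b ≠ 0 → b ∈ fullSub M := by
    intro a ha b hab
    have h0 : ((1 : F) • B b) b = 0 := by simp [halt]
    obtain ⟨s, -, hs⟩ := GeoTransvection.exists_transvection b _ h0
    have h1 : (s : Matrix ι ι F) *ᵥ a ∈ fullSub M := full_map (hsymp b _ s hs) ha
    rw [hs, one_smul] at h1
    have h2 := (fullSub M).sub_mem h1 ha
    rw [add_sub_cancel_left] at h2
    exact ((fullSub M).smul_mem_iff (by rw [hskew]; exact neg_ne_zero.2 hab)).1 h2
  obtain ⟨y, hy⟩ : ∃ y, B v y ≠ 0 := by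
    by_contra h'; push Not at h'; exact hv0 (hB v h')
  by_cases hx : B v x = 0
  · have := hmove v hfull (x + y) (by simpa [hx] using hy)
    simpa using (fullSub M).sub_mem this (hmove v hfull y hy)
  · exact hmove v hfull x hx

end Symplectic

end CfsgLib.GeoFull
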