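import Cfsg.Agent.GeoLib.FullSL
import Cfsg.Agent.Hermitian.Basic
import Cfsg.Agent.Forms.WittSesq

/-!
Root elements of a unitary group inside a subgroup of GL: singular vectors, the hull lemma, the criterion for
containing the special linear group, and the transvection made from two root elements of different forms.
-/

set_option autoImplicit false

namespace CfsgLib.GeoHerm

open Matrix CfsgLib.GeoParabolic CfsgLib.GeoFull

variable {ι : Type} [Fintype ι] [DecidableEq ι] {F : Type*} [Field F]

/-- A non-degenerate hermitian form, linear in the second argument. -/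
structure Herm (ι : Type) (F : Type*) [Field F] where
  σ : F →+* F
  ne_id : σ ≠ RingHom.id F
  invol : ∀ a, σ (σ a) = a
  B : (ι → F) →ₛₗ[σ] (ι → F) →ₗ[F] F
  symm : ∀ u v, σ (B u v) = B v u
  inj : Function.Injective B

variable (H : Herm ι F) {M : Subgroup (GL ι F)}

theorem surj_σ : Function.Surjective H.σ := fun a => ⟨H.σ a, H.invol a⟩

theorem comm_zero {u v : ι → F} (h : H.B u v = 0) : H.B v u = 0 := by rw [← H.symm, h, map_zero]

theorem add_smul_self (x y : ι → F) (c : F) :
    H.B (x + c • y) (x + c • y) = H.B x x + c * H.B x y + H.σ c * H.B y x + H.σ c * c * H.B y y := by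
  simp only [map_add, LinearMap.map_smulₛₗ, LinearMap.add_apply, LinearMap.smul_apply, map_smul, smul_eq_mul,
    RingHom.id_apply]
  ring

/-- The orthogonal space of `U`. -/
def perp (U : Submodule F (ι → F)) : Submodule F (ι → F) where
  carrier := {x | ∀ u ∈ U, H.B u x = 0}
  add_mem' ha hb u hu := by rw [map_add, ha u hu, hb u hu, add_zero]
  zero_mem' u _ := map_zero _
  smul_mem' c x hx u hu := by rw [map_smul, hx u hu, smul_zero]

theorem mem_perp {U : Submodule F (ι → F)} {x : ι → F} : x ∈ perp H U ↔ ∀ u ∈ U, H.B u x = 0 := Iff.rfl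

theorem mem_perp_span {s : Set (ι → F)} {x : ι → F} :
    x ∈ perp H (Submodule.span F s) ↔ ∀ u ∈ s, H.B u x = 0 := by
  rw [mem_perp]
  refine ⟨fun h u hu => h u (Submodule.subset_span hu), fun h u hu => ?_⟩
  induction hu using Submodule.span_induction with
  | mem u hu => exact h u hu
  | zero => simp
  | add a b _ _ ha hb => rw [map_add, LinearMap.add_apply, ha, hb, add_zero]
  | smul c a _ ha => rw [LinearMap.map_smulₛₗ, LinearMap.smul_apply, ha, smul_zero]

theorem mem_perp_pair {v u x : ι → F} :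
    x ∈ perp H (Submodule.span F {v, u}) ↔ H.B v x = 0 ∧ H.B u x = 0 := by
  rw [mem_perp_span]; simp

theorem le_finrank_perp (U : Submodule F (ι → F)) :
    Fintype.card ι ≤ Module.finrank F (perp H U) + Module.finrank F U := by
  let b := Module.finBasis F U
  let L : (ι → F) →ₗ[F] (Fin (Module.finrank F U) → F) := LinearMap.pi fun i => H.B (b i : ι → F)
  have h1 := L.finrank_range_add_finrank_ker
  have h2 : Module.finrank F (LinearMap.range L) ≤ Module.finrank F U :=
    (Submodule.finrank_le _).trans (by simp)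
  have hle : LinearMap.ker L ≤ perp H U := by
    intro x hx u hu
    have hb : ∀ i, H.B (b i : ι → F) x = 0 := fun i => congrFun (LinearMap.mem_ker.1 hx) i
    have : u = ∑ i, b.repr ⟨u, hu⟩ i • (b i : ι → F) := by
      have h := congrArg Subtype.val (b.sum_repr ⟨u, hu⟩)
      rw [Submodule.coe_sum] at h
      simp only [Submodule.coe_smul] at h
      exact h.symm
    rw [this, map_sum, LinearMap.sum_apply]
    refine Finset.sum_eq_zero fun i _ => ?_
    rw [LinearMap.map_smulₛₗ, LinearMap.smul_apply, hb, smul_zero]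
  have h3 := Submodule.finrank_mono hle
  rw [Module.finrank_fintype_fun_eq_card] at h1
  omega

theorem exists_polar_eq_one {U : Submodule F (ι → F)} {x : ι → F} (hx : x ∉ U) :
    ∃ f ∈ perp H U, H.B x f = 1 := by
  haveI : RingHomSurjective H.σ := ⟨surj_σ H⟩
  obtain ⟨w, hw, hxw⟩ := CfsgLib.Forms.exists_ne_zero_of_not_mem H.inj hx
  exact ⟨(H.B x w)⁻¹ • w, fun u hu => by rw [map_smul, hw u hu, smul_zero],
    by rw [map_smul, smul_eq_mul, inv_mul_cancel₀ hxw]⟩

theorem exists_dual_vec [Finite F] (φ : Module.Dual F (ι → F)) : ∃ u, H.B u = φ := by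
  have : Finite (Module.Dual F (ι → F)) := Module.finite_of_finite F
  exact ((Nat.bijective_iff_injective_and_card H.B).2 ⟨H.inj, by
    rw [Module.natCard_eq_pow_finrank (K := F), Module.natCard_eq_pow_finrank (K := F) (V := Module.Dual F (ι → F)),
      Subspace.dual_finrank_eq]⟩).2 φ

theorem exists_trace (a : F) (ha : H.σ a = a) : ∃ c, c + H.σ c = a := by
  obtain ⟨t, ht⟩ : ∃ t, t + H.σ t ≠ 0 := by
    by_contra hall
    push Not at hall
    refine H.ne_id (RingHom.ext fun x => ?_)
    have h1 := hall 1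
    rw [map_one] at h1
    have h2 := hall x
    rw [RingHom.id_apply]
    linear_combination h2 - x * h1
  refine ⟨a / (t + H.σ t) * t, ?_⟩
  rw [map_mul, map_div₀, map_add, H.invol, ha, add_comm (H.σ t) t]
  field_simp

/-- In a subspace of dimension at least two there is a non-zero singular vector. -/
theorem exists_singular [Finite F] (W : Submodule F (ι → F)) (hW : 2 ≤ Module.finrank F W) :
    ∃ x ∈ W, x ≠ 0 ∧ H.B x x = 0 := by
  obtain ⟨x, hx, hx0⟩ := W.exists_mem_ne_zero_of_ne_bot fun h => by rw [h, finrank_bot] at hW; omega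
  by_cases hxx : H.B x x = 0
  · exact ⟨x, hx, hx0, hxx⟩
  let φ : W →ₗ[F] F := (H.B x).comp W.subtype
  obtain ⟨y, hy, hy0⟩ := Submodule.exists_mem_ne_zero_of_ne_bot
    (show LinearMap.ker φ ≠ ⊥ from LinearMap.ker_ne_bot_of_finrank_lt (by simp; omega))
  have hxy : H.B x (y : ι → F) = 0 := hy
  by_cases hyy : H.B (y : ι → F) (y : ι → F) = 0
  · exact ⟨y, y.2, fun h => hy0 (Subtype.ext h), hyy⟩
  obtain ⟨c, -, hc⟩ := Hermitian.exists_norm H.ne_id H.invol
    (a := -H.B x x / H.B (y : ι → F) (y : ι → F)) (div_ne_zero (neg_ne_zero.2 hxx) hyy)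
    (by rw [map_div₀, map_neg, H.symm, H.symm])
  refine ⟨x + c • (y : ι → F), add_mem hx (W.smul_mem _ y.2), fun h => hxx ?_, ?_⟩
  · have := congrArg (H.B x) h
    rwa [map_add, map_smul, hxy, smul_zero, add_zero, map_zero] at this
  · rw [add_smul_self, hxy, comm_zero H hxy, hc, div_mul_cancel₀ _ hyy]; ring

theorem exists_partner {U : Submodule F (ι → F)} {d : ι → F} (hd : d ∈ perp H U) (hd0 : H.B d d = 0)
    (hdU : d ∉ U) : ∃ f ∈ perp H U, H.B f f = 0 ∧ H.B d f = 1 := by
  obtain ⟨f, hfU, hf⟩ := exists_polar_eq_one H hdU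
  obtain ⟨c, hc⟩ := exists_trace H (-H.B f f) (by rw [map_neg, H.symm])
  refine ⟨f + c • d, add_mem hfU (Submodule.smul_mem _ _ hd), ?_, ?_⟩
  · rw [add_smul_self, hd0, hf, ← H.symm d f, hf, map_one]
    linear_combination hc
  · rw [map_add, map_smul, hd0, hf, smul_zero, add_zero]

theorem exists_singular_polar {U : Submodule F (ι → F)} {e₀ : ι → F} (he : e₀ ∈ perp H U)
    (he0 : H.B e₀ e₀ = 0) (heU : e₀ ∉ U) {a : ι → F} (ha : a ∉ U) :
    ∃ e ∈ perp H U, H.B e e = 0 ∧ H.B a e ≠ 0 := by
  obtain ⟨e₁, he₁, he₁0, hp⟩ := exists_partner H he he0 heU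
  have hp' : H.B e₁ e₀ = 1 := by rw [← H.symm, hp, map_one]
  by_cases h0 : H.B a e₀ = 0
  swap
  · exact ⟨e₀, he, he0, h0⟩
  by_cases h1 : H.B a e₁ = 0
  swap
  · exact ⟨e₁, he₁, he₁0, h1⟩
  have hout : a ∉ U ⊔ Submodule.span F {e₀, e₁} := by
    intro h
    obtain ⟨u, hu, w, hw, rfl⟩ := Submodule.mem_sup.1 h
    obtain ⟨s, t, rfl⟩ := Submodule.mem_span_pair.1 hw
    simp [mem_perp H |>.1 he u hu, he0, hp'] at h0
    simp [mem_perp H |>.1 he₁ u hu, he₁0, hp] at h1
    exact ha (by simpa [h0, h1] using hu)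
  obtain ⟨z, hz, hz1⟩ := exists_polar_eq_one H hout
  have hzU : z ∈ perp H U := fun u hu => hz u (Submodule.mem_sup_left hu)
  have hz0 : H.B e₀ z = 0 := hz e₀ (Submodule.mem_sup_right (Submodule.subset_span (by simp)))
  have hze : H.B e₁ z = 0 := hz e₁ (Submodule.mem_sup_right (Submodule.subset_span (by simp)))
  obtain ⟨c, hc⟩ := exists_trace H (-H.B z z) (by rw [map_neg, H.symm])
  refine ⟨e₀ + z + c • e₁, add_mem (add_mem he hzU) (Submodule.smul_mem _ _ he₁), ?_, ?_⟩
  · rw [add_smul_self]
    simp only [map_add, LinearMap.add_apply, he0, he₁0, hz0, comm_zero H hz0, hze, comm_zero H hze, hp, hp']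
    linear_combination hc
  · rw [map_add, map_add, map_smul, h0, h1, hz1]; simp

variable [Finite F]

/-- A singular vector orthogonal to a small subspace and outside it. -/
theorem exists_singular_out (U : Submodule F (ι → F)) (h : 2 * Module.finrank F U + 2 ≤ Fintype.card ι) :
    ∃ e ∈ perp H U, H.B e e = 0 ∧ e ∉ U := by
  obtain ⟨C, hC⟩ := U.exists_isCompl
  have h1 := Submodule.finrank_sup_add_finrank_inf_eq (perp H U) C
  have h2 := Submodule.finrank_le (perp H U ⊔ C)
  have h3 := Submodule.finrank_add_eq_of_isCompl hC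
  have h4 := le_finrank_perp H U
  rw [Module.finrank_fintype_fun_eq_card] at h2 h3
  obtain ⟨e, he, he0, heQ⟩ := exists_singular H (perp H U ⊓ C) (by omega)
  exact ⟨e, he.1, heQ, fun heU => he0 (Submodule.disjoint_def.1 hC.disjoint e heU he.2)⟩

theorem exists_singular_ne {U : Submodule F (ι → F)} (h : 2 * Module.finrank F U + 2 ≤ Fintype.card ι)
    {a : ι → F} (ha : a ∉ U) : ∃ e ∈ perp H U, H.B e e = 0 ∧ H.B a e ≠ 0 := by
  obtain ⟨e₀, he, he0, heU⟩ := exists_singular_out H U h
  exact exists_singular_polar H he he0 heU ha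

/-- Singular vectors span the complement of a small subspace. -/
theorem perp_le_of_singular {U Z : Submodule F (ι → F)} (h : 2 * Module.finrank F U + 2 ≤ Fintype.card ι)
    (hZ : ∀ e ∈ perp H U, H.B e e = 0 → e ∉ U → e ∈ Z) : perp H U ≤ Z := by
  have hall : ∀ e ∈ perp H U, H.B e e = 0 → e ∈ Z := by
    intro e he he0
    by_cases heU : e ∈ U
    swap
    · exact hZ e he he0 heU
    obtain ⟨e₁, he₁, he₁0, he₁U⟩ := exists_singular_out H U h
    have hp : H.B e e₁ = 0 := he₁ e heU
    have h1 := hZ (e + e₁) (add_mem he he₁) (by simp [he0, he₁0, hp, comm_zero H hp])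
      (fun hc => he₁U (by simpa using sub_mem hc heU))
    simpa using sub_mem h1 (hZ e₁ he₁ he₁0 he₁U)
  intro x hx
  by_contra hxZ
  obtain ⟨y, hy, hxy⟩ := exists_polar_eq_one H hxZ
  by_cases hyU : y ∈ U
  · exact one_ne_zero (hxy.symm.trans (comm_zero H (hx y hyU)))
  · obtain ⟨e, he, he0, hne⟩ := exists_singular_ne H h hyU
    exact hne (comm_zero H (hy e (hall e he he0)))

omit [Fintype ι] [DecidableEq ι] [Finite F] in
theorem not_mem_span_pair {v u d : ι → F} (hu : u ∉ Submodule.span F {v}) (hd : d ∉ Submodule.span F {v, u}) :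
    u ∉ Submodule.span F {v, d} := by
  intro hc
  obtain ⟨s, t, e⟩ := Submodule.mem_span_pair.1 hc
  rcases eq_or_ne t 0 with rfl | ht
  · exact hu (Submodule.mem_span_singleton.2 ⟨s, by rw [← e, zero_smul, add_zero]⟩)
  · refine hd (Submodule.mem_span_pair.2 ⟨-(t⁻¹ * s), t⁻¹, ?_⟩)
    rw [← e, smul_add, smul_smul, smul_smul, inv_mul_cancel₀ ht, one_smul, neg_smul]
    abel

omit [Fintype ι] [DecidableEq ι] [Finite F] in
theorem finrank_pair_le (x y : ι → F) : Module.finrank F (Submodule.span F ({x, y} : Set (ι → F))) ≤ 2 := by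
  rw [← Matrix.range_cons_cons_empty x y ![]]
  exact (finrank_range_le_card (R := F) _).trans (by simp)

/-- The hull lemma: a subspace closed under the moves by root elements fixing `v` contains `v`'s complement. -/
theorem hull (hn : 6 ≤ Fintype.card ι) {v u₀ : ι → F} (huv : u₀ ∉ Submodule.span F {v})
    {Z : Submodule F (ι → F)}
    (hstep : ∀ u, (u = u₀ ∨ (u ∈ Z ∧ H.B v u = 0)) → ∀ d a, H.B d d = 0 → H.B a a = 0 → H.B d a = 0 →
      H.B v d = 0 → H.B v a = 0 → H.B u d = 0 → H.B a u ≠ 0 → d ∈ Z) :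
    perp H (Submodule.span F {v}) ≤ Z := by
  have hdim : ∀ x y : ι → F, 2 * Module.finrank F (Submodule.span F ({x, y} : Set (ι → F))) + 2 ≤ Fintype.card ι := by
    intro x y
    have := finrank_pair_le x y
    omega
  have key : ∀ u, (u = u₀ ∨ (u ∈ Z ∧ H.B v u = 0)) → u ∉ Submodule.span F {v} →
      perp H (Submodule.span F {v, u}) ≤ Z := by
    intro u hu huv'
    refine perp_le_of_singular H (hdim v u) fun d hd hd0 hdU => ?_
    rw [mem_perp_pair] at hd
    obtain ⟨a, ha, ha0, hua⟩ := exists_singular_ne H (hdim v d) (not_mem_span_pair huv' hdU)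
    rw [mem_perp_pair] at ha
    exact hstep u hu d a hd0 ha0 ha.2 hd.1 ha.1 hd.2 fun h => hua (comm_zero H h)
  obtain ⟨d, hd, hd0, hdU⟩ := exists_singular_out H _ (hdim v u₀)
  have hdv : d ∉ Submodule.span F {v} := fun hc => hdU (Submodule.span_mono (by simp) hc)
  have hdZ : d ∈ Z := key u₀ (Or.inl rfl) huv hd
  have h1 := key d (Or.inr ⟨hdZ, ((mem_perp_pair H).1 hd).1⟩) hdv
  obtain ⟨d', hd', hd'0, hd'U⟩ := exists_singular_out H _ (hdim v d)
  have hd'v : d' ∉ Submodule.span F {v} := fun hc => hd'U (Submodule.span_mono (by simp) hc)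
  have h2 := key d' (Or.inr ⟨h1 hd', ((mem_perp_pair H).1 hd').1⟩) hd'v
  obtain ⟨y, hy, hy1⟩ := exists_polar_eq_one H hd'U
  rw [mem_perp_pair] at hy
  intro x hx
  have hxv := hx v (Submodule.mem_span_singleton_self v)
  have e1 : H.B d' x • y ∈ Z := Z.smul_mem _ (h1 ((mem_perp_pair H).2 hy))
  have e2 : x - H.B d' x • y ∈ Z := h2 ((mem_perp_pair H).2 ⟨by
      rw [map_sub, map_smul, hxv, hy.1, smul_zero, sub_zero],
    by rw [map_sub, map_smul, hy1, smul_eq_mul, mul_one, sub_self]⟩)
  simpa using add_mem e1 e2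

omit [Finite F]

/-- `M` contains the root element of the singular line `⟨d, a⟩`. -/
def HasRoots (M : Subgroup (GL ι F)) : Prop :=
  ∀ d a, H.B d d = 0 → H.B a a = 0 → H.B d a = 0 → ∀ g : GL ι F,
    (∀ x, (g : Matrix ι ι F) *ᵥ x = x + H.B a x • d - H.B d x • a) → g ∈ M

theorem exists_root {d a : ι → F} (hd : H.B d d = 0) (ha : H.B a a = 0) (hda : H.B d a = 0) :
    ∃ g ∈ Cfsg.Geo.specialLinear ι F,
      (∀ x, (g : Matrix ι ι F) *ᵥ x = x + H.B a x • d - H.B d x • a) ∧
        ∀ x y, H.B ((g : Matrix ι ι F) *ᵥ x) ((g : Matrix ι ι F) *ᵥ y) = H.B x y := by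
  have had : H.B a d = 0 := comm_zero H hda
  obtain ⟨s, hsS, hs⟩ := GeoTransvection.exists_transvection d (H.B a) had
  obtain ⟨t, htS, ht⟩ := GeoTransvection.exists_transvection a (-H.B d) (by simp [hda])
  have e : ∀ x, ((s * t : GL ι F) : Matrix ι ι F) *ᵥ x = x + H.B a x • d - H.B d x • a := fun x => by
    rw [Units.val_mul, ← mulVec_mulVec, hs, ht]
    simp [ha]
    abel
  refine ⟨s * t, mul_mem hsS htS, e, fun x y => ?_⟩
  rw [e, e]
  simp only [map_add, map_sub, LinearMap.map_smulₛₗ, LinearMap.add_apply, LinearMap.sub_apply,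
    LinearMap.smul_apply, smul_eq_mul, RingHom.id_apply, H.symm, hd, ha, hda, had]
  ring

theorem root_formula_inv {d a : ι → F} (hd : H.B d d = 0) (ha : H.B a a = 0) (hda : H.B d a = 0) {g : GL ι F}
    (hg : ∀ x, (g : Matrix ι ι F) *ᵥ x = x + H.B a x • d - H.B d x • a) (x : ι → F) :
    ((g⁻¹ : GL ι F) : Matrix ι ι F) *ᵥ x = x - H.B a x • d + H.B d x • a := by
  apply mulVec_injective_of_isUnit g.isUnit
  show (g : Matrix ι ι F) *ᵥ _ = (g : Matrix ι ι F) *ᵥ _
  rw [mulVec_inv_cancel, hg]
  simp [hd, ha, hda, comm_zero H hda]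
  abel

variable [Finite F]

/-- A transvection with functional outside its own centre gives all transvections. -/
theorem specialLinear_le_of_tv [Nontrivial ι] (hn : 6 ≤ Fintype.card ι) (hroots : HasRoots H M)
    {v u : ι → F} (hv : v ≠ 0) (huv : H.B u v = 0) (hu : u ∉ Submodule.span F {v}) (hM : HasTv M v (H.B u)) :
    Cfsg.Geo.specialLinear ι F ≤ M := by
  let Z : Submodule F (ι → F) :=
    { carrier := {z | H.B v z = 0 ∧ ∀ c : F, HasTv M v (c • H.B z)}
      add_mem' := fun {a b} ha hb => ⟨by rw [map_add, ha.1, hb.1, add_zero], fun c => by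
        rw [map_add, smul_add]
        exact hasTv_add (by simp [comm_zero H ha.1]) (by simp [comm_zero H hb.1]) (ha.2 c) (hb.2 c)⟩
      zero_mem' := ⟨map_zero _, fun c => by rw [map_zero, smul_zero]; exact hasTv_zero v⟩
      smul_mem' := fun k z hz => ⟨by rw [map_smul, hz.1, smul_zero], fun c => by
        rw [LinearMap.map_smulₛₗ, smul_smul]; exact hz.2 _⟩ }
  have hZ : perp H (Submodule.span F {v}) ≤ Z := by
    refine hull H hn hu ?_
    intro w hw d a hd ha hda hvd hva hwd hwa'
    have hwa : H.B w a ≠ 0 := fun h => hwa' (comm_zero H h)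
    have hwv : H.B w v = 0 ∧ HasTv M v (H.B w) := by
      rcases hw with rfl | ⟨hwZ, -⟩
      · exact ⟨huv, hM⟩
      · exact ⟨comm_zero H hwZ.1, by simpa using hwZ.2 1⟩
    refine ⟨hvd, fun c => ?_⟩
    set k := H.σ (c / H.B w a) with hk
    have hkd : H.B (k • d) (k • d) = 0 := by simp [hd]
    have hkda : H.B (k • d) a = 0 := by simp [hda]
    obtain ⟨s, -, hs, -⟩ := exists_root H hkd ha hkda
    have hdv : H.B d v = 0 := comm_zero H hvd
    have hav : H.B a v = 0 := comm_zero H hva
    have hsv : (s : Matrix ι ι F) *ᵥ v = v := by rw [hs]; simp [hdv, hav]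
    have h1 := hasTv_conj (hroots _ _ hkd ha hkda s hs) hwv.2
    rw [hsv] at h1
    have e : (H.B w).comp (Matrix.toLin' ((s⁻¹ : GL ι F) : Matrix ι ι F)) - H.B w = c • H.B d :=
      LinearMap.ext fun x => by
        show H.B w (((s⁻¹ : GL ι F) : Matrix ι ι F) *ᵥ x) - H.B w x = c * H.B d x
        rw [root_formula_inv H hkd ha hkda hs]
        simp only [map_add, map_sub, map_smul, LinearMap.map_smulₛₗ, LinearMap.smul_apply, smul_eq_mul, hwd, hk,
          H.invol]
        field_simp
        ring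
    rw [← e]
    refine hasTv_sub ?_ hwv.1 h1 hwv.2
    show H.B w (((s⁻¹ : GL ι F) : Matrix ι ι F) *ᵥ v) = 0
    rw [root_formula_inv H hkd ha hkda hs]
    simp [hdv, hav, hwv.1]
  have hfull : v ∈ fullSub M := by
    intro φ hφ
    obtain ⟨z, hz⟩ := exists_dual_vec H φ
    have hmem : z ∈ Z := hZ ((mem_perp_span H).2 (by
      intro u hu; rw [Set.mem_singleton_iff] at hu; rw [hu]; exact comm_zero H (by rw [hz]; exact hφ)))
    rw [show φ = (1 : F) • H.B z by rw [one_smul, hz]]
    exact hmem.2 1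
  refine specialLinear_le_of_fullSub (eq_top_iff.2 fun x _ => ?_)
  have hmove : ∀ w ∈ fullSub M, ∀ d a, H.B d d = 0 → H.B a a = 0 → H.B d a = 0 → H.B w d = 0 →
      H.B a w ≠ 0 → d ∈ fullSub M := by
    intro w hw d a hd ha hda hwd haw
    obtain ⟨s, -, hs, -⟩ := exists_root H hd ha hda
    have h1 : (s : Matrix ι ι F) *ᵥ w ∈ fullSub M := full_map (hroots d a hd ha hda s hs) hw
    rw [hs, comm_zero H hwd, zero_smul, sub_zero] at h1
    have h2 := (fullSub M).sub_mem h1 hw
    rw [add_sub_cancel_left] at h2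
    exact ((fullSub M).smul_mem_iff haw).1 h2
  have htop := hull H hn (v := 0) (u₀ := v) (Z := fullSub M)
    (by simpa [Submodule.span_zero_singleton] using hv) (fun w hw d a hd ha hda _ _ hwd hwa =>
      hmove w (hw.elim (fun e => e ▸ hfull) (·.1)) d a hd ha hda hwd hwa)
  exact htop ((mem_perp_span H).2 (by simp))

omit [DecidableEq ι] [Finite F] in
theorem finrank_triple_le (x y z : ι → F) :
    Module.finrank F (Submodule.span F ({x, y, z} : Set (ι → F))) ≤ 3 := by
  rw [Submodule.span_insert]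
  refine (Submodule.finrank_add_le_finrank_add_finrank _ _).trans ?_
  have h1 : Module.finrank F (Submodule.span F {x}) ≤ 1 :=
    (finrank_span_le_card ({x} : Set (ι → F))).trans (by simp)
  have h2 := finrank_pair_le y z
  omega

/-- The commutator of root elements of two forms which are not proportional can be a transvection. -/
theorem exists_tv_of_two_forms (B' : (ι → F) →ₛₗ[H.σ] (ι → F) →ₗ[F] F) (hB' : Function.Injective B')
    (hS' : ∀ u v, H.σ (B' u v) = B' v u)
    (hn : 12 ≤ Fintype.card ι) (hr : HasRoots H M)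
    (hr' : HasRoots { H with B := B', symm := hS', inj := hB' } M)
    (hne : ∀ c : F, ∃ x y, B' x y ≠ c * H.B x y) :
    ∃ v u : ι → F, v ≠ 0 ∧ u ∉ Submodule.span F {v} ∧ H.B u v = 0 ∧ HasTv M v (H.B u) := by
  set H' : Herm ι F := { H with B := B', symm := hS', inj := hB' }
  choose S₀ hS₀ using fun x => exists_dual_vec H (B' x)
  let S : (ι → F) →ₗ[F] (ι → F) :=
    { toFun := S₀
      map_add' := fun x y => H.inj (by rw [map_add, hS₀, hS₀, hS₀, map_add])
      map_smul' := fun c x => H.inj (by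
        rw [RingHom.id_apply, LinearMap.map_smulₛₗ, hS₀, hS₀, LinearMap.map_smulₛₗ]) }
  have hS : ∀ x, H.B (S x) = B' x := hS₀
  have hSi : Function.Injective S := fun x y h => hB' (by rw [← hS, ← hS, h])
  have hSs : Function.Surjective S := LinearMap.injective_iff_surjective.1 hSi
  have hcard : ∀ {k : ℕ} {U : Submodule F (ι → F)}, Module.finrank F U ≤ k → k ≤ 5 →
      2 * Module.finrank F U + 2 ≤ Fintype.card ι := fun h1 h2 => by omega
  by_contra hnone
  push Not at hnone
  -- otherwise every singular line is invariant under `S`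
  have hbad : ∀ d a, H.B d d = 0 → H.B a a = 0 → H.B d a = 0 → d ≠ 0 →
      S a ∈ Submodule.span F {d, a, S d} := by
    intro d a hd ha hda hd0
    by_contra hout
    obtain ⟨p, hp⟩ := hSs d
    obtain ⟨q, hq⟩ := hSs a
    have hout' : a ∉ Submodule.span F {p, q, d} := fun hc => hout (by
      have h2 := Submodule.mem_map_of_mem (f := S) hc
      rw [Submodule.map_span] at h2
      simpa [Set.image_insert_eq, hp, hq] using h2)
    obtain ⟨d', hd', hd'0, had'⟩ := exists_singular_ne H' (hcard (finrank_triple_le p q d) (by norm_num)) hout'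
    rw [mem_perp_span] at hd'
    change ∀ u ∈ ({p, q, d} : Set (ι → F)), B' u d' = 0 at hd'
    change B' a d' ≠ 0 at had'
    change B' d' d' = 0 at hd'0
    have hd'ne : d' ≠ 0 := fun h => had' (by rw [h, map_zero])
    obtain ⟨a', ha', ha'0, ha'U⟩ := exists_singular_out H'
      (Submodule.span F {p, q, d} ⊔ Submodule.span F {d'})
      (hcard (k := 4) ((Submodule.finrank_add_le_finrank_add_finrank _ _).trans
        (add_le_add (finrank_triple_le p q d) (finrank_span_singleton hd'ne).le)) (by norm_num))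
    change B' a' a' = 0 at ha'0
    have hd'a' : B' d' a' = 0 := ha' d' (Submodule.mem_sup_right (Submodule.mem_span_singleton_self _))
    have ha'3 : ∀ u ∈ ({p, q, d} : Set (ι → F)), B' u a' = 0 := fun u hu =>
      ha' u (Submodule.mem_sup_left (Submodule.subset_span hu))
    have e1 : H.B d d' = 0 := by rw [← hp, hS]; exact hd' p (by simp)
    have e2 : H.B a d' = 0 := by rw [← hq, hS]; exact hd' q (by simp)
    have e3 : H.B d a' = 0 := by rw [← hp, hS]; exact ha'3 p (by simp)
    have e4 : H.B a a' = 0 := by rw [← hq, hS]; exact ha'3 q (by simp)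
    have e5 : B' d' d = 0 := comm_zero H' (hd' d (by simp))
    have e6 : B' a' d = 0 := comm_zero H' (ha'3 d (by simp))
    obtain ⟨x, -, hx, -⟩ := exists_root H hd ha hda
    obtain ⟨y, -, hy, -⟩ := exists_root H' hd'0 ha'0 hd'a'
    change ∀ z, (y : Matrix ι ι F) *ᵥ z = z + B' a' z • d' - B' d' z • a' at hy
    set v := B' a' a • d' - B' d' a • a' with hv
    have hdv : H.B d v = 0 := by simp [hv, e1, e3]
    have had'' : B' d' a ≠ 0 := fun h => had' (comm_zero H' h)
    have hmemsup : ∀ k : F, k • a' ∈ Submodule.span F {p, q, d} ⊔ Submodule.span F {d'} → k = 0 := fun k hk => by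
      by_contra hk0
      exact ha'U ((Submodule.smul_mem_iff _ hk0).1 hk)
    obtain ⟨t, -, ht⟩ := GeoTransvection.exists_transvection v (H.B (-d)) (by simp [hdv])
    refine hnone v (-d) ?_ ?_ (by simp [hdv]) ?_
    · intro hv0
      refine had'' (hmemsup _ ?_)
      rw [hv, sub_eq_zero] at hv0
      rw [← hv0]
      exact Submodule.mem_sup_right (Submodule.smul_mem _ _ (Submodule.mem_span_singleton_self _))
    · intro hmem
      obtain ⟨k, hk⟩ := Submodule.mem_span_singleton.1 hmem
      have hk0 : k ≠ 0 := fun h => hd0 (neg_eq_zero.1 (by rw [← hk, h, zero_smul]))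
      refine mul_ne_zero hk0 had'' (hmemsup _ ?_)
      have : (k * B' d' a) • a' = d + (k * B' a' a) • d' := by
        rw [hv, smul_sub, smul_smul, smul_smul] at hk
        linear_combination (norm := module) -hk
      rw [this]
      exact add_mem (Submodule.mem_sup_left (Submodule.subset_span (by simp)))
        (Submodule.mem_sup_right (Submodule.smul_mem _ _ (Submodule.mem_span_singleton_self _)))
    · intro g hg
      have hgt : g = t := gl_ext fun z => by rw [hg, ht]
      have he : t * x * y = y * x := gl_ext fun z => by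
        simp only [Units.val_mul, ← mulVec_mulVec]
        rw [ht, hx, hx, hy, hy]
        simp only [map_add, map_sub, map_neg, LinearMap.neg_apply, map_smul, e1, e2, e3, e4, e5, e6, hd, hda,
          smul_eq_mul]
        simp only [hv]
        simp
        module
      have ht' : t = y * x * y⁻¹ * x⁻¹ := by rw [← he]; group
      rw [hgt, ht']
      exact mul_mem (mul_mem (mul_mem (hr' _ _ hd'0 ha'0 hd'a' y hy) (hr _ _ hd ha hda x hx))
        (inv_mem (hr' _ _ hd'0 ha'0 hd'a' y hy))) (inv_mem (hr _ _ hd ha hda x hx))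
  have hdim1 : ∀ {x : ι → F}, x ≠ 0 → 2 * Module.finrank F (Submodule.span F {x}) + 2 ≤ Fintype.card ι :=
    fun hx => hcard (finrank_span_singleton hx).le (by norm_num)
  have hline : ∀ d a, H.B d d = 0 → H.B a a = 0 → H.B d a = 0 → a ∉ Submodule.span F {d} → d ≠ 0 →
      S d ∈ Submodule.span F {d, a} := by
    intro d a hd ha hda hind hd0
    by_contra hSd
    obtain ⟨α, β, γ, e⟩ : ∃ α β γ : F, α • d + β • a + γ • S d = S a := by
      have h := hbad d a hd ha hda hd0
      rw [Submodule.mem_span_insert] at h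
      obtain ⟨α, w, hw, e⟩ := h
      obtain ⟨β, γ, rfl⟩ := Submodule.mem_span_pair.1 hw
      exact ⟨α, β, γ, by rw [e]; abel⟩
    set b := a - γ • d with hb
    have hb0 : H.B b b = 0 := by simp [hb, hd, ha, hda, comm_zero H hda]
    have hbd : H.B b d = 0 := by simp [hb, hd, comm_zero H hda]
    have hbne : b ≠ 0 := fun h => hind (Submodule.mem_span_singleton.2 ⟨γ, (sub_eq_zero.1 (hb ▸ h)).symm⟩)
    have hSb : S b = α • d + β • a := by rw [hb, map_sub, map_smul, ← e, add_sub_cancel_right]
    refine hSd (Submodule.span_le.2 ?_ (hbad b d hb0 hd hbd hbne))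
    rintro z (rfl | rfl | rfl)
    · exact Submodule.sub_mem _ (Submodule.subset_span (by simp))
        (Submodule.smul_mem _ _ (Submodule.subset_span (by simp)))
    · exact Submodule.subset_span (by simp)
    · rw [hSb]
      exact add_mem (Submodule.smul_mem _ _ (Submodule.subset_span (by simp)))
        (Submodule.smul_mem _ _ (Submodule.subset_span (by simp)))
  have hscal : ∀ d, H.B d d = 0 → d ≠ 0 → ∃ c : F, S d = c • d := by
    intro d hd hd0
    obtain ⟨a₁, ha₁, ha₁0, ha₁U⟩ := exists_singular_out H (Submodule.span F {d}) (hdim1 hd0)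
    obtain ⟨a₂, ha₂, ha₂0, ha₂U⟩ := exists_singular_out H (Submodule.span F {d, a₁})
      (hcard (finrank_pair_le d a₁) (by norm_num))
    have h1 := hline d a₁ hd ha₁0 (ha₁ d (Submodule.mem_span_singleton_self _)) ha₁U hd0
    have h2 := hline d a₂ hd ha₂0 ((mem_perp_pair H).1 ha₂).1
      (fun h => ha₂U (Submodule.span_mono (by simp) h)) hd0
    obtain ⟨i, j, e1⟩ := Submodule.mem_span_pair.1 h1
    obtain ⟨k, l, e2⟩ := Submodule.mem_span_pair.1 h2
    rcases eq_or_ne l 0 with rfl | hl
    · exact ⟨k, by rw [← e2, zero_smul, add_zero]⟩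
    · refine absurd ?_ ha₂U
      refine Submodule.mem_span_pair.2 ⟨l⁻¹ * (i - k), l⁻¹ * j, ?_⟩
      have : l • a₂ = (i - k) • d + j • a₁ := by
        rw [sub_smul]
        linear_combination (norm := module) e2 - e1
      rw [mul_smul, mul_smul, ← smul_add, ← this, smul_smul, inv_mul_cancel₀ hl, one_smul]
  choose! c hc using hscal
  have horth : ∀ d e, H.B d d = 0 → d ≠ 0 → H.B e e = 0 → H.B d e = 0 → e ∉ Submodule.span F {d} →
      c d = c e := by
    intro d e hd hd0 he hde hind
    have he0 : e ≠ 0 := fun h => hind (by rw [h]; exact zero_mem _)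
    have hde' : H.B (d + e) (d + e) = 0 := by simp [hd, he, hde, comm_zero H hde]
    have hde0 : d + e ≠ 0 := fun h => hind (by
      rw [eq_neg_of_add_eq_zero_right h]; exact neg_mem (Submodule.mem_span_singleton_self d))
    have h := hc (d + e) hde' hde0
    rw [map_add, hc d hd hd0, hc e he he0] at h
    have h' : (c (d + e) - c d) • d + (c (d + e) - c e) • e = 0 := by
      linear_combination (norm := module) -h
    have hli : LinearIndependent F ![d, e] := (LinearIndependent.pair_iff' hd0).2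
      fun a ha => hind (Submodule.mem_span_singleton.2 ⟨a, ha⟩)
    obtain ⟨h1, h2⟩ := LinearIndependent.pair_iff.1 hli _ _ h'
    linear_combination h2 - h1
  have heq : ∀ d e, H.B d d = 0 → d ≠ 0 → H.B e e = 0 → e ≠ 0 → c d = c e := by
    intro d e hd hd0 he he0
    obtain ⟨g, hg, hg0, hgU⟩ := exists_singular_out H (Submodule.span F {d, e})
      (hcard (finrank_pair_le d e) (by norm_num))
    rw [mem_perp_pair] at hg
    rw [horth d g hd hd0 hg0 hg.1 (fun h => hgU (Submodule.span_mono (by simp) h)),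
      horth e g he he0 hg0 hg.2 (fun h => hgU (Submodule.span_mono (by simp) h))]
  obtain ⟨d₀, -, hd₀, hd₀'⟩ := exists_singular_out H (⊥ : Submodule F (ι → F)) (by rw [finrank_bot]; omega)
  have hd₀0 : d₀ ≠ 0 := by simpa using hd₀'
  obtain ⟨x, y, hxy⟩ := hne (H.σ (c d₀))
  have hle : perp H (⊥ : Submodule F (ι → F)) ≤ LinearMap.ker (S - c d₀ • LinearMap.id) := by
    refine perp_le_of_singular H (by rw [finrank_bot]; omega) fun e _ he heU => ?_
    have he0 : e ≠ 0 := by simpa using heU
    simp [hc e he he0, heq d₀ e hd₀ hd₀0 he he0]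
  have := hle (show x ∈ perp H ⊥ from (mem_perp H).2 (by simp))
  rw [LinearMap.mem_ker, LinearMap.sub_apply, sub_eq_zero] at this
  apply hxy
  rw [← hS, this]
  simp

end CfsgLib.GeoHerm
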