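import Cfsg.Agent.GeoLib.FullSL

/-!
Overgroups of the monomial subgroup of `SL`: basic matrix lemmas.
-/

set_option autoImplicit false

namespace CfsgLib.GeoMono

open Matrix

variable {ι : Type} [Fintype ι] [DecidableEq ι] {F : Type*} [Field F]

/-- Every column has at most one non-zero entry. -/
def IsMon (A : Matrix ι ι F) : Prop := ∀ j, ∃ i, ∀ l, l ≠ i → A l j = 0

/-- The coordinate lines of `K` are fixed. -/
def Fixes (K : Finset ι) (A : Matrix ι ι F) : Prop := ∀ k ∈ K, ∀ i, i ≠ k → A i k = 0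

/-- Unit matrix up to the block `K × Kᶜ`. -/
def Uni (K : Finset ι) (A : Matrix ι ι F) : Prop :=
  ∀ i j, ¬(i ∈ K ∧ j ∉ K) → A i j = (1 : Matrix ι ι F) i j

/-- The situation: `M` contains the monomial matrices of determinant one and no elementary transvection. -/
structure Ctx (M : Subgroup (GL ι F)) : Prop where
  le_sl : M ≤ Cfsg.Geo.specialLinear ι F
  mon : ∀ g ∈ Cfsg.Geo.specialLinear ι F, IsMon (g : Matrix ι ι F) → g ∈ M
  noRoot : ∀ a b : ι, a ≠ b → ∀ c : F, c ≠ 0 → ∀ g ∈ M, (g : Matrix ι ι F) ≠ Matrix.transvection a b c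

/-- The diagonal `α` at `a`, `α⁻¹` at `b`, one elsewhere. -/
def dvec (a b : ι) (α : F) : ι → F := fun i => if i = a then α else if i = b then α⁻¹ else 1

theorem dvec_left (a b : ι) (α : F) : dvec a b α a = α := by simp [dvec]

theorem dvec_right {a b : ι} (h : a ≠ b) (α : F) : dvec a b α b = α⁻¹ := by simp [dvec, h.symm]

theorem dvec_other {a b i : ι} (ha : i ≠ a) (hb : i ≠ b) (α : F) : dvec a b α i = 1 := by simp [dvec, ha, hb]

theorem prod_dvec {a b : ι} (h : a ≠ b) {α : F} (hα : α ≠ 0) : ∏ i, dvec a b α i = 1 := by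
  rw [Finset.prod_eq_mul a b h (fun c _ hc => dvec_other hc.1 hc.2 α) (by simp) (by simp), dvec_left,
    dvec_right h, mul_inv_cancel₀ hα]

theorem mem_specialLinear_iff {g : GL ι F} :
    g ∈ Cfsg.Geo.specialLinear ι F ↔ (g : Matrix ι ι F).det = 1 := by
  rw [Cfsg.Geo.specialLinear, MonoidHom.mem_ker, Units.ext_iff]
  rfl

theorem isMon_diagonal (d : ι → F) : IsMon (Matrix.diagonal d) :=
  fun j => ⟨j, fun _ hl => Matrix.diagonal_apply_ne d hl⟩

theorem IsMon.mul {A B : Matrix ι ι F} (hA : IsMon A) (hB : IsMon B) : IsMon (A * B) := by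
  intro j
  obtain ⟨i, hi⟩ := hB j
  obtain ⟨k, hk⟩ := hA i
  refine ⟨k, fun l hl => ?_⟩
  rw [Matrix.mul_apply, Finset.sum_eq_single i (fun b _ hb => by rw [hi b hb, mul_zero]) (by simp), hk l hl, zero_mul]

theorem val_mul_inv (g : GL ι F) : (g : Matrix ι ι F) * ((g⁻¹ : GL ι F) : Matrix ι ι F) = 1 := by
  rw [← Units.val_mul, mul_inv_cancel, Units.val_one]

theorem val_inv_mul (g : GL ι F) : ((g⁻¹ : GL ι F) : Matrix ι ι F) * (g : Matrix ι ι F) = 1 := by
  rw [← Units.val_mul, inv_mul_cancel, Units.val_one]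

theorem sum_mul_inv (g : GL ι F) (i j : ι) :
    ∑ l, (g : Matrix ι ι F) i l * ((g⁻¹ : GL ι F) : Matrix ι ι F) l j = (1 : Matrix ι ι F) i j := by
  rw [← Matrix.mul_apply, val_mul_inv]

theorem sum_inv_mul (g : GL ι F) (i j : ι) :
    ∑ l, ((g⁻¹ : GL ι F) : Matrix ι ι F) i l * (g : Matrix ι ι F) l j = (1 : Matrix ι ι F) i j := by
  rw [← Matrix.mul_apply, val_inv_mul]

/-- The permutation underlying an invertible monomial matrix. -/
theorem IsMon.exists_perm {g : GL ι F} (h : IsMon (g : Matrix ι ι F)) :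
    ∃ σ : ι → ι, Function.Injective σ ∧ (∀ j l, l ≠ σ j → (g : Matrix ι ι F) l j = 0) ∧
      ∀ j, (g : Matrix ι ι F) (σ j) j ≠ 0 := by
  choose σ hσ using h
  have h1 : ∀ j, ((g⁻¹ : GL ι F) : Matrix ι ι F) j (σ j) * (g : Matrix ι ι F) (σ j) j = 1 := fun j => by
    have := sum_inv_mul g j j
    rwa [Finset.sum_eq_single (σ j) (fun b _ hb => by rw [hσ j b hb, mul_zero]) (by simp),
      Matrix.one_apply_eq] at this
  refine ⟨σ, fun a b e => ?_, hσ, fun j h0 => ?_⟩
  · by_contra hab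
    have := sum_inv_mul g a b
    rw [Finset.sum_eq_single (σ b) (fun c _ hc => by rw [hσ b c hc, mul_zero]) (by simp),
      Matrix.one_apply_ne hab] at this
    rcases mul_eq_zero.1 this with h0 | h0
    · rw [← e] at h0; simpa [h0] using h1 a
    · simpa [h0] using h1 b
  · simpa [h0] using h1 j

theorem IsMon.inv {g : GL ι F} (h : IsMon (g : Matrix ι ι F)) :
    IsMon ((g⁻¹ : GL ι F) : Matrix ι ι F) := by
  obtain ⟨σ, hσi, hσ, hσ0⟩ := h.exists_perm
  intro i
  obtain ⟨j, rfl⟩ := Finite.surjective_of_injective hσi i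
  refine ⟨j, fun l hl => ?_⟩
  have := sum_mul_inv g (σ l) (σ j)
  rw [Finset.sum_eq_single l (fun b _ hb => by rw [hσ b (σ l) (hσi.ne hb.symm), zero_mul]) (by simp),
    Matrix.one_apply_ne (hσi.ne hl)] at this
  exact (mul_eq_zero.1 this).resolve_left (hσ0 l)

theorem isMon_inv_iff {g : GL ι F} :
    IsMon ((g⁻¹ : GL ι F) : Matrix ι ι F) ↔ IsMon (g : Matrix ι ι F) :=
  ⟨fun h => by simpa using h.inv, IsMon.inv⟩

theorem Ctx.exists_diag {M : Subgroup (GL ι F)} (H : Ctx M) (d : ι → F) (hd : ∏ i, d i = 1) :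
    ∃ h ∈ M, (h : Matrix ι ι F) = Matrix.diagonal d ∧
      ((h⁻¹ : GL ι F) : Matrix ι ι F) = Matrix.diagonal fun i => (d i)⁻¹ := by
  have h0 : ∀ i, d i ≠ 0 := fun i hi => by
    have := Finset.prod_eq_zero (f := d) (Finset.mem_univ i) hi
    rw [hd] at this; exact one_ne_zero this
  let h : GL ι F := ⟨Matrix.diagonal d, Matrix.diagonal fun i => (d i)⁻¹,
    by rw [Matrix.diagonal_mul_diagonal, ← Matrix.diagonal_one]; exact congrArg _ (funext fun i => mul_inv_cancel₀ (h0 i)),
    by rw [Matrix.diagonal_mul_diagonal, ← Matrix.diagonal_one]; exact congrArg _ (funext fun i => inv_mul_cancel₀ (h0 i))⟩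
  refine ⟨h, H.mon h (mem_specialLinear_iff.2 ?_) (isMon_diagonal d), rfl, rfl⟩
  show (Matrix.diagonal d).det = 1
  rw [Matrix.det_diagonal, hd]

/-- A signed transposition matrix. -/
theorem Ctx.exists_swap {M : Subgroup (GL ι F)} (H : Ctx M) {i l : ι} (hil : i ≠ l) :
    ∃ p ∈ M, IsMon (p : Matrix ι ι F) ∧ ∃ d : ι → F, (∀ x, d x ≠ 0) ∧
      ∀ (B : Matrix ι ι F) (a b : ι), ((p : Matrix ι ι F) * B) a b = d a * B (Equiv.swap i l a) b := by
  let d : ι → F := fun x => if x = i then -1 else 1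
  let P : Matrix ι ι F := Matrix.diagonal d * (Equiv.swap i l).permMatrix F
  have hdet : P.det = 1 := by
    rw [Matrix.det_mul, Matrix.det_diagonal, Matrix.det_permutation, Equiv.Perm.sign_swap hil,
      Finset.prod_eq_single i (fun b _ hb => by simp [d, hb]) (by simp)]
    simp [d]
  have hmon : IsMon P := (isMon_diagonal d).mul fun j => ⟨Equiv.swap i l j, fun a ha => by
    simp only [Equiv.Perm.permMatrix, PEquiv.toMatrix_apply, Equiv.toPEquiv_apply, Option.mem_some_iff]
    rw [if_neg]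
    intro e; exact ha (by rw [← e]; simp)⟩
  refine ⟨GeneralLinearGroup.mkOfDetNeZero P (by rw [hdet]; exact one_ne_zero),
    H.mon _ (mem_specialLinear_iff.2 hdet) hmon, hmon, d, fun x => ?_, fun B a b => ?_⟩
  · by_cases hx : x = i <;> simp [d, hx]
  · show (Matrix.diagonal d * (Equiv.swap i l).permMatrix F * B) a b = _
    rw [Matrix.mul_assoc, Matrix.diagonal_mul, Equiv.Perm.permMatrix, PEquiv.toMatrix_toPEquiv_mul]
    rfl

theorem Fixes.mul {K : Finset ι} {A B : Matrix ι ι F} (hA : Fixes K A) (hB : Fixes K B) : Fixes K (A * B) := by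
  intro k hk i hi
  rw [Matrix.mul_apply, Finset.sum_eq_single k (fun b _ hb => by rw [hB k hk b hb, mul_zero]) (by simp),
    hA k hk i hi, zero_mul]

theorem fixes_diagonal (K : Finset ι) (d : ι → F) : Fixes K (Matrix.diagonal d) :=
  fun _ _ _ hi => Matrix.diagonal_apply_ne d hi

theorem Fixes.inv_diag {K : Finset ι} {g : GL ι F} (hg : Fixes K (g : Matrix ι ι F)) {k : ι} (hk : k ∈ K) :
    ((g⁻¹ : GL ι F) : Matrix ι ι F) k k * (g : Matrix ι ι F) k k = 1 := by
  have := sum_inv_mul g k k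
  rwa [Finset.sum_eq_single k (fun b _ hb => by rw [hg k hk b hb, mul_zero]) (by simp),
    Matrix.one_apply_eq] at this

theorem Fixes.inv {K : Finset ι} {g : GL ι F} (hg : Fixes K (g : Matrix ι ι F)) :
    Fixes K ((g⁻¹ : GL ι F) : Matrix ι ι F) := by
  intro k hk i hi
  have := sum_inv_mul g i k
  rw [Finset.sum_eq_single k (fun b _ hb => by rw [hg k hk b hb, mul_zero]) (by simp),
    Matrix.one_apply_ne hi] at this
  exact (mul_eq_zero.1 this).resolve_right fun h0 => by simpa [h0] using hg.inv_diag hk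

theorem mul_apply_quot {K : Finset ι} {A : Matrix ι ι F} (hA : Fixes K A) (B : Matrix ι ι F) {i : ι} (hi : i ∉ K)
    (j : ι) : (A * B) i j = ∑ l ∈ Kᶜ, A i l * B l j := by
  rw [Matrix.mul_apply]
  refine (Finset.sum_subset (Finset.subset_univ _) fun l _ hl => ?_).symm
  simp at hl
  rw [hA l hl i (fun h => hi (h ▸ hl)), zero_mul]

theorem mul_apply_diag {K : Finset ι} (A : Matrix ι ι F) {B : Matrix ι ι F} (hB : Fixes K B) {k : ι} (hk : k ∈ K) :
    (A * B) k k = A k k * B k k := by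
  rw [Matrix.mul_apply, Finset.sum_eq_single k (fun b _ hb => by rw [hB k hk b hb, mul_zero]) (by simp)]

theorem uni_mul {K : Finset ι} {A B : Matrix ι ι F} (hA : Uni K A) (hB : Uni K B) : A * B = A + B - 1 := by
  have h : (A - 1) * (B - 1) = 0 := by
    ext i j
    rw [Matrix.mul_apply, Matrix.zero_apply]
    refine Finset.sum_eq_zero fun l _ => ?_
    by_cases hl : l ∈ K
    · rw [Matrix.sub_apply, hA i l (fun h => h.2 hl), sub_self, zero_mul]
    · rw [Matrix.sub_apply, Matrix.sub_apply B, hB l j (fun h => hl h.1), sub_self, mul_zero]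
  rw [sub_mul, mul_sub, mul_sub, mul_one, one_mul, mul_one] at h
  rw [eq_sub_iff_add_eq]
  have := congrArg (· + (A + B)) h
  simp only [zero_add] at this
  rw [← this]; abel

/-- An element in the abelian block is trivial. -/
theorem Ctx.eq_one {M : Subgroup (GL ι F)} (H : Ctx M) (hι : 5 ≤ Fintype.card ι) {α : F} (hα : α ≠ 0) (hα1 : α ≠ 1)
    {K : Finset ι} {X : GL ι F} (hX : X ∈ M) (hU : Uni K (X : Matrix ι ι F)) : X = 1 := by
  classical
  suffices h : ∀ (c : ℕ) (X : GL ι F), X ∈ M → Uni K (X : Matrix ι ι F) →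
      (Finset.univ.filter fun p : ι × ι => p.1 ∈ K ∧ p.2 ∉ K ∧ (X : Matrix ι ι F) p.1 p.2 ≠ 0).card = c → X = 1 from
    h _ X hX hU rfl
  intro c
  induction c using Nat.strong_induction_on with
  | _ c IH =>
    intro X hX hU hc
    by_contra hne
    obtain ⟨k, m, hk, hm, hkm⟩ : ∃ k m, k ∈ K ∧ m ∉ K ∧ (X : Matrix ι ι F) k m ≠ 0 := by
      by_contra hall
      push Not at hall
      refine hne (Units.ext (Matrix.ext fun i j => ?_))
      by_cases h : i ∈ K ∧ j ∉ K
      · rw [hall i j h.1 h.2, Units.val_one, Matrix.one_apply_ne (fun e : i = j => h.2 (e ▸ h.1))]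
      · exact hU i j h
    have hkm' : k ≠ m := fun e => hm (e ▸ hk)
    obtain ⟨k', m', hk', hm', hkm2, hnot⟩ : ∃ k' m', k' ∈ K ∧ m' ∉ K ∧ (X : Matrix ι ι F) k' m' ≠ 0 ∧
        (k, m) ≠ (k', m') := by
      by_contra hall
      push Not at hall
      refine H.noRoot k m hkm' _ hkm X hX (Matrix.ext fun i j => ?_)
      by_cases h : i ∈ K ∧ j ∉ K
      · by_cases e : (k, m) = (i, j)
        · obtain ⟨rfl, rfl⟩ := Prod.ext_iff.1 e
          simp [Matrix.transvection, hkm']
        · have h0 : (X : Matrix ι ι F) i j = 0 := by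
            by_contra h0; exact e (hall i j h.1 h.2 h0)
          rw [h0]
          simp only [Matrix.transvection, Matrix.add_apply, Matrix.single_apply]
          rw [Matrix.one_apply_ne (fun e : i = j => h.2 (e ▸ h.1)), if_neg (fun h' => e (Prod.ext h'.1 h'.2)), add_zero]
      · rw [hU i j h]
        simp [Matrix.transvection, Matrix.single_apply]
        intro e1 e2; exact absurd ⟨e1 ▸ hk, e2 ▸ hm⟩ h
    obtain ⟨d, -, hd⟩ := Finset.exists_mem_notMem_of_card_lt_card
      (s := ({k, k', m, m'} : Finset ι)) (t := Finset.univ)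
      (lt_of_le_of_lt Finset.card_le_four (by rw [Finset.card_univ]; omega))
    simp only [Finset.mem_insert, Finset.mem_singleton, not_or] at hd
    obtain ⟨hdk, hdk', hdm, hdm'⟩ := hd
    obtain ⟨e, hed, he⟩ : ∃ e : ι, d ≠ e ∧ ((dvec e d α k / dvec e d α m ≠ 1) ∧ (dvec e d α k' = dvec e d α m')) := by
      by_cases hkk : k = k'
      · subst hkk
        have hmm : m ≠ m' := fun e => hnot (by rw [e])
        refine ⟨m, hdm, ?_, ?_⟩
        · rw [dvec_left, dvec_other hkm' (Ne.symm hdk), one_div]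
          exact inv_ne_one.2 hα1
        · rw [dvec_other hkm' (Ne.symm hdk), dvec_other hmm.symm (Ne.symm hdm')]
      · refine ⟨k, hdk, ?_, ?_⟩
        · rw [dvec_left, dvec_other hkm'.symm (Ne.symm hdm), div_one]; exact hα1
        · rw [dvec_other (Ne.symm hkk) (Ne.symm hdk'), dvec_other (fun e : m' = k => hm' (e ▸ hk)) (Ne.symm hdm')]
    obtain ⟨h, hh, hhv, hhi⟩ := H.exists_diag _ (prod_dvec hed.symm hα)
    set dd := dvec e d α with hdd
    have hdd0 : ∀ i, dd i ≠ 0 := fun i => by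
      have := Finset.prod_ne_zero_iff.1 (show (∏ i, dd i) ≠ 0 by rw [hdd, prod_dvec hed.symm hα]; exact one_ne_zero)
      exact this i (Finset.mem_univ i)
    have hP : Uni K ((h * X * h⁻¹ : GL ι F) : Matrix ι ι F) := fun i j hij => by
      rw [Units.val_mul, Units.val_mul, hhv, hhi, Matrix.mul_diagonal, Matrix.diagonal_mul, hU i j hij]
      rcases eq_or_ne i j with rfl | hne'
      · rw [Matrix.one_apply_eq]; field_simp [hdd0 i]
      · rw [Matrix.one_apply_ne hne']; simp
    have hXi : ((X⁻¹ : GL ι F) : Matrix ι ι F) = 2 - (X : Matrix ι ι F) := by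
      have hU' : Uni K (2 - (X : Matrix ι ι F)) := fun i j hij => by
        rw [show (2 : Matrix ι ι F) = 1 + 1 from one_add_one_eq_two.symm, Matrix.sub_apply, Matrix.add_apply, hU i j hij]
        ring
      have := uni_mul hU hU'
      rw [show (X : Matrix ι ι F) + (2 - (X : Matrix ι ι F)) - 1 = 1 by
        rw [show (2 : Matrix ι ι F) = 1 + 1 from one_add_one_eq_two.symm]; abel] at this
      exact Units.inv_eq_of_mul_eq_one_right this
    have hU2 : Uni K (2 - (X : Matrix ι ι F)) := fun i j hij => by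
      rw [show (2 : Matrix ι ι F) = 1 + 1 from one_add_one_eq_two.symm, Matrix.sub_apply, Matrix.add_apply, hU i j hij]
      ring
    set Y := h * X * h⁻¹ * X⁻¹ with hY
    have hYv : ∀ i j, (Y : Matrix ι ι F) i j =
        dd i * (X : Matrix ι ι F) i j * (dd j)⁻¹ - (X : Matrix ι ι F) i j + (1 : Matrix ι ι F) i j := fun i j => by
      rw [hY, Units.val_mul, hXi, uni_mul hP hU2, show (2 : Matrix ι ι F) = 1 + 1 from one_add_one_eq_two.symm,
        Units.val_mul, Units.val_mul, hhv, hhi]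
      simp only [Matrix.sub_apply, Matrix.add_apply, Matrix.mul_diagonal, Matrix.diagonal_mul]
      ring
    have hYU : Uni K (Y : Matrix ι ι F) := fun i j hij => by
      rw [hYv, hU i j hij]
      rcases eq_or_ne i j with rfl | hne'
      · rw [Matrix.one_apply_eq]; field_simp [hdd0 i]; ring
      · rw [Matrix.one_apply_ne hne']; ring
    have hoff : ∀ i j, i ∈ K → j ∉ K → (Y : Matrix ι ι F) i j = (dd i / dd j - 1) * (X : Matrix ι ι F) i j := fun i j hi hj => by
      rw [hYv, Matrix.one_apply_ne (fun e : i = j => hj (e ▸ hi)), div_eq_mul_inv]; ring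
    have hY1 : Y = 1 := by
      refine IH _ ?_ Y (mul_mem (mul_mem (mul_mem hh hX) (inv_mem hh)) (inv_mem hX)) hYU rfl
      rw [← hc]
      refine Finset.card_lt_card ((Finset.ssubset_iff_of_subset fun p hp => ?_).2 ⟨(k', m'), ?_, ?_⟩)
      · simp only [Finset.mem_filter, Finset.mem_univ, true_and] at hp ⊢
        exact ⟨hp.1, hp.2.1, fun h0 => hp.2.2 (by rw [hoff _ _ hp.1 hp.2.1, h0, mul_zero])⟩
      · simp [hk', hm', hkm2]
      · simp only [Finset.mem_filter, Finset.mem_univ, true_and, not_and, ne_eq, not_not]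
        intro _ _
        rw [hoff _ _ hk' hm', he.2, div_self (hdd0 m'), sub_self, zero_mul]
    have := hoff k m hk hm
    rw [hY1, Units.val_one, Matrix.one_apply_ne hkm', eq_comm, mul_eq_zero, sub_eq_zero] at this
    exact this.elim he.1 hkm

/-- Two elements agreeing on the quotient and the fixed lines are equal. -/
theorem Ctx.eq_of_agree {M : Subgroup (GL ι F)} (H : Ctx M) (hι : 5 ≤ Fintype.card ι) {α : F} (hα : α ≠ 0)
    (hα1 : α ≠ 1) {K : Finset ι} {Y Z : GL ι F} (hY : Y ∈ M) (hZ : Z ∈ M) (hYf : Fixes K (Y : Matrix ι ι F))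
    (hag : ∀ i j, ¬(i ∈ K ∧ j ∉ K) → (Y : Matrix ι ι F) i j = (Z : Matrix ι ι F) i j) : Y = Z := by
  refine inv_mul_eq_one.1 (H.eq_one hι hα hα1 (K := K) (mul_mem (inv_mem hY) hZ) fun i j hij => ?_)
  rw [← sum_inv_mul Y i j, Units.val_mul, Matrix.mul_apply]
  by_cases hj : j ∈ K
  · exact Finset.sum_congr rfl fun l _ => by rw [hag l j (fun h => h.2 hj)]
  · have hi : i ∉ K := fun hi => hij ⟨hi, hj⟩
    refine Finset.sum_congr rfl fun l _ => ?_
    by_cases hl : l ∈ K
    · rw [hYf.inv l hl i (fun e => hi (e ▸ hl)), zero_mul, zero_mul]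
    · rw [hag l j (fun h => hl h.1)]

theorem exists_avoid [Fintype F] (B : Finset F) (h : B.card < Fintype.card F) : ∃ x, x ∉ B := by
  obtain ⟨x, -, hx⟩ := Finset.exists_mem_notMem_of_card_lt_card (s := B) (t := Finset.univ) (by rwa [Finset.card_univ])
  exact ⟨x, hx⟩

theorem quad_roots {a b c : F} (h : a ≠ 0 ∨ b ≠ 0) :
    ∃ B : Finset F, B.card ≤ 2 ∧ ∀ x, a * (x * x) + b * x + c = 0 → x ∈ B := by
  classical
  by_cases hr : ∃ r, a * (r * r) + b * r + c = 0
  · obtain ⟨r, hr⟩ := hr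
    refine ⟨{r, -b / a - r}, Finset.card_le_two, fun x hx => ?_⟩
    have : (x - r) * (a * (x + r) + b) = 0 := by linear_combination hx - hr
    simp only [Finset.mem_insert, Finset.mem_singleton]
    rcases mul_eq_zero.1 this with h1 | h1
    · exact Or.inl (sub_eq_zero.1 h1)
    · have ha : a ≠ 0 := fun ha => h.elim (· ha) fun hb => hb (by rw [ha] at h1; simpa using h1)
      right; field_simp; linear_combination h1
  · exact ⟨∅, by simp, fun x hx => absurd ⟨x, hx⟩ hr⟩

end CfsgLib.GeoMono
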