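import Cfsg.Agent.GeoLib.MonoBase

/-!
The exceptional two-dimensional configuration over five elements gives an elementary transvection.
-/

set_option autoImplicit false

namespace CfsgLib.GeoMono

open Matrix

variable {ι : Type} [Fintype ι] [DecidableEq ι] {F : Type*} [Field F]

/-- An element fixing all lines but two is block diagonal. -/
theorem Ctx.block_diag {M : Subgroup (GL ι F)} (H : Ctx M) (hι : 5 ≤ Fintype.card ι) {α : F} (hα : α ≠ 0)
    (hα1 : α ≠ 1) {K : Finset ι} (hK : 2 ≤ K.card) {g : GL ι F} (hg : g ∈ M) (hgf : Fixes K (g : Matrix ι ι F))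
    {k m : ι} (hk : k ∈ K) (hm : m ∉ K) : (g : Matrix ι ι F) k m = 0 := by
  obtain ⟨k', hk', hkk⟩ := Finset.exists_mem_ne hK k
  obtain ⟨h, hh, hhv, -⟩ := H.exists_diag _ (prod_dvec (Ne.symm hkk) hα)
  set d := dvec k k' α with hd
  have hout : ∀ j, j ∉ K → d j = 1 := fun j hj =>
    dvec_other (fun e : j = k => hj (e ▸ hk)) (fun e : j = k' => hj (e ▸ hk')) α
  have he : h * g = g * h := by
    refine H.eq_of_agree hι hα hα1 (K := K) (mul_mem hh hg) (mul_mem hg hh)
      (by rw [Units.val_mul, hhv]; exact (fixes_diagonal K d).mul hgf) fun i j hij => ?_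
    rw [Units.val_mul, Units.val_mul, hhv, Matrix.diagonal_mul, Matrix.mul_diagonal]
    by_cases hj : j ∈ K
    · by_cases he : i = j
      · rw [he]; ring
      · rw [hgf j hj i he]; ring
    · rw [hout i (fun hi => hij ⟨hi, hj⟩), hout j hj]; ring
  have h1 : (α - 1) * (g : Matrix ι ι F) k m = 0 := by
    have := congrArg (fun a : GL ι F => (a : Matrix ι ι F) k m) he
    simp only [Units.val_mul, hhv, Matrix.diagonal_mul, Matrix.mul_diagonal] at this
    rw [hd, dvec_left, ← hd, hout m hm] at this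
    linear_combination this
  exact (mul_eq_zero.1 h1).resolve_left (sub_ne_zero.2 hα1)

theorem Ctx.five_two [Fintype F] {M : Subgroup (GL ι F)} (H : Ctx M) (h5 : Fintype.card F = 5)
    (hι : 5 ≤ Fintype.card ι) {K : Finset ι} {i j : ι} (hij : i ≠ j) (hK : Kᶜ = {i, j}) {g : GL ι F} (hg : g ∈ M)
    (hgf : Fixes K (g : Matrix ι ι F)) (ha : (g : Matrix ι ι F) i i ≠ 0) (hb : (g : Matrix ι ι F) i j ≠ 0)
    (hc : (g : Matrix ι ι F) j i ≠ 0) (hd : (g : Matrix ι ι F) j j ≠ 0)
    (hbc : (g : Matrix ι ι F) i i * (g : Matrix ι ι F) j j + (g : Matrix ι ι F) i j * (g : Matrix ι ι F) j i = 0) :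
    False := by
  classical
  set a := (g : Matrix ι ι F) i i with ea
  set b := (g : Matrix ι ι F) i j with eb
  set c := (g : Matrix ι ι F) j i with ec
  set dd := (g : Matrix ι ι F) j j with edd
  have h0 : ((5 : ℕ) : F) = 0 := h5 ▸ FiniteField.cast_card_eq_zero F
  haveI : CharP F 5 := (CharP.charP_iff_prime_eq_zero (by norm_num)).2 h0
  let φ : ZMod 5 →+* F := ZMod.castHom dvd_rfl F
  have h5' : (5 : F) = 0 := by exact_mod_cast h0
  have h2 : (2 : F) ≠ 0 := fun h => one_ne_zero (α := F) (by linear_combination h5' - 2 * h)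
  have h21 : (2 : F) ≠ 1 := fun h => one_ne_zero (α := F) (by linear_combination h)
  have hcardK : 2 ≤ K.card := by
    have := Finset.card_add_card_compl K
    rw [hK, Finset.card_pair hij] at this
    omega
  obtain ⟨k, hk⟩ : ∃ k, k ∈ K := (Finset.card_pos.1 (by omega : 0 < K.card))
  have hiK : i ∉ K := fun h => by
    have : i ∈ Kᶜ := by rw [hK]; simp
    exact Finset.mem_compl.1 this h
  have hjK : j ∉ K := fun h => by
    have : j ∈ Kᶜ := by rw [hK]; simp
    exact Finset.mem_compl.1 this h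
  have hki : k ≠ i := fun e => hiK (e ▸ hk)
  have hkj : k ≠ j := fun e => hjK (e ▸ hk)
  let f : Fin 3 → ι := ![k, i, j]
  have hf : Function.Injective f := fun x y e => by
    fin_cases x <;> fin_cases y <;> simp_all [f]
  let e : Fin 3 ⊕ {x // x ∉ Set.range f} ≃ ι :=
    ((Equiv.ofInjective f hf).sumCongr (Equiv.refl _)).trans (Equiv.sumCompl fun x => x ∈ Set.range f)
  let emb : Matrix (Fin 3) (Fin 3) (ZMod 5) → Matrix ι ι F := fun A =>
    Matrix.reindex e e (Matrix.fromBlocks (φ.mapMatrix A) 0 0 1)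
  have hmul : ∀ A B, emb (A * B) = emb A * emb B := fun A B => by
    simp only [emb, Matrix.reindex_apply, Matrix.submatrix_mul_equiv, Matrix.fromBlocks_multiply, map_mul]
    simp
  have hdet : ∀ A, A.det = 1 → (emb A).det = 1 := fun A hA => by
    simp only [emb, Matrix.det_reindex_self, Matrix.det_fromBlocks_zero₂₁, Matrix.det_one, mul_one]
    rw [← RingHom.map_det, hA, map_one]
  let Good : Matrix (Fin 3) (Fin 3) (ZMod 5) → Prop := fun A => ∃ x ∈ M, (x : Matrix ι ι F) = emb A
  have gmul : ∀ A B, Good A → Good B → Good (A * B) := fun A B ⟨x, hx, hxe⟩ ⟨y, hy, hye⟩ =>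
    ⟨x * y, mul_mem hx hy, by rw [Units.val_mul, hxe, hye, hmul]⟩
  have gmon : ∀ A, A.det = 1 → (∀ y, ∃ x, ∀ l, l ≠ x → A l y = 0) → Good A := fun A hA hAm => by
    refine ⟨GeneralLinearGroup.mkOfDetNeZero (emb A) (by rw [hdet A hA]; exact one_ne_zero),
      H.mon _ (mem_specialLinear_iff.2 (hdet A hA)) fun y => ?_, rfl⟩
    obtain ⟨y, rfl⟩ := e.surjective y
    rcases y with y | y
    · obtain ⟨x, hx⟩ := hAm y
      refine ⟨e (Sum.inl x), fun l hl => ?_⟩
      obtain ⟨l, rfl⟩ := e.surjective l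
      show emb A _ _ = 0
      rcases l with l | l
      · simp [emb, hx l (fun h => hl (by rw [h]))]
      · simp [emb]
    · refine ⟨e (Sum.inr y), fun l hl => ?_⟩
      obtain ⟨l, rfl⟩ := e.surjective l
      show emb A _ _ = 0
      rcases l with l | l
      · simp [emb]
      · simp [emb, show l ≠ y from fun h => hl (by rw [h])]
  -- the normalised element
  have gT : Good !![2, 0, 0; 0, 1, 1; 0, 1, 4] := by
    let x : ι → F := fun t => if t = i then a⁻¹ else if t = j then c⁻¹ else if t = k then a * c else 1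
    let y : ι → F := fun t => if t = i then 1 else if t = j then a * b⁻¹ else
      if t = k then 2 * (a * c * (g : Matrix ι ι F) k k)⁻¹ else ((g : Matrix ι ι F) t t)⁻¹
    have hx : ∏ t, x t = 1 := by
      rw [← Finset.prod_subset (Finset.subset_univ ({k, i, j} : Finset ι)) (fun t _ ht => by
        simp only [Finset.mem_insert, Finset.mem_singleton, not_or] at ht
        simp [x, ht.1, ht.2.1, ht.2.2])]
      rw [Finset.prod_insert (by simp [hki, hkj]), Finset.prod_insert (by simp [hij]), Finset.prod_singleton]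
      simp [x, hki, hkj, hij.symm]
      field_simp
    have hgd : ∀ t ∈ K, (g : Matrix ι ι F) t t ≠ 0 := fun t ht h0 => by
      simpa [h0] using hgf.inv_diag ht
    have hT : Matrix.diagonal x * (g : Matrix ι ι F) * Matrix.diagonal y = emb !![2, 0, 0; 0, 1, 1; 0, 1, 4] := by
      have hK' : ∀ t, t ≠ i → t ≠ j → t ∈ K := fun t h1 h2' => by
        by_contra h
        have : t ∈ Kᶜ := Finset.mem_compl.2 h
        rw [hK] at this; simp [h1, h2'] at this
      have hR : ∀ t m, t ∈ K → m ∉ K → (g : Matrix ι ι F) t m = 0 := fun t m ht hm =>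
        H.block_diag hι h2 h21 hcardK hg hgf ht hm
      have hoff : ∀ t m, t ∈ K → m ≠ t → (g : Matrix ι ι F) t m = 0 := fun t m ht hmt => by
        by_cases hm : m ∈ K
        · exact hgf m hm t hmt.symm
        · exact hR t m ht hm
      ext m n
      obtain ⟨m, rfl⟩ := e.surjective m
      obtain ⟨n, rfl⟩ := e.surjective n
      have he0 : e (Sum.inl 0) = k := rfl
      have he1 : e (Sum.inl 1) = i := rfl
      have he2 : e (Sum.inl 2) = j := rfl
      have h4 : (4 : F) = -1 := by linear_combination h5'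
      have hout : ∀ r, e (Sum.inr r) ≠ i ∧ e (Sum.inr r) ≠ j ∧ e (Sum.inr r) ≠ k := fun r =>
        ⟨fun h => by simpa using e.injective (h.trans he1.symm), fun h => by simpa using e.injective (h.trans he2.symm),
          fun h => by simpa using e.injective (h.trans he0.symm)⟩
      have hrK : ∀ r, e (Sum.inr r) ∈ K := fun r => hK' _ (hout r).1 (hout r).2.1
      rw [Matrix.mul_diagonal, Matrix.diagonal_mul,
        show ∀ A, emb A (e m) (e n) = Matrix.fromBlocks (φ.mapMatrix A) 0 0 1 m n from fun A => by simp [emb]]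
      rcases m with m | m <;> rcases n with n | n
      · fin_cases m <;> fin_cases n <;>
          simp [he0, he1, he2, x, y, hki, hkj, hij, hij.symm, hki.symm, hkj.symm, hgd k hk,
            hoff k i hk hki.symm, hoff k j hk hkj.symm, hgf k hk i hki.symm, hgf k hk j hkj.symm, map_ofNat]
        all_goals (have := hgd k hk; field_simp)
        all_goals simp only [ea, eb, ec, edd] at hbc ⊢
        all_goals first
          | linear_combination -hbc + ((g : Matrix ι ι F) i j * (g : Matrix ι ι F) j i) * h5'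
          | linear_combination hbc - ((g : Matrix ι ι F) i j * (g : Matrix ι ι F) j i) * h5'
      · rw [hgf _ (hrK n) _ (by simp)]
        simp [emb]
      · rw [hoff _ _ (hrK m) (by simp)]
        simp [emb]
      · rcases eq_or_ne m n with rfl | hne
        · simp [emb, x, y, hout m, hgd _ (hrK m)]
        · rw [hgf _ (hrK n) _ (fun h => hne (Sum.inr.inj (e.injective h)))]
          simp [emb, hne]
    obtain ⟨p, hp, hpv, -⟩ := H.exists_diag x hx
    have hy : ∏ t, y t = 1 := by
      have h := congrArg Matrix.det hT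
      rw [hdet _ (by decide), Matrix.det_mul, Matrix.det_mul, Matrix.det_diagonal, Matrix.det_diagonal, hx,
        mem_specialLinear_iff.1 (H.le_sl hg), one_mul, one_mul] at h
      exact h
    obtain ⟨q, hq, hqv, -⟩ := H.exists_diag y hy
    exact ⟨p * g * q, mul_mem (mul_mem hp hg) hq, by rw [Units.val_mul, Units.val_mul, hpv, hqv, hT]⟩
  have step : ∀ A m B, A * !![2, 0, 0; 0, 1, 1; 0, 1, 4] * m = B → Good A → m.det = 1 →
      (∀ y, ∃ x, ∀ l, l ≠ x → m l y = 0) → Good B := fun A m B h hA hm hmm =>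
    h ▸ gmul _ _ (gmul _ _ hA gT) (gmon m hm hmm)
  have w1 := step !![1, 0, 0; 0, 1, 0; 0, 0, 1] !![0, 1, 0; 1, 0, 0; 0, 0, 4] !![0, 2, 0; 1, 0, 4; 1, 0, 1]
    (by decide) (gmon _ (by decide) (by decide)) (by decide) (by decide)
  have w2 := step _ !![0, 1, 0; 1, 0, 0; 0, 0, 4] !![2, 0, 3; 4, 2, 4; 1, 2, 1] (by decide) w1 (by decide) (by decide)
  have w3 := step _ !![0, 1, 0; 2, 0, 0; 0, 0, 2] !![1, 4, 4; 2, 3, 1; 1, 2, 2] (by decide) w2 (by decide) (by decide)
  have w4 := step _ !![0, 1, 0; 2, 0, 0; 0, 0, 2] !![1, 2, 0; 3, 4, 4; 3, 2, 0] (by decide) w3 (by decide) (by decide)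
  have w5 := step _ !![0, 1, 0; 0, 0, 2; 3, 0, 0] !![1, 2, 4; 0, 1, 1; 1, 1, 4] (by decide) w4 (by decide) (by decide)
  have w6 := step _ !![0, 1, 0; 1, 0, 0; 0, 0, 4] !![1, 2, 2; 2, 0, 0; 0, 2, 3] (by decide) w5 (by decide) (by decide)
  obtain ⟨z, hz, hze⟩ :=
    step _ !![0, 4, 0; 4, 0, 0; 0, 0, 4] !![1, 3, 0; 0, 1, 0; 0, 0, 1] (by decide) w6 (by decide) (by decide)
  have h3 : (3 : F) ≠ 0 := fun h => one_ne_zero (α := F) (by linear_combination 2 * h - h5')
  refine H.noRoot k i hki 3 h3 z hz (hze.trans ?_)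
  ext m n
  obtain ⟨m, rfl⟩ := e.surjective m
  obtain ⟨n, rfl⟩ := e.surjective n
  have he0 : k = e (Sum.inl 0) := rfl
  have he1 : i = e (Sum.inl 1) := rfl
  rw [he0, he1]
  simp only [Matrix.transvection, Matrix.add_apply, Matrix.single_apply, Matrix.one_apply, e.apply_eq_iff_eq]
  rcases m with m | m <;> rcases n with n | n
  · fin_cases m <;> fin_cases n <;> simp [emb, map_ofNat]
  · simp [emb]
  · simp [emb]
  · simp [emb, Matrix.one_apply]

end CfsgLib.GeoMono
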