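import Cfsg.Agent.GeoLib.MonoShape
import Cfsg.Agent.GeoLib.MonoFive

/-!
An element fixing a coordinate line is monomial, in an overgroup of the monomial group without transvections.
-/

set_option autoImplicit false

namespace CfsgLib.GeoMono

open Matrix

variable {ι : Type} [Fintype ι] [DecidableEq ι] {F : Type*} [Field F] [Fintype F]

theorem exists_good_scalar (hq : 5 ≤ Fintype.card F) (h5 : Fintype.card F ≠ 5) :
    ∃ α : F, α ≠ 0 ∧ α ≠ 1 ∧ α ≠ -1 ∧ α * α + 1 ≠ 0 ∧ α * α - α + 1 ≠ 0 ∧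
      ((2 : F) ≠ 0 → 2 * (α * α) - 3 * α + 2 ≠ 0) := by
  classical
  obtain ⟨B₁, hB₁, hr₁⟩ := quad_roots (a := (1 : F)) (b := 0) (c := 1) (Or.inl one_ne_zero)
  obtain ⟨B₂, hB₂, hr₂⟩ := quad_roots (a := (1 : F)) (b := -1) (c := 1) (Or.inl one_ne_zero)
  by_cases hc2 : (2 : F) = 0
  · obtain ⟨α, hα⟩ := exists_avoid ({0, 1} ∪ B₂) (lt_of_le_of_lt (Finset.card_union_le _ _) (by
      have := Finset.card_le_two (a := (0 : F)) (b := 1); omega))
    simp only [Finset.mem_union, Finset.mem_insert, Finset.mem_singleton, not_or] at hα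
    refine ⟨α, hα.1.1, hα.1.2, fun h => hα.1.2 (by linear_combination h - hc2), fun h => hα.1.2 ?_,
      fun h => hα.2 (hr₂ α (by linear_combination h)), fun h => absurd hc2 h⟩
    have : (α - 1) * (α - 1) = 0 := by linear_combination h - α * hc2
    exact sub_eq_zero.1 (mul_self_eq_zero.1 this)
  have hc3' : ∀ α : F, α ≠ -1 → (3 : F) = 0 → α * α - α + 1 ≠ 0 := fun α hα h3 h => hα (by
    have : (α + 1) * (α + 1) = 0 := by linear_combination h + α * h3
    exact eq_neg_of_add_eq_zero_left (mul_self_eq_zero.1 this))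
  by_cases hc3 : (3 : F) = 0
  · obtain ⟨α, hα⟩ := exists_avoid ({0, 1, -1} ∪ B₁) (lt_of_le_of_lt (Finset.card_union_le _ _) (by
      have := Finset.card_le_three (a := (0 : F)) (b := 1) (c := -1); omega))
    simp only [Finset.mem_union, Finset.mem_insert, Finset.mem_singleton, not_or] at hα
    refine ⟨α, hα.1.1, hα.1.2.1, hα.1.2.2, fun h => hα.2 (hr₁ α (by linear_combination h)), hc3' α hα.1.2.2 hc3,
      fun _ h => hα.2 (hr₁ α ?_)⟩
    linear_combination -h + (α * α + 1 - α) * hc3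
  rcases Nat.lt_or_ge 9 (Fintype.card F) with hbig | hsmall
  · obtain ⟨B₃, hB₃, hr₃⟩ := quad_roots (a := (2 : F)) (b := -3) (c := 2) (Or.inl hc2)
    obtain ⟨α, hα⟩ := exists_avoid ({0, 1, -1} ∪ B₁ ∪ B₂ ∪ B₃) (by
      have h1 := Finset.card_union_le ({0, 1, -1} ∪ B₁ ∪ B₂) B₃
      have h2 := Finset.card_union_le ({0, 1, -1} ∪ B₁) B₂
      have h3 := Finset.card_union_le ({0, 1, -1} : Finset F) B₁
      have := Finset.card_le_three (a := (0 : F)) (b := 1) (c := -1)
      omega)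
    simp only [Finset.mem_union, Finset.mem_insert, Finset.mem_singleton, not_or] at hα
    exact ⟨α, hα.1.1.1.1, hα.1.1.1.2.1, hα.1.1.1.2.2, fun h => hα.1.1.2 (hr₁ α (by linear_combination h)),
      fun h => hα.1.2 (hr₂ α (by linear_combination h)), fun _ h => hα.2 (hr₃ α (by linear_combination h))⟩
  have h0 : ((Fintype.card F : ℕ) : F) = 0 := FiniteField.cast_card_eq_zero F
  have h7 : (7 : F) = 0 := by
    rcases (show Fintype.card F = 6 ∨ Fintype.card F = 7 ∨ Fintype.card F = 8 ∨ Fintype.card F = 9 by omega) with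
      h | h | h | h <;> rw [h] at h0
    · have : (2 : F) * 3 = 0 := by norm_num at h0; linear_combination h0
      rcases mul_eq_zero.1 this with h' | h' <;> contradiction
    · exact_mod_cast h0
    · have : (2 : F) * (2 * 2) = 0 := by norm_num at h0; linear_combination h0
      simp [hc2] at this
    · have : (3 : F) * 3 = 0 := by norm_num at h0; linear_combination h0
      simp [hc3] at this
  exact ⟨2, hc2, fun h => one_ne_zero (α := F) (by linear_combination h), fun h => hc3 (by linear_combination h),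
    fun h => hc2 (by linear_combination h7 - h), fun h => hc3 (by linear_combination h),
    fun _ h => hc2 (mul_self_eq_zero.1 (show (2 : F) * 2 = 0 by linear_combination h))⟩

theorem Ctx.mon_of_fixes {M : Subgroup (GL ι F)} (H : Ctx M) (hι : 5 ≤ Fintype.card ι) (hq : 5 ≤ Fintype.card F)
    {K : Finset ι} (hK : K.Nonempty) {g : GL ι F} (hg : g ∈ M) (hgf : Fixes K (g : Matrix ι ι F)) :
    IsMon (g : Matrix ι ι F) := by
  classical
  induction hs : Kᶜ.card using Nat.strong_induction_on generalizing K g with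
  | _ s IH =>
  subst hs
  have IH' : ∀ {l : ι}, l ∉ K → ∀ g : GL ι F, g ∈ M → Fixes (insert l K) (g : Matrix ι ι F) → IsMon (g : Matrix ι ι F) :=
    fun {l} hl g hg hf => IH _ (Finset.card_lt_card (Finset.compl_ssubset_compl.2 (Finset.ssubset_insert hl)))
      (Finset.insert_nonempty _ _) hg hf rfl
  obtain ⟨k₀, hk₀⟩ := hK
  obtain ⟨α₀, hα₀⟩ := exists_avoid ({0, 1, -1} : Finset F) (lt_of_le_of_lt Finset.card_le_three (by omega))
  simp only [Finset.mem_insert, Finset.mem_singleton, not_or] at hα₀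
  obtain ⟨hα0, hα1, hαm⟩ := hα₀
  have hne : ∀ {x}, x ∉ K → x ≠ k₀ := fun {x} hx e => hx (e ▸ hk₀)
  -- conjugates of the homologies
  have hconj : ∀ (g : GL ι F), g ∈ M → Fixes K (g : Matrix ι ι F) → ∀ a, a ∉ K → ∀ α : F, α ≠ 0 →
      ∃ h ∈ M, (h : Matrix ι ι F) = Matrix.diagonal (dvec a k₀ α) ∧ g * h * g⁻¹ ∈ M ∧
        Fixes K ((g * h * g⁻¹ : GL ι F) : Matrix ι ι F) ∧
        (∀ m n, m ∉ K → ((g * h * g⁻¹ : GL ι F) : Matrix ι ι F) m n = (1 : Matrix ι ι F) m n +
          (α - 1) * ((g : Matrix ι ι F) m a * ((g⁻¹ : GL ι F) : Matrix ι ι F) a n)) ∧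
        ∀ m n, m ∉ K → (((g * h * g⁻¹)⁻¹ : GL ι F) : Matrix ι ι F) m n = (1 : Matrix ι ι F) m n +
          (α⁻¹ - 1) * ((g : Matrix ι ι F) m a * ((g⁻¹ : GL ι F) : Matrix ι ι F) a n) := by
    intro g hg hgf a ha α hα
    obtain ⟨h, hh, hhv, hhi⟩ := H.exists_diag _ (prod_dvec (hne ha) hα)
    refine ⟨h, hh, hhv, mul_mem (mul_mem hg hh) (inv_mem hg), ?_, fun m n hm => ?_, fun m n hm => ?_⟩
    · rw [Units.val_mul, Units.val_mul, hhv]
      exact (hgf.mul (fixes_diagonal K _)).mul hgf.inv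
    · rw [Units.val_mul, Units.val_mul, hhv, conj_quot hgf _ hm, Finset.sum_eq_single a, dvec_left]
      · intro x hx hxa
        rw [dvec_other hxa (hne (Finset.mem_compl.1 hx)), sub_self, zero_mul]
      · simp [ha]
    · rw [_root_.mul_inv_rev, _root_.mul_inv_rev, inv_inv, ← mul_assoc, Units.val_mul, Units.val_mul, hhi, conj_quot hgf _ hm,
        Finset.sum_eq_single a, dvec_left]
      · intro x hx hxa
        rw [dvec_other hxa (hne (Finset.mem_compl.1 hx)), inv_one, sub_self, zero_mul]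
      · simp [ha]
  -- a column which is a coordinate vector modulo the fixed lines
  have step1 : ∀ (g : GL ι F), g ∈ M → Fixes K (g : Matrix ι ι F) → ∀ l, l ∉ K →
      (∀ m, m ∉ K → m ≠ l → (g : Matrix ι ι F) m l = 0) → IsMon (g : Matrix ι ι F) := by
    intro g hg hgf l hl hz
    set c := (g : Matrix ι ι F) l l
    have hc1 : c * ((g⁻¹ : GL ι F) : Matrix ι ι F) l l = 1 := by
      have := sum_quot_inv hgf.inv hl l
      rw [inv_inv, Finset.sum_eq_single l (fun b hb hbl => by rw [hz b (Finset.mem_compl.1 hb) hbl, mul_zero])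
        (by simp [hl]), Matrix.one_apply_eq] at this
      linear_combination this
    have hc : c ≠ 0 := fun h => by rw [h, zero_mul] at hc1; exact zero_ne_one hc1
    obtain ⟨h, hh, hhv, huM, huf, hu, -⟩ := hconj g hg hgf l hl α₀ hα0
    set u := g * h * g⁻¹ with hudef
    have hdia : ∀ k ∈ K, (u : Matrix ι ι F) k k = dvec l k₀ α₀ k := fun k hk => by
      rw [hudef, Units.val_mul, Units.val_mul, mul_apply_diag _ hgf.inv hk, hhv, Matrix.mul_diagonal]
      linear_combination (dvec l k₀ α₀ k) * hgf.inv_diag hk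
    by_cases hw : ∀ b, b ∉ K → b ≠ l → ((g⁻¹ : GL ι F) : Matrix ι ι F) l b = 0
    · have e : u = h := by
        refine H.eq_of_agree hι hα0 hα1 (K := K) huM hh huf fun i j hij => ?_
        rw [hhv]
        by_cases hj : j ∈ K
        · rcases eq_or_ne i j with rfl | hne'
          · rw [hdia i hj, Matrix.diagonal_apply_eq]
          · rw [huf j hj i hne', Matrix.diagonal_apply_ne _ hne']
        · have hi : i ∉ K := fun hi => hij ⟨hi, hj⟩
          rw [hu i j hi]
          rcases eq_or_ne i l with rfl | hil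
          · rcases eq_or_ne j i with rfl | hjl
            · rw [Matrix.one_apply_eq, Matrix.diagonal_apply_eq, dvec_left]
              linear_combination (α₀ - 1) * hc1
            · rw [hw j hj hjl, Matrix.one_apply_ne hjl.symm, Matrix.diagonal_apply_ne _ hjl.symm]; ring
          · rw [hz i hi hil]
            rcases eq_or_ne i j with rfl | hne'
            · rw [Matrix.one_apply_eq, Matrix.diagonal_apply_eq, dvec_other hil (hne hi)]; ring
            · rw [Matrix.one_apply_ne hne', Matrix.diagonal_apply_ne _ hne']; ring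
      rw [hudef, mul_inv_eq_iff_eq_mul] at e
      refine IH' hl g hg fun k hk i hi => ?_
      rcases Finset.mem_insert.1 hk with rfl | hk
      swap
      · exact hgf k hk i hi
      by_cases hiK : i ∈ K
      swap
      · exact hz i hiK hi
      have := congrArg (fun a : GL ι F => (a : Matrix ι ι F) i k) e
      simp only [Units.val_mul, hhv, Matrix.mul_diagonal, Matrix.diagonal_mul, dvec_left] at this
      have hd : dvec k k₀ α₀ i ≠ α₀ := by
        rcases eq_or_ne i k₀ with rfl | hik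
        · rw [dvec_right hi.symm]
          intro e'
          have : (α₀ - 1) * (α₀ + 1) = 0 := by
            have := mul_inv_cancel₀ hα0
            rw [e'] at this; linear_combination this
          rcases mul_eq_zero.1 this with h' | h'
          · exact hα1 (sub_eq_zero.1 h')
          · exact hαm (eq_neg_of_add_eq_zero_left h')
        · rw [dvec_other hi hik]; exact Ne.symm hα1
      have : (g : Matrix ι ι F) i k * (α₀ - dvec k k₀ α₀ i) = 0 := by linear_combination this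
      exact (mul_eq_zero.1 this).resolve_right (sub_ne_zero.2 hd.symm)
    -- otherwise a transvection appears
    exfalso
    push Not at hw
    obtain ⟨j, hj, hjl, hwj⟩ := hw
    obtain ⟨h₂, hh₂, hh₂v, hh₂i⟩ := H.exists_diag _ (prod_dvec (hne hj) hα0)
    obtain ⟨z, hzdef⟩ : ∃ z, z = h₂ * u * h₂⁻¹ * u⁻¹ := ⟨_, rfl⟩
    have hzM : z ∈ M := hzdef ▸ mul_mem (mul_mem (mul_mem hh₂ huM) (inv_mem hh₂)) (inv_mem huM)
    have hPf : Fixes K ((h₂ * u * h₂⁻¹ : GL ι F) : Matrix ι ι F) := by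
      rw [Units.val_mul, Units.val_mul, hh₂v, hh₂i]
      exact ((fixes_diagonal K _).mul huf).mul (fixes_diagonal K _)
    have hzf : Fixes K (z : Matrix ι ι F) := by rw [hzdef, Units.val_mul]; exact hPf.mul huf.inv
    set d₂ := dvec j k₀ α₀ with hd₂
    set e := (α₀⁻¹ - 1) * (u : Matrix ι ι F) l j with hedef
    have he : e ≠ 0 := by
      rw [hedef, hu l j hl, Matrix.one_apply_ne hjl.symm, zero_add]
      exact mul_ne_zero (sub_ne_zero.2 (inv_ne_one.2 hα1)) (mul_ne_zero (sub_ne_zero.2 hα1) (mul_ne_zero hc hwj))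
    have hurow : ∀ m n, m ∉ K → m ≠ l → (u : Matrix ι ι F) m n = (1 : Matrix ι ι F) m n := fun m n hm hml => by
      rw [hu m n hm, hz m hm hml]; ring
    have huinv : ∀ b, b ∉ K → ((u⁻¹ : GL ι F) : Matrix ι ι F) j b = (1 : Matrix ι ι F) j b := fun b hb => by
      rw [← sum_quot_inv huf hj b, Finset.sum_eq_single j (fun x _ hxj => by
        rw [hurow j x hj hjl, Matrix.one_apply_ne (Ne.symm hxj), zero_mul]) (by simp [hj]),
        hurow j j hj hjl, Matrix.one_apply_eq, one_mul]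
    have hd₂0 : ∀ x, x ∉ K → x ≠ j → d₂ x = 1 := fun x hx hxj => dvec_other hxj (hne hx) α₀
    have hPu : ∀ x y, x ∉ K → y ∉ K → ((h₂ * u * h₂⁻¹ : GL ι F) : Matrix ι ι F) x y =
        (u : Matrix ι ι F) x y + if x = l ∧ y = j then e else 0 := by
      intro x y hx hy
      rw [Units.val_mul, Units.val_mul, hh₂v, hh₂i, Matrix.mul_diagonal, Matrix.diagonal_mul]
      rcases eq_or_ne x l with rfl | hxl
      · rw [hd₂0 x hx hjl.symm]
        rcases eq_or_ne y j with rfl | hyj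
        · rw [if_pos ⟨rfl, rfl⟩, hd₂, dvec_left, hedef]; ring
        · rw [if_neg (fun h => hyj h.2), hd₂0 y hy hyj]; simp
      · rw [if_neg (fun h => hxl h.1), hurow x y hx hxl, add_zero]
        rcases eq_or_ne x y with rfl | hxy
        · rw [Matrix.one_apply_eq, mul_one]
          exact mul_inv_cancel₀ (by
            rcases eq_or_ne x j with rfl | h'
            · rw [hd₂, dvec_left]; exact hα0
            · rw [hd₂0 x hx h']; exact one_ne_zero)
        · rw [Matrix.one_apply_ne hxy]; ring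
    have hzS : ∀ x y, x ∉ K → y ∉ K → (z : Matrix ι ι F) x y =
        (1 : Matrix ι ι F) x y + if x = l then e * (1 : Matrix ι ι F) j y else 0 := by
      intro x y hx hy
      rw [hzdef, Units.val_mul, mul_apply_quot hPf _ hx, Finset.sum_congr rfl fun t ht => by
        rw [hPu x t hx (Finset.mem_compl.1 ht), add_mul], Finset.sum_add_distrib, sum_quot_inv huf hx]
      congr 1
      rw [Finset.sum_eq_single j (fun b _ hb => by rw [if_neg (fun h => hb h.2), zero_mul]) (by simp [hj]),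
        huinv y hy]
      simp
    have hzd : ∀ k ∈ K, (z : Matrix ι ι F) k k = 1 := fun k hk => by
      rw [hzdef, Units.val_mul, mul_apply_diag _ huf.inv hk, Units.val_mul, Units.val_mul, hh₂v, hh₂i,
        Matrix.mul_diagonal, Matrix.diagonal_mul]
      have h0 : d₂ k ≠ 0 := by
        rw [hd₂]; unfold dvec
        split_ifs <;> simp [hα0]
      field_simp
      linear_combination huf.inv_diag hk
    have hzK : ∀ k m, k ∈ K → m ∉ K → (z : Matrix ι ι F) k m = 0 := by
      intro k m hk hm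
      obtain ⟨d, -, hd⟩ := Finset.exists_mem_notMem_of_card_lt_card (s := ({k, m, l, j} : Finset ι))
        (t := Finset.univ) (lt_of_le_of_lt Finset.card_le_four (by rw [Finset.card_univ]; omega))
      simp only [Finset.mem_insert, Finset.mem_singleton, not_or] at hd
      obtain ⟨h₃, hh₃, hh₃v, -⟩ := H.exists_diag _ (prod_dvec (Ne.symm hd.1) hα0)
      set d₃ := dvec k d α₀ with hd₃
      have h3l : d₃ l = 1 := dvec_other (fun e' : l = k => hl (e' ▸ hk)) (Ne.symm hd.2.2.1) α₀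
      have h3j : d₃ j = 1 := dvec_other (fun e' : j = k => hj (e' ▸ hk)) (Ne.symm hd.2.2.2) α₀
      have e' : h₃ * z = z * h₃ := by
        refine H.eq_of_agree hι hα0 hα1 (K := K) (mul_mem hh₃ hzM) (mul_mem hzM hh₃)
          (by rw [Units.val_mul, hh₃v]; exact (fixes_diagonal K d₃).mul hzf) fun a b hab => ?_
        rw [Units.val_mul, Units.val_mul, hh₃v, Matrix.diagonal_mul, Matrix.mul_diagonal]
        by_cases hb : b ∈ K
        · rcases eq_or_ne a b with rfl | hne'
          · ring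
          · rw [hzf b hb a hne']; ring
        · have ha : a ∉ K := fun ha => hab ⟨ha, hb⟩
          rw [hzS a b ha hb]
          rcases eq_or_ne a b with rfl | hne'
          · ring
          · rw [Matrix.one_apply_ne hne', zero_add]
            by_cases hal : a = l
            · subst hal
              rw [if_pos rfl]
              rcases eq_or_ne j b with rfl | hjb
              · rw [h3l, h3j]; ring
              · rw [Matrix.one_apply_ne hjb]; ring
            · rw [if_neg hal]; ring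
      have := congrArg (fun a : GL ι F => (a : Matrix ι ι F) k m) e'
      simp only [Units.val_mul, hh₃v, Matrix.diagonal_mul, Matrix.mul_diagonal] at this
      rw [hd₃, dvec_left, ← hd₃, show d₃ m = 1 from dvec_other (fun e'' : m = k => hm (e'' ▸ hk)) (Ne.symm hd.2.1) α₀] at this
      exact (mul_eq_zero.1 (show (α₀ - 1) * (z : Matrix ι ι F) k m = 0 by linear_combination this)).resolve_left
        (sub_ne_zero.2 hα1)
    refine H.noRoot l j hjl.symm e he z hzM (Matrix.ext fun a b => ?_)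
    simp only [Matrix.transvection, Matrix.add_apply, Matrix.single_apply]
    by_cases hb : b ∈ K
    · rw [if_neg (fun h : l = a ∧ j = b => hj (h.2 ▸ hb)), add_zero]
      rcases eq_or_ne a b with rfl | hne'
      · rw [hzd a hb, Matrix.one_apply_eq]
      · rw [hzf b hb a hne', Matrix.one_apply_ne hne']
    by_cases ha : a ∈ K
    · rw [if_neg (fun h : l = a ∧ j = b => hl (h.1 ▸ ha)), add_zero, hzK a b ha hb, Matrix.one_apply_ne (fun e' : a = b => hb (e' ▸ ha))]
    rw [hzS a b ha hb]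
    congr 1
    by_cases hal : l = a
    · subst hal
      by_cases hjb : j = b
      · subst hjb; simp
      · simp [hjb]
    · simp [hal, Ne.symm hal]
  have claimC : ∀ (g : GL ι F), g ∈ M → Fixes K (g : Matrix ι ι F) → ∀ l, l ∉ K → ∀ i, i ∉ K →
      (∀ m, m ∉ K → m ≠ i → (g : Matrix ι ι F) m l = 0) → IsMon (g : Matrix ι ι F) := by
    intro g hg hgf l hl i hi hz
    rcases eq_or_ne i l with rfl | hil
    · exact step1 g hg hgf i hi hz
    obtain ⟨p, hp, hpm, d, hd, hpv⟩ := H.exists_swap hil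
    have hm : IsMon ((p * g : GL ι F) : Matrix ι ι F) := by
      refine step1 (p * g) (mul_mem hp hg) (fun k hk a ha => ?_) l hl fun m hm hml => ?_
      · rw [Units.val_mul, hpv, hgf k hk _ (fun e => ha ?_), mul_zero]
        have := congrArg (Equiv.swap i l) e
        rwa [Equiv.swap_apply_self,
          Equiv.swap_apply_of_ne_of_ne (fun e' : k = i => hi (e' ▸ hk)) (fun e' : k = l => hl (e' ▸ hk))] at this
      · rw [Units.val_mul, hpv, hz _ (fun h => hm ?_) (fun e => hml ?_), mul_zero]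
        · by_cases hmi : m = i
          · rw [hmi, Equiv.swap_apply_left] at h; exact absurd h hl
          · rwa [Equiv.swap_apply_of_ne_of_ne hmi hml] at h
        · have := congrArg (Equiv.swap i l) e
          rwa [Equiv.swap_apply_self, Equiv.swap_apply_left] at this
    have := hpm.inv.mul hm
    rwa [← Units.val_mul, inv_mul_cancel_left] at this
  by_contra hgn
  obtain ⟨l₀, hl₀⟩ : ∃ l, l ∉ K := by
    by_contra hall
    push Not at hall
    exact hgn fun j => ⟨j, fun a ha => hgf j (hall j) a ha⟩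
  have hsupp : ∀ (g : GL ι F), g ∈ M → Fixes K (g : Matrix ι ι F) → ¬ IsMon (g : Matrix ι ι F) → ∀ l, l ∉ K →
      ∃ x₁ x₂, x₁ ∉ K ∧ x₂ ∉ K ∧ x₁ ≠ x₂ ∧ (g : Matrix ι ι F) x₁ l ≠ 0 ∧ (g : Matrix ι ι F) x₂ l ≠ 0 := by
    intro g hg hgf hn l hl
    have h : ∀ i, i ∉ K → ∃ m, m ∉ K ∧ m ≠ i ∧ (g : Matrix ι ι F) m l ≠ 0 := fun i hi => by
      by_contra hall
      push Not at hall
      exact hn (claimC g hg hgf l hl i hi hall)
    obtain ⟨x₁, hx₁, -, h1⟩ := h l hl
    obtain ⟨x₂, hx₂, h21, h2⟩ := h x₁ hx₁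
    exact ⟨x₁, x₂, hx₁, hx₂, h21.symm, h1, h2⟩
  -- all entries of the quotient are non-zero
  have hfull : ∀ (g : GL ι F), g ∈ M → Fixes K (g : Matrix ι ι F) → ¬ IsMon (g : Matrix ι ι F) → ∀ a j, a ∉ K →
      j ∉ K → (g : Matrix ι ι F) a j ≠ 0 := by
    intro g hg hgf hn a j ha hj h0
    obtain ⟨h, -, -, huM, huf, hu, -⟩ := hconj g⁻¹ (inv_mem hg) hgf.inv a ha α₀ hα0
    rw [inv_inv] at huM huf hu
    have hmon := claimC _ huM huf j hj j hj fun m hm hmj => by
      rw [hu m j hm, h0, Matrix.one_apply_ne hmj]; ring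
    obtain ⟨σ, -, hσ, -⟩ := hmon.exists_perm
    obtain ⟨x₁, x₂, hx₁, hx₂, h12, h1, h2⟩ := hsupp g⁻¹ (inv_mem hg) hgf.inv (isMon_inv_iff.not.2 hn) a ha
    exact hom_not_mon hσ Kᶜ hα0 hα1 hαm (y := fun m => ((g⁻¹ : GL ι F) : Matrix ι ι F) m a)
      (w := fun n => (g : Matrix ι ι F) a n) (fun m hm n _ => hu m n (Finset.mem_compl.1 hm))
      (by rw [sum_quot_inv hgf ha a, Matrix.one_apply_eq]) (Finset.mem_compl.2 hx₁) (Finset.mem_compl.2 hx₂) h12 h1 h2
  have hnot : ∀ (g h : GL ι F), g ∈ M → Fixes K (g : Matrix ι ι F) → ¬ IsMon (g : Matrix ι ι F) → ∀ a, a ∉ K →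
      ∀ α : F, α ≠ 0 → α ≠ 1 → α ≠ -1 → (∀ m n, m ∉ K → ((g * h * g⁻¹ : GL ι F) : Matrix ι ι F) m n =
        (1 : Matrix ι ι F) m n + (α - 1) * ((g : Matrix ι ι F) m a * ((g⁻¹ : GL ι F) : Matrix ι ι F) a n)) →
      ¬ IsMon ((g * h * g⁻¹ : GL ι F) : Matrix ι ι F) := by
    intro g h hg hgf hn a ha α h0 h1 hm hu hmon
    obtain ⟨σ, -, hσ, -⟩ := hmon.exists_perm
    obtain ⟨x₁, x₂, hx₁, hx₂, h12, e1, e2⟩ := hsupp g hg hgf hn a ha
    refine hom_not_mon hσ Kᶜ h0 h1 hm (y := fun m => (g : Matrix ι ι F) m a)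
      (w := fun n => ((g⁻¹ : GL ι F) : Matrix ι ι F) a n) (fun m hm n _ => hu m n (Finset.mem_compl.1 hm)) ?_
      (Finset.mem_compl.2 hx₁) (Finset.mem_compl.2 hx₂) h12 e1 e2
    have := sum_quot_inv hgf.inv ha a
    rwa [inv_inv, Matrix.one_apply_eq] at this
  have hval : ∀ (g : GL ι F), g ∈ M → Fixes K (g : Matrix ι ι F) → ¬ IsMon (g : Matrix ι ι F) → ∀ l a, l ∉ K →
      a ∉ K → (g : Matrix ι ι F) l a * ((g⁻¹ : GL ι F) : Matrix ι ι F) a l = 1 ∨
        2 * ((g : Matrix ι ι F) l a * ((g⁻¹ : GL ι F) : Matrix ι ι F) a l) = 1 := by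
    intro g hg hgf hn l a hl ha
    obtain ⟨P, hP⟩ : ∃ P, P = (g : Matrix ι ι F) l a * ((g⁻¹ : GL ι F) : Matrix ι ι F) a l := ⟨_, rfl⟩
    rw [← hP]
    have hP0 : P ≠ 0 := hP ▸ mul_ne_zero (hfull g hg hgf hn l a hl ha)
      (hfull g⁻¹ (inv_mem hg) hgf.inv (isMon_inv_iff.not.2 hn) a l ha hl)
    obtain ⟨α, hα⟩ : ∃ α, α = 1 - P⁻¹ := ⟨_, rfl⟩
    have hαP : (α - 1) * P = -1 := by rw [hα]; field_simp; ring
    by_cases h0 : α = 0
    · left; rw [h0] at hαP; linear_combination -hαP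
    by_cases hm1 : α = -1
    · right; rw [hm1] at hαP; linear_combination -hαP
    have h1 : α ≠ 1 := fun h => by rw [h, sub_self, zero_mul] at hαP; simp at hαP
    obtain ⟨h, -, -, huM, huf, hu, -⟩ := hconj g hg hgf a ha α h0
    refine absurd ?_ (hfull _ huM huf (hnot g h hg hgf hn a ha α h0 h1 hm1 hu) l l hl hl)
    rw [hu l l hl, Matrix.one_apply_eq, ← hP, hαP]; ring
  have hvu : ∀ a, a ∉ K → ∀ α : F, α ≠ 0 → α ≠ 1 → α ≠ -1 → ∀ l b, l ∉ K → b ∉ K →
      let X := ((1 : Matrix ι ι F) l b + (α - 1) * ((g : Matrix ι ι F) l a * ((g⁻¹ : GL ι F) : Matrix ι ι F) a b)) *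
        ((1 : Matrix ι ι F) b l + (α⁻¹ - 1) * ((g : Matrix ι ι F) b a * ((g⁻¹ : GL ι F) : Matrix ι ι F) a l))
      X = 1 ∨ 2 * X = 1 := by
    intro a ha α h0 h1 hm l b hl hb
    obtain ⟨h, -, -, huM, huf, hu, hui⟩ := hconj g hg hgf a ha α h0
    have := hval _ huM huf (hnot g h hg hgf hgn a ha α h0 h1 hm hu) l b hl hb
    rw [hu l b hl, hui b l hb] at this
    exact this
  let P : ι → ι → F := fun l a => (g : Matrix ι ι F) l a * ((g⁻¹ : GL ι F) : Matrix ι ι F) a l
  have hP : ∀ l a, l ∉ K → a ∉ K → P l a = 1 ∨ 2 * P l a = 1 := fun l a => hval g hg hgf hgn l a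
  have hsum : ∀ a, a ∉ K → ∑ l ∈ Kᶜ, P l a = 1 := fun a ha => by
    have := sum_quot_inv hgf.inv ha a
    rw [inv_inv, Matrix.one_apply_eq] at this
    rw [← this]
    exact Finset.sum_congr rfl fun l _ => mul_comm _ _
  have hhalf : ∀ α : F, α ≠ 0 → α ≠ 1 → α ≠ -1 → α * α + 1 ≠ 0 → ∀ l a, l ∉ K → a ∉ K → 2 * P l a ≠ 1 := by
    intro α h0 h1 hm hq1 l a hl ha hP2
    have h2 : (2 : F) ≠ 0 := fun h => by rw [h, zero_mul] at hP2; exact zero_ne_one hP2
    have := hvu a ha α h0 h1 hm l l hl hl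
    rw [Matrix.one_apply_eq] at this
    change (1 + (α - 1) * P l a) * (1 + (α⁻¹ - 1) * P l a) = 1 ∨
      2 * ((1 + (α - 1) * P l a) * (1 + (α⁻¹ - 1) * P l a)) = 1 at this
    rw [show P l a = 2⁻¹ from eq_inv_of_mul_eq_one_left (by rw [mul_comm]; exact hP2)] at this
    rcases this with h | h <;> field_simp at h
    · exact h1 (sub_eq_zero.1 (mul_self_eq_zero.1 (show (α - 1) * (α - 1) = 0 by linear_combination h)))
    · exact hq1 (by linear_combination h)
  have hones : ∀ α : F, α ≠ 0 → α ≠ 1 → α ≠ -1 → α * α - α + 1 ≠ 0 →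
      ((2 : F) ≠ 0 → 2 * (α * α) - 3 * α + 2 ≠ 0) →
      ∀ l b a, l ∉ K → b ∉ K → a ∉ K → P l a = 1 → P b a = 1 → l = b := by
    intro α h0 h1 hm hq2 hq3 l b a hl hb ha hPl hPb
    by_contra hlb
    have := hvu a ha α h0 h1 hm l b hl hb
    rw [Matrix.one_apply_ne hlb, Matrix.one_apply_ne (Ne.symm hlb), zero_add, zero_add] at this
    have e : (α - 1) * ((g : Matrix ι ι F) l a * ((g⁻¹ : GL ι F) : Matrix ι ι F) a b) *
        ((α⁻¹ - 1) * ((g : Matrix ι ι F) b a * ((g⁻¹ : GL ι F) : Matrix ι ι F) a l)) = (α - 1) * (α⁻¹ - 1) := by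
      calc _ = (α - 1) * (α⁻¹ - 1) * (P l a * P b a) := by ring
        _ = _ := by rw [hPl, hPb, mul_one, mul_one]
    simp only [e] at this
    rcases this with h | h <;> field_simp at h
    · exact hq2 (by linear_combination -h)
    · refine hq3 (fun h2 => h1 ?_) (by linear_combination -h)
      rw [h2] at h; simp at h; exact absurd h.symm h0
  obtain ⟨a₁, a₂, ha₁, ha₂, ha12, -, -⟩ := hsupp g hg hgf hgn l₀ hl₀
  by_cases h5 : Fintype.card F = 5
  swap
  · obtain ⟨α, h0, h1, hm, hq1, hq2, hq3⟩ := exists_good_scalar hq h5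
    exact ha12 (hones α h0 h1 hm hq2 hq3 a₁ a₂ a₁ ha₁ ha₂ ha₁
      ((hP a₁ a₁ ha₁ ha₁).resolve_right (hhalf α h0 h1 hm hq1 _ _ ha₁ ha₁))
      ((hP a₂ a₁ ha₂ ha₁).resolve_right (hhalf α h0 h1 hm hq1 _ _ ha₂ ha₁)))
  rcases Nat.lt_or_ge Kᶜ.card 5 with hsmall | hbig
  · have h0' : ((5 : ℕ) : F) = 0 := h5 ▸ FiniteField.cast_card_eq_zero F
    have h5' : (5 : F) = 0 := by exact_mod_cast h0'
    have hb2 : ∀ {x : F}, 2 * x = 1 → x = 3 := fun {x} h => by linear_combination 3 * h - x * h5'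
    have hN : ∀ m : ℕ, ((m : ℕ) : F) = 0 → m < 5 → m = 0 := by
      intro m hm hlt
      haveI : CharP F 5 := (CharP.charP_iff_prime_eq_zero (by norm_num)).2 h0'
      exact Nat.eq_zero_of_dvd_of_lt ((CharP.cast_eq_zero_iff F 5 m).1 hm) hlt
    have hno1 : ∀ a, a ∉ K → ∀ l, l ∉ K → 2 * P l a = 1 := by
      intro a ha l hl
      refine (hP l a hl ha).resolve_left fun hl1 => ?_
      have hrest : ∀ b ∈ Kᶜ.erase l, P b a = 3 := fun b hb => by
        rw [Finset.mem_erase, Finset.mem_compl] at hb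
        refine hb2 ((hP b a hb.2 ha).resolve_left fun hb1 => hb.1 ?_)
        exact hones 2 (fun h => one_ne_zero (α := F) (by linear_combination h5' - 2 * h))
          (fun h => one_ne_zero (α := F) (by linear_combination h))
          (fun h => one_ne_zero (α := F) (by linear_combination 2 * h - h5'))
          (fun h => one_ne_zero (α := F) (by linear_combination 2 * h - h5'))
          (fun _ h => one_ne_zero (α := F) (by linear_combination h5' - h)) b l a hb.2 hl ha hb1 hl1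
      have h := hsum a ha
      rw [← Finset.add_sum_erase _ _ (Finset.mem_compl.2 hl), hl1, Finset.sum_congr rfl hrest, Finset.sum_const,
        nsmul_eq_mul] at h
      have hlt : (Kᶜ.erase l).card < 5 := lt_of_le_of_lt (Finset.card_erase_le) hsmall
      have h0c := hN _ (by linear_combination 2 * h - ((Kᶜ.erase l).card : F) * h5') hlt
      have : 2 ≤ Kᶜ.card := Finset.one_lt_card.2 ⟨a₁, Finset.mem_compl.2 ha₁, a₂, Finset.mem_compl.2 ha₂, ha12⟩
      rw [Finset.card_erase_of_mem (Finset.mem_compl.2 hl)] at h0c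
      omega
    have h := hsum a₁ ha₁
    rw [Finset.sum_congr rfl fun b hb => hb2 (hno1 a₁ ha₁ b (Finset.mem_compl.1 hb)), Finset.sum_const,
      nsmul_eq_mul] at h
    have h2 : 2 ≤ Kᶜ.card := Finset.one_lt_card.2 ⟨a₁, Finset.mem_compl.2 ha₁, a₂, Finset.mem_compl.2 ha₂, ha12⟩
    have hs2 : Kᶜ.card = 2 := by
      have h0c := hN (Kᶜ.card - 2) (by
        rw [Nat.cast_sub h2]; push_cast
        linear_combination 2 * h - (Kᶜ.card : F) * h5') (by omega)
      omega
    have hKc : Kᶜ = {a₁, a₂} := (Finset.eq_of_subset_of_card_le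
      (by simp [Finset.insert_subset_iff, ha₁, ha₂]) (by rw [hs2, Finset.card_pair ha12])).symm
    refine H.five_two h5 hι ha12 hKc hg hgf (hfull g hg hgf hgn _ _ ha₁ ha₁) (hfull g hg hgf hgn _ _ ha₁ ha₂)
      (hfull g hg hgf hgn _ _ ha₂ ha₁) (hfull g hg hgf hgn _ _ ha₂ ha₂) ?_
    have e := sum_quot_inv hgf ha₁ a₂
    rw [hKc, Finset.sum_pair ha12, Matrix.one_apply_ne ha12] at e
    linear_combination (2 * (g : Matrix ι ι F) a₂ a₁ * (g : Matrix ι ι F) a₂ a₂) * e -
      ((g : Matrix ι ι F) a₁ a₁ * (g : Matrix ι ι F) a₂ a₂) * hno1 a₁ ha₁ a₂ ha₂ -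
      ((g : Matrix ι ι F) a₁ a₂ * (g : Matrix ι ι F) a₂ a₁) * hno1 a₂ ha₂ a₂ ha₂
  -- two homologies with a vanishing diagonal entry
  obtain ⟨l, hl⟩ : ∃ l, l ∉ K := ⟨l₀, hl₀⟩
  set p := P l a₁ with hp
  set p' := P l a₂ with hp'
  have hgi := hgf.inv
  have hni : ¬ IsMon ((g⁻¹ : GL ι F) : Matrix ι ι F) := isMon_inv_iff.not.2 hgn
  have hp0 : p ≠ 0 := mul_ne_zero (hfull g hg hgf hgn l a₁ hl ha₁) (hfull g⁻¹ (inv_mem hg) hgi hni a₁ l ha₁ hl)
  have hp'0 : p' ≠ 0 := mul_ne_zero (hfull g hg hgf hgn l a₂ hl ha₂) (hfull g⁻¹ (inv_mem hg) hgi hni a₂ l ha₂ hl)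
  obtain ⟨α, hα⟩ := exists_avoid ({0, 1, 1 - p⁻¹, 1 + (p' - 1) * p⁻¹} : Finset F)
    (lt_of_le_of_lt Finset.card_le_four (by omega))
  simp only [Finset.mem_insert, Finset.mem_singleton, not_or] at hα
  obtain ⟨h0, h1, hb1, hb2⟩ := hα
  obtain ⟨α', hα'⟩ : ∃ α', α' = 1 - (1 + (α - 1) * p) * p'⁻¹ := ⟨_, rfl⟩
  have hz : 1 + (α - 1) * p + (α' - 1) * p' = 0 := by rw [hα']; field_simp; ring
  have h0' : α' ≠ 0 := fun h => hb2 (by rw [h] at hz; field_simp; linear_combination hz)
  have h1' : α' ≠ 1 := fun h => hb1 (by rw [h] at hz; field_simp; linear_combination hz)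
  obtain ⟨x₁, hx₁, hx₁v, -⟩ := H.exists_diag _ (prod_dvec (hne ha₁) h0)
  obtain ⟨x₂, hx₂, hx₂v, -⟩ := H.exists_diag _ (prod_dvec (hne ha₂) h0')
  set u := g * (x₁ * x₂) * g⁻¹ with hu
  have huM : u ∈ M := mul_mem (mul_mem hg (mul_mem hx₁ hx₂)) (inv_mem hg)
  have huv : (u : Matrix ι ι F) = (g : Matrix ι ι F) *
      Matrix.diagonal (fun x => dvec a₁ k₀ α x * dvec a₂ k₀ α' x) * ((g⁻¹ : GL ι F) : Matrix ι ι F) := by
    rw [hu, Units.val_mul, Units.val_mul, Units.val_mul, hx₁v, hx₂v, Matrix.diagonal_mul_diagonal]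
  have huf : Fixes K (u : Matrix ι ι F) := by rw [huv]; exact (hgf.mul (fixes_diagonal K _)).mul hgi
  let xv : ι → F := fun n => (α - 1) * ((g⁻¹ : GL ι F) : Matrix ι ι F) a₁ n
  let yv : ι → F := fun n => (α' - 1) * ((g⁻¹ : GL ι F) : Matrix ι ι F) a₂ n
  have hue : ∀ m ∈ Kᶜ, ∀ n ∈ Kᶜ, (u : Matrix ι ι F) m n = (1 : Matrix ι ι F) m n +
      (xv n * (g : Matrix ι ι F) m a₁ + yv n * (g : Matrix ι ι F) m a₂) := by
    intro m hm n _
    rw [huv, conj_quot hgf _ (Finset.mem_compl.1 hm),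
      Finset.sum_eq_add_of_mem a₁ a₂ (Finset.mem_compl.2 ha₁) (Finset.mem_compl.2 ha₂) ha12 (fun c hc hc' => by
        rw [dvec_other hc'.1 (hne (Finset.mem_compl.1 hc)), dvec_other hc'.2 (hne (Finset.mem_compl.1 hc)), one_mul,
          sub_self, zero_mul]),
      dvec_left, dvec_left, dvec_other ha12 (hne ha₁), dvec_other (Ne.symm ha12) (hne ha₂)]
    simp only [xv, yv]; ring
  have hmon : IsMon (u : Matrix ι ι F) := by
    by_contra hun
    refine hfull u huM huf hun l l hl hl ?_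
    rw [hue l (Finset.mem_compl.2 hl) l (Finset.mem_compl.2 hl), Matrix.one_apply_eq]
    simp only [xv, yv]
    linear_combination hz
  obtain ⟨σ, -, hσ, -⟩ := hmon.exists_perm
  have e : ∀ a b, a ∉ K → b ∉ K →
      ∑ n ∈ Kᶜ, ((g⁻¹ : GL ι F) : Matrix ι ι F) a n * (g : Matrix ι ι F) n b = (1 : Matrix ι ι F) a b := by
    intro a b ha _
    have := sum_quot_inv hgi ha b
    rwa [inv_inv] at this
  obtain ⟨n, hn, n', hn', hd⟩ := exists_indep Kᶜ xv yv (fun m => (g : Matrix ι ι F) m a₁)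
    (fun m => (g : Matrix ι ι F) m a₂)
    (by simp only [xv, mul_assoc, ← Finset.mul_sum, e a₁ a₁ ha₁ ha₁, Matrix.one_apply_eq, mul_one]
        exact sub_ne_zero.2 h1)
    (by simp only [yv, mul_assoc, ← Finset.mul_sum, e a₂ a₁ ha₂ ha₁, Matrix.one_apply_ne ha12.symm, mul_zero])
    (by simp only [yv, mul_assoc, ← Finset.mul_sum, e a₂ a₂ ha₂ ha₂, Matrix.one_apply_eq, mul_one]
        exact sub_ne_zero.2 h1')
  obtain ⟨m, hm, hout⟩ := Finset.exists_mem_notMem_of_card_lt_card (s := ({n, σ n, n', σ n'} : Finset ι)) (t := Kᶜ)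
    (lt_of_le_of_lt Finset.card_le_four (by omega))
  exact hfull g hg hgf hgn m a₁ (Finset.mem_compl.1 hm) ha₁ (rank_two_support hσ Kᶜ hue hn hn' hd hm hout).1

end CfsgLib.GeoMono
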