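import Cfsg.Agent.GeoLib.MonoBase

/-!
Conjugates of diagonal matrices with small support, and when they are monomial.
-/

set_option autoImplicit false

namespace CfsgLib.GeoMono

open Matrix

variable {ι : Type} [Fintype ι] [DecidableEq ι] {F : Type*} [Field F]

/-- Entries of a conjugate of a diagonal matrix, modulo the fixed lines. -/
theorem conj_quot {K : Finset ι} {g : GL ι F} (hg : Fixes K (g : Matrix ι ι F)) (d : ι → F) {m : ι} (hm : m ∉ K) (n : ι) :
    ((g : Matrix ι ι F) * Matrix.diagonal d * ((g⁻¹ : GL ι F) : Matrix ι ι F)) m n =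
      (1 : Matrix ι ι F) m n +
        ∑ x ∈ Kᶜ, (d x - 1) * ((g : Matrix ι ι F) m x * ((g⁻¹ : GL ι F) : Matrix ι ι F) x n) := by
  rw [mul_apply_quot (hg.mul (fixes_diagonal K d)) _ hm, ← val_mul_inv g, mul_apply_quot hg _ hm, ← Finset.sum_add_distrib]
  exact Finset.sum_congr rfl fun x _ => by rw [Matrix.mul_diagonal]; ring

theorem sum_quot_inv {K : Finset ι} {g : GL ι F} (hg : Fixes K (g : Matrix ι ι F)) {m : ι} (hm : m ∉ K) (n : ι) :
    ∑ x ∈ Kᶜ, (g : Matrix ι ι F) m x * ((g⁻¹ : GL ι F) : Matrix ι ι F) x n = (1 : Matrix ι ι F) m n := by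
  rw [← mul_apply_quot hg _ hm, val_mul_inv]

/-- A homology with centre of at least two non-zero coordinates is monomial only for the eigenvalue `-1`. -/
theorem hom_not_mon {U : Matrix ι ι F} {σ : ι → ι} (hσ : ∀ j l, l ≠ σ j → U l j = 0) (S : Finset ι) {y w : ι → F}
    {α : F} (hα0 : α ≠ 0) (hα1 : α ≠ 1) (hαm : α ≠ -1)
    (hU : ∀ m ∈ S, ∀ n ∈ S, U m n = (1 : Matrix ι ι F) m n + (α - 1) * (y m * w n))
    (hsum : ∑ x ∈ S, w x * y x = 1) {x₁ x₂ : ι} (h1 : x₁ ∈ S) (h2 : x₂ ∈ S) (hne : x₁ ≠ x₂)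
    (hy1 : y x₁ ≠ 0) (hy2 : y x₂ ≠ 0) : False := by
  have hα1' : α - 1 ≠ 0 := sub_ne_zero.2 hα1
  have hkey : ∀ b ∈ S, w b ≠ 0 → ∀ m ∈ S, y m ≠ 0 → m ≠ b → m = σ b := fun b hb hwb m hm hym hmb => by
    by_contra hne'
    have := hσ b m hne'
    rw [hU m hm b hb, Matrix.one_apply_ne hmb, zero_add] at this
    exact mul_ne_zero hα1' (mul_ne_zero hym hwb) this
  have hb12 : ∀ b ∈ S, w b ≠ 0 → (b = x₁ ∨ b = x₂) ∧ ∀ m ∈ S, y m ≠ 0 → m = x₁ ∨ m = x₂ := by
    intro b hb hwb
    by_cases e1 : x₁ = b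
    · subst e1
      refine ⟨Or.inl rfl, fun m hm hym => ?_⟩
      by_cases e : m = x₁
      · exact Or.inl e
      · exact Or.inr ((hkey x₁ hb hwb m hm hym e).trans (hkey x₁ hb hwb x₂ h2 hy2 hne.symm).symm)
    · by_cases e2 : x₂ = b
      · subst e2
        refine ⟨Or.inr rfl, fun m hm hym => ?_⟩
        by_cases e : m = x₂
        · exact Or.inr e
        · exact Or.inl ((hkey x₂ hb hwb m hm hym e).trans (hkey x₂ hb hwb x₁ h1 hy1 hne).symm)
      · exact absurd ((hkey b hb hwb x₁ h1 hy1 e1).trans (hkey b hb hwb x₂ h2 hy2 e2).symm) hne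
  have hval : ∀ x x' : ι, x ∈ S → x' ∈ S → x' ≠ x → y x' ≠ 0 → w x ≠ 0 → (α - 1) * (w x * y x) = -1 := by
    intro x x' hx hx' hxx hy hw
    have e : σ x = x' := (hkey x hx hw x' hx' hy hxx).symm
    have := hσ x x (by rw [e]; exact hxx.symm)
    rw [hU x hx x hx, Matrix.one_apply_eq] at this
    linear_combination this
  obtain ⟨b, hb, hwb⟩ : ∃ b ∈ S, w b ≠ 0 := by
    by_contra hall
    push Not at hall
    rw [Finset.sum_eq_zero fun x hx => by rw [hall x hx, zero_mul]] at hsum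
    exact zero_ne_one hsum
  have hsupp := (hb12 b hb hwb).2
  rw [← Finset.sum_subset (s₁ := {x₁, x₂}) (by simp [Finset.insert_subset_iff, h1, h2])
    (fun m hm hout => by
      by_cases h0 : y m = 0
      · rw [h0, mul_zero]
      · exact absurd (by simpa using hsupp m hm h0) hout), Finset.sum_pair hne] at hsum
  rcases eq_or_ne (w x₁) 0 with e1 | e1 <;> rcases eq_or_ne (w x₂) 0 with e2 | e2
  · rw [e1, e2] at hsum; simp at hsum
  · have := hval x₂ x₁ h2 h1 hne hy1 e2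
    rw [e1] at hsum
    exact hα0 (by linear_combination this - (α - 1) * hsum)
  · have := hval x₁ x₂ h1 h2 hne.symm hy2 e1
    rw [e2] at hsum
    exact hα0 (by linear_combination this - (α - 1) * hsum)
  · have ha := hval x₁ x₂ h1 h2 hne.symm hy2 e1
    have hb' := hval x₂ x₁ h2 h1 hne hy1 e2
    exact hαm (by linear_combination ha + hb' - (α - 1) * hsum)

/-- A monomial matrix of displacement rank two: the centres are supported by four coordinates. -/
theorem rank_two_support {U : Matrix ι ι F} {σ : ι → ι} (hσ : ∀ j l, l ≠ σ j → U l j = 0) (S : Finset ι)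
    {P Q x y : ι → F}
    (hU : ∀ m ∈ S, ∀ n ∈ S, U m n = (1 : Matrix ι ι F) m n + (x n * P m + y n * Q m)) {n n' : ι} (hn : n ∈ S)
    (hn' : n' ∈ S) (hd : x n * y n' ≠ x n' * y n) {m : ι} (hm : m ∈ S)
    (hout : m ∉ ({n, σ n, n', σ n'} : Finset ι)) : P m = 0 ∧ Q m = 0 := by
  simp only [Finset.mem_insert, Finset.mem_singleton, not_or] at hout
  obtain ⟨h1, h2, h3, h4⟩ := hout
  have e1 := hσ n m h2
  have e2 := hσ n' m h4
  rw [hU m hm n hn, Matrix.one_apply_ne h1, zero_add] at e1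
  rw [hU m hm n' hn', Matrix.one_apply_ne h3, zero_add] at e2
  have hd' : x n * y n' - x n' * y n ≠ 0 := sub_ne_zero.2 hd
  constructor
  · refine (mul_eq_zero.1 ?_).resolve_left hd'
    linear_combination y n' * e1 - y n * e2
  · refine (mul_eq_zero.1 ?_).resolve_left hd'
    linear_combination x n * e2 - x n' * e1

theorem exists_indep (S : Finset ι) (x y A B : ι → F) (hxA : ∑ n ∈ S, x n * A n ≠ 0) (hyA : ∑ n ∈ S, y n * A n = 0)
    (hyB : ∑ n ∈ S, y n * B n ≠ 0) : ∃ n ∈ S, ∃ n' ∈ S, x n * y n' ≠ x n' * y n := by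
  by_contra hall
  push Not at hall
  refine hyB (Finset.sum_eq_zero fun n hn => ?_)
  have h : (∑ n' ∈ S, x n' * A n') * y n = 0 := by
    rw [Finset.sum_mul, Finset.sum_congr rfl fun n' hn' =>
      show x n' * A n' * y n = x n * (y n' * A n') by linear_combination A n' * hall n' hn' n hn]
    rw [← Finset.mul_sum, hyA, mul_zero]
  rw [(mul_eq_zero.1 h).resolve_left hxA, zero_mul]

end CfsgLib.GeoMono
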