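import Cfsg.Agent.GeoLib.MonoFix

/-!
Maximality of the monomial group in the special linear group, at least five field elements.
-/

set_option autoImplicit false

namespace CfsgLib.GeoMono

open Matrix CfsgLib.GeoParabolic

variable {ι : Type} [Fintype ι] [DecidableEq ι] {F : Type*} [Field F] [Fintype F]

/-- A subgroup containing the monomial matrices of determinant one and an elementary transvection. -/
theorem specialLinear_le_of_root {M : Subgroup (GL ι F)} (hι : 3 ≤ Fintype.card ι)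
    (hmon : ∀ g ∈ Cfsg.Geo.specialLinear ι F, IsMon (g : Matrix ι ι F) → g ∈ M) {a b : ι} (hab : a ≠ b) {c : F}
    (hc : c ≠ 0) {g : GL ι F} (hg : g ∈ M) (hgv : (g : Matrix ι ι F) = Matrix.transvection a b c) :
    Cfsg.Geo.specialLinear ι F ≤ M := by
  classical
  let Root : ι → ι → Prop := fun a b => ∀ e : F, ∃ x ∈ M, (x : Matrix ι ι F) = Matrix.transvection a b e
  have h0 : Root a b := fun e => by
    by_cases he : e = 0
    · exact ⟨1, one_mem M, by rw [he]; simp⟩
    obtain ⟨d, -, hd⟩ := Finset.exists_mem_notMem_of_card_lt_card (s := ({a, b} : Finset ι)) (t := Finset.univ)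
      (lt_of_le_of_lt Finset.card_le_two (by rw [Finset.card_univ]; omega))
    simp only [Finset.mem_insert, Finset.mem_singleton, not_or] at hd
    have hlam : e * c⁻¹ ≠ 0 := mul_ne_zero he (inv_ne_zero hc)
    obtain ⟨dd, hdd⟩ : ∃ dd, dd = dvec a d (e * c⁻¹) := ⟨_, rfl⟩
    have hdd1 : ∏ i, dd i = 1 := hdd ▸ prod_dvec (Ne.symm hd.1) hlam
    have hdd0 : ∀ i, dd i ≠ 0 := fun i h => by
      rw [Finset.prod_eq_zero (Finset.mem_univ i) h] at hdd1; exact zero_ne_one hdd1
    let D : GL ι F := GeneralLinearGroup.mkOfDetNeZero (Matrix.diagonal dd)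
      (by rw [Matrix.det_diagonal, hdd1]; exact one_ne_zero)
    have hD : D ∈ M := hmon D (mem_specialLinear_iff.2 (by show (Matrix.diagonal dd).det = 1; rw [Matrix.det_diagonal, hdd1]))
      (isMon_diagonal dd)
    refine ⟨D * g * D⁻¹, mul_mem (mul_mem hD hg) (inv_mem hD), ?_⟩
    have key : Matrix.diagonal dd * Matrix.transvection a b c = Matrix.transvection a b e * Matrix.diagonal dd := by
      ext i j
      rw [Matrix.diagonal_mul, Matrix.mul_diagonal]
      simp only [Matrix.transvection, Matrix.add_apply, Matrix.single_apply, Matrix.one_apply]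
      by_cases h : a = i ∧ b = j
      · obtain ⟨rfl, rfl⟩ := h
        rw [hdd, dvec_left, dvec_other hab.symm (Ne.symm hd.2), if_neg hab]
        simp; field_simp
      · rw [if_neg h, if_neg h]
        by_cases hij : i = j <;> simp [hij]
    rw [Units.val_mul, Units.val_mul, hgv, show (D : Matrix ι ι F) = Matrix.diagonal dd from rfl, key, Matrix.mul_assoc,
      ← show (D : Matrix ι ι F) = Matrix.diagonal dd from rfl, val_mul_inv, mul_one]
  have hswap : ∀ i l, i ≠ l → ∀ a b, a ≠ b → Root a b → Root (Equiv.swap i l a) (Equiv.swap i l b) := by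
    intro i l hil a b _ h e
    let d : ι → F := fun x => if x = i then -1 else 1
    let P : Matrix ι ι F := Matrix.diagonal d * (Equiv.swap i l).permMatrix F
    have hd0 : ∀ x, d x ≠ 0 := fun x => by by_cases hx : x = i <;> simp [d, hx]
    have hdet : P.det = 1 := by
      rw [Matrix.det_mul, Matrix.det_diagonal, Matrix.det_permutation, Equiv.Perm.sign_swap hil,
        Finset.prod_eq_single i (fun b _ hb => by simp [d, hb]) (by simp)]
      simp [d]
    have hP : ∀ x y, P x y = d x * if Equiv.swap i l x = y then 1 else 0 := fun x y => by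
      simp [P, Matrix.diagonal_mul, Equiv.Perm.permMatrix, PEquiv.toMatrix_apply]
    have hPm : IsMon P := fun y => ⟨Equiv.swap i l y, fun x hx => by
      rw [hP, if_neg (fun e => hx (by rw [← e]; simp)), mul_zero]⟩
    let p : GL ι F := GeneralLinearGroup.mkOfDetNeZero P (by rw [hdet]; exact one_ne_zero)
    have hp : p ∈ M := hmon p (mem_specialLinear_iff.2 hdet) hPm
    obtain ⟨x, hx, hxv⟩ := h (e * d (Equiv.swap i l b) / d (Equiv.swap i l a))
    refine ⟨p * x * p⁻¹, mul_mem (mul_mem hp hx) (inv_mem hp), ?_⟩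
    have key : P * Matrix.transvection a b (e * d (Equiv.swap i l b) / d (Equiv.swap i l a)) =
        Matrix.transvection (Equiv.swap i l a) (Equiv.swap i l b) e * P := by
      ext m n
      rw [Matrix.mul_apply, Matrix.mul_apply,
        Finset.sum_eq_single (Equiv.swap i l m) (fun y _ hy => by rw [hP, if_neg (Ne.symm hy)]; simp) (by simp),
        Finset.sum_eq_single (Equiv.swap i l n) (fun y _ hy => by
          rw [hP, if_neg (fun e' => hy (by rw [← e']; simp))]; simp) (by simp), hP, hP]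
      simp only [Equiv.swap_apply_self, if_pos, Matrix.transvection, Matrix.add_apply, Matrix.single_apply,
        Matrix.one_apply, mul_one]
      by_cases h' : a = Equiv.swap i l m ∧ b = n
      · obtain ⟨rfl, rfl⟩ := h'
        have hne : Equiv.swap i l m ≠ b := by assumption
        rw [if_neg hne, if_pos ⟨rfl, rfl⟩, if_neg (fun e' => hne (by rw [e', Equiv.swap_apply_self])),
          if_pos ⟨Equiv.swap_apply_self i l m, rfl⟩, Equiv.swap_apply_self]
        have := hd0 m
        field_simp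
        ring
      · rw [if_neg h', if_neg (fun h'' : Equiv.swap i l a = m ∧ Equiv.swap i l b = Equiv.swap i l n =>
          h' ⟨by rw [← h''.1, Equiv.swap_apply_self], (Equiv.swap i l).injective h''.2⟩)]
        by_cases hmn : Equiv.swap i l m = n
        · subst hmn; simp
        · rw [if_neg hmn, if_neg (fun e' => hmn (by rw [e', Equiv.swap_apply_self]))]; ring
    rw [Units.val_mul, Units.val_mul, hxv, show (p : Matrix ι ι F) = P from rfl, key, Matrix.mul_assoc,
      ← show (p : Matrix ι ι F) = P from rfl, val_mul_inv, mul_one]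
  have hall : ∀ i j, i ≠ j → Root i j := by
    intro i j hij
    obtain ⟨b', hb', h1⟩ : ∃ b', b' ≠ i ∧ Root i b' := by
      by_cases hai : a = i
      · exact ⟨b, hai ▸ hab.symm, hai ▸ h0⟩
      · refine ⟨Equiv.swap a i b, fun e => hab (((Equiv.swap a i).injective
          ((Equiv.swap_apply_left a i).trans e.symm))), ?_⟩
        have := hswap a i hai a b hab h0
        rwa [Equiv.swap_apply_left] at this
    by_cases hbj : b' = j
    · exact hbj ▸ h1
    · have := hswap b' j hbj i b' hb'.symm h1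
      rwa [Equiv.swap_apply_left, Equiv.swap_apply_of_ne_of_ne hb'.symm hij] at this
  haveI : Nontrivial ι := ⟨⟨a, b, hab⟩⟩
  refine GeoFull.specialLinear_le_of_fullSub (eq_top_iff.2 fun x _ => ?_)
  rw [pi_eq_sum_univ' x]
  refine Submodule.sum_mem _ fun i _ => Submodule.smul_mem _ _ (GeoFull.mem_fullSub.2 fun φ hφ => ?_)
  have hdec : φ = ∑ j, φ (Pi.single j 1) • LinearMap.proj j := LinearMap.ext fun x => by
    conv_lhs => rw [pi_eq_sum_univ' x, map_sum]
    simp [mul_comm]
  rw [hdec]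
  refine (Finset.sum_induction _ (fun ψ : Module.Dual F (ι → F) => ψ (Pi.single i 1) = 0 ∧ HasTv M (Pi.single i 1) ψ)
    (fun f f' hf hf' => ⟨by simp [hf.1, hf'.1], GeoFull.hasTv_add hf.1 hf'.1 hf.2 hf'.2⟩)
    ⟨rfl, GeoFull.hasTv_zero _⟩ fun j _ => ?_).2
  rcases eq_or_ne j i with rfl | hji
  · rw [show φ (Pi.single j 1) = 0 from hφ, zero_smul]; exact ⟨rfl, GeoFull.hasTv_zero _⟩
  refine ⟨by simp [Pi.single_eq_of_ne hji], fun h hh => ?_⟩
  obtain ⟨x, hx, hxv⟩ := hall i j hji.symm (φ (Pi.single j 1))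
  have : h = x := GeoFull.gl_ext fun y => by
    rw [hh, hxv, Matrix.transvection, Matrix.add_mulVec, Matrix.one_mulVec]
    ext m
    rcases eq_or_ne m i with rfl | hmi
    · simp [Matrix.mulVec, dotProduct, Matrix.single_apply]
    · simp [Matrix.mulVec, dotProduct, Matrix.single_apply, hmi, Ne.symm hmi]
  rw [this]; exact hx

theorem specialLinear_le_of_not_mon {M : Subgroup (GL ι F)} (hι : 13 ≤ Fintype.card ι) (hq : 5 ≤ Fintype.card F)
    (hle : M ≤ Cfsg.Geo.specialLinear ι F)
    (hmon : ∀ g ∈ Cfsg.Geo.specialLinear ι F, IsMon (g : Matrix ι ι F) → g ∈ M) {g₀ : GL ι F} (hg₀ : g₀ ∈ M)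
    (hgn₀ : ¬ IsMon (g₀ : Matrix ι ι F)) : Cfsg.Geo.specialLinear ι F ≤ M := by
  classical
  by_contra hnle
  have H : Ctx M := ⟨hle, hmon, fun a b hab c hc g hg hgv =>
    hnle (specialLinear_le_of_root (by omega) hmon hab hc hg hgv)⟩
  clear hle hmon hnle
  -- a column with one entry forces monomiality
  have hA : ∀ g ∈ M, ∀ j i : ι, (∀ l, l ≠ i → (g : Matrix ι ι F) l j = 0) → IsMon (g : Matrix ι ι F) := by
    intro g hg j i hz
    rcases eq_or_ne i j with rfl | hij
    · exact H.mon_of_fixes (by omega) hq (Finset.singleton_nonempty i) hg fun k hk l hl => by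
        rw [Finset.mem_singleton] at hk; subst hk; exact hz l hl
    obtain ⟨p, hp, hpm, d, -, hpv⟩ := H.exists_swap hij
    have hm : IsMon ((p * g : GL ι F) : Matrix ι ι F) :=
      H.mon_of_fixes (by omega) hq (Finset.singleton_nonempty j) (mul_mem hp hg) fun k hk l hl => by
        rw [Finset.mem_singleton] at hk; subst hk
        rw [Units.val_mul, hpv, hz _ (fun e => hl ?_), mul_zero]
        have := congrArg (Equiv.swap i k) e
        rwa [Equiv.swap_apply_self, Equiv.swap_apply_left] at this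
    have := hpm.inv.mul hm
    rwa [← Units.val_mul, inv_mul_cancel_left] at this
  have hconj : ∀ g ∈ M, ∀ a b : ι, a ≠ b → ∀ α : F, α ≠ 0 → ∃ h ∈ M, (h : Matrix ι ι F) = Matrix.diagonal (dvec a b α) ∧
      g * h * g⁻¹ ∈ M ∧ ∀ m n, ((g * h * g⁻¹ : GL ι F) : Matrix ι ι F) m n = (1 : Matrix ι ι F) m n +
        ((α - 1) * ((g⁻¹ : GL ι F) : Matrix ι ι F) a n * (g : Matrix ι ι F) m a +
          (α⁻¹ - 1) * ((g⁻¹ : GL ι F) : Matrix ι ι F) b n * (g : Matrix ι ι F) m b) := by
    intro g hg a b hab α hα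
    obtain ⟨h, hh, hhv, -⟩ := H.exists_diag _ (prod_dvec hab hα)
    refine ⟨h, hh, hhv, mul_mem (mul_mem hg hh) (inv_mem hg), fun m n => ?_⟩
    rw [Units.val_mul, Units.val_mul, hhv, conj_quot (K := ∅) (fun k hk => absurd hk (by simp)) _ (by simp),
      Finset.sum_eq_add_of_mem a b (by simp) (by simp) hab (fun c _ hc => by
        rw [dvec_other hc.1 hc.2, sub_self, zero_mul]), dvec_left, dvec_right hab]
    ring
  have hsum : ∀ (g : GL ι F) a b, ∑ x, ((g⁻¹ : GL ι F) : Matrix ι ι F) a x * (g : Matrix ι ι F) x b =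
      (1 : Matrix ι ι F) a b := sum_inv_mul
  obtain ⟨α₀, hα₀⟩ := exists_avoid ({0, 1, -1} : Finset F) (lt_of_le_of_lt Finset.card_le_three (by omega))
  simp only [Finset.mem_insert, Finset.mem_singleton, not_or] at hα₀
  obtain ⟨hα0, hα1, hαm⟩ := hα₀
  have hαi : α₀ ≠ α₀⁻¹ := fun e => by
    have := mul_inv_cancel₀ hα0
    rw [← e] at this
    rcases mul_eq_zero.1 (show (α₀ - 1) * (α₀ + 1) = 0 by linear_combination this) with h' | h'
    · exact hα1 (sub_eq_zero.1 h')
    · exact hαm (eq_neg_of_add_eq_zero_left h')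
  -- the centres seen from two zeros of a column
  have hpair : ∀ g ∈ M, ¬ IsMon (g : Matrix ι ι F) → ∀ j a b : ι, a ≠ b → (g : Matrix ι ι F) a j = 0 →
      (g : Matrix ι ι F) b j = 0 →
      (∀ m, ((g⁻¹ : GL ι F) : Matrix ι ι F) m a = 0 ↔ ((g⁻¹ : GL ι F) : Matrix ι ι F) m b = 0) ∧
        ∃ T : Finset ι, T.card ≤ 3 ∧ ∀ m, m ∉ T → ((g⁻¹ : GL ι F) : Matrix ι ι F) m a = 0 := by
    intro g hg hgn j a b hab ha hb
    have hni : ¬ IsMon ((g⁻¹ : GL ι F) : Matrix ι ι F) := isMon_inv_iff.not.2 hgn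
    obtain ⟨h, -, hhv, huM, hu⟩ := hconj g⁻¹ (inv_mem hg) a b hab α₀ hα0
    rw [inv_inv] at huM hu
    obtain ⟨u, hudef⟩ : ∃ u, u = g⁻¹ * h * g := ⟨_, rfl⟩
    rw [← hudef] at huM hu
    set Y := ((g⁻¹ : GL ι F) : Matrix ι ι F) with hY
    have hmonu : IsMon (u : Matrix ι ι F) := hA u huM j j fun l hl => by
      rw [hu, ha, hb, Matrix.one_apply_ne hl]; ring
    obtain ⟨σ, hσi, hσ, hσ0⟩ := hmonu.exists_perm
    set d := dvec a b α₀ with hd
    have hd0 : ∀ c, d c ≠ 0 := fun c => by
      rw [hd]; unfold dvec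
      split_ifs <;> simp [hα0]
    have huY : (u : Matrix ι ι F) * Y = Y * Matrix.diagonal d := by
      rw [hudef, hY, ← Units.val_mul, mul_inv_cancel_right, Units.val_mul, hhv]
    have heq : ∀ c n, (u : Matrix ι ι F) (σ n) n * Y n c = Y (σ n) c * d c := fun c n => by
      have := congrFun (congrFun huY (σ n)) c
      rwa [Matrix.mul_diagonal, Matrix.mul_apply, Finset.sum_eq_single n (fun x _ hx => by
        rw [hσ x (σ n) (hσi.ne hx.symm), zero_mul]) (by simp)] at this
    have hinv : ∀ c n, Y n c = 0 ↔ Y (σ n) c = 0 := fun c n => by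
      have := heq c n
      constructor <;> intro h0 <;> rw [h0] at this <;> simp at this
      · exact this.resolve_right (hd0 c)
      · exact this.resolve_left (hσ0 n)
    have hfix : ∀ c n, σ n = n → Y n c ≠ 0 → (u : Matrix ι ι F) n n = d c := fun c n hn h0 => by
      have := heq c n
      rw [hn] at this
      exact mul_right_cancel₀ h0 (by linear_combination this)
    by_cases hint : ∃ n, Y n a ≠ 0 ∧ Y n b ≠ 0
    swap
    · push Not at hint
      exfalso
      obtain ⟨n₁, hn₁⟩ : ∃ n, Y n a ≠ 0 := by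
        by_contra hall; push Not at hall
        exact hni (hA g⁻¹ (inv_mem hg) a a fun l _ => hall l)
      obtain ⟨n₂, hn₂1, hn₂⟩ : ∃ n, n ≠ n₁ ∧ Y n a ≠ 0 := by
        by_contra hall; push Not at hall
        exact hni (hA g⁻¹ (inv_mem hg) a n₁ hall)
      obtain ⟨m₀, hm₀⟩ : ∃ m, Y m b ≠ 0 := by
        by_contra hall; push Not at hall
        exact hni (hA g⁻¹ (inv_mem hg) b b fun l _ => hall l)
      have hgb : ∀ n, Y n a ≠ 0 → (g : Matrix ι ι F) b n = 0 := fun n hn => by
        have hma : Y m₀ a = 0 := by by_contra h0; exact hm₀ (hint m₀ h0)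
        have := hσ n m₀ (fun e => ((hinv a n).not.1 hn) (e ▸ hma))
        rw [hu, Matrix.one_apply_ne (fun e : m₀ = n => hm₀ (e ▸ hint n hn)), hma, mul_zero, zero_add, zero_add] at this
        exact ((mul_eq_zero.1 ((mul_eq_zero.1 this).resolve_right hm₀))).resolve_left
          (sub_ne_zero.2 (inv_ne_one.2 hα1))
      refine hom_not_mon hσ (Finset.univ.filter fun n => Y n a ≠ 0) hα0 hα1 hαm (y := fun m => Y m a)
        (w := fun n => (g : Matrix ι ι F) a n) (fun m _ n hn => ?_) ?_ (by simpa using hn₁) (by simpa using hn₂)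
        hn₂1.symm hn₁ hn₂
      · rw [hu, hgb n (by simpa using hn)]; ring
      · have := sum_mul_inv g a a
        rw [Matrix.one_apply_eq, ← hY] at this
        rw [← this]
        refine Finset.sum_subset (Finset.subset_univ _) fun x _ hx => ?_
        simp at hx
        rw [hx, mul_zero]
    obtain ⟨n, hna, hnb⟩ := hint
    have hσn : σ n ≠ n := fun e => hαi (by
      have e' := (hfix a n e hna).symm.trans (hfix b n e hnb)
      rwa [hd, dvec_left, dvec_right hab] at e')
    by_cases h2 : σ (σ n) = n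
    · -- an orbit of two coordinates
      have hO : ∀ c, (∀ i, i ≠ c → d i ≠ d c) → Y n c ≠ 0 → ∀ m, Y m c = 0 ↔ ¬ (m = n ∨ m = σ n) := by
        intro c hdc hnc m
        constructor
        · rintro h0 (rfl | rfl)
          · exact hnc h0
          · exact hnc ((hinv c n).2 h0)
        intro hm
        obtain ⟨v, hv⟩ : ∃ v : ι → F, ∀ x, v x = if x = n ∨ x = σ n then Y x c else 0 := ⟨_, fun _ => rfl⟩
        have huv : (u : Matrix ι ι F) *ᵥ v = d c • v := by
          ext x
          obtain ⟨k, rfl⟩ := Finite.surjective_of_injective hσi x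
          show ∑ y, (u : Matrix ι ι F) (σ k) y * v y = d c * v (σ k)
          rw [Finset.sum_eq_single k (fun y _ hy => by rw [hσ y (σ k) (hσi.ne hy.symm), zero_mul]) (by simp), hv, hv]
          by_cases hk : k = n ∨ k = σ n
          · rw [if_pos hk, if_pos (by rcases hk with rfl | rfl; exacts [Or.inr rfl, Or.inl h2]), heq c k]; ring
          · rw [if_neg hk, if_neg (fun h => hk ?_), mul_zero, mul_zero]
            rcases h with h | h
            · exact Or.inr (hσi (h.trans h2.symm))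
            · exact Or.inl (hσi h)
        obtain ⟨w, hw⟩ : ∃ w : ι → F, w = (g : Matrix ι ι F) *ᵥ v := ⟨_, rfl⟩
        have hdw : Matrix.diagonal d *ᵥ w = d c • w := by
          rw [hw, ← Matrix.mulVec_smul, ← huv, Matrix.mulVec_mulVec, Matrix.mulVec_mulVec, hudef, ← Units.val_mul g,
            ← mul_assoc, mul_inv_cancel_left, Units.val_mul, hhv]
        have hw0 : ∀ x, x ≠ c → w x = 0 := fun x hx => by
          have := congrFun hdw x
          rw [Matrix.mulVec_diagonal, Pi.smul_apply, smul_eq_mul] at this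
          exact (mul_eq_zero.1 (show (d x - d c) * w x = 0 by linear_combination this)).resolve_left
            (sub_ne_zero.2 (hdc x hx))
        have hvY : ∀ x, v x = Y x c * w c := fun x => by
          have e : v = Y *ᵥ w := by rw [hw, hY, GeoFull.inv_mulVec_cancel]
          rw [e]
          show ∑ y, Y x y * w y = _
          rw [Finset.sum_eq_single c (fun y _ hy => by rw [hw0 y hy, mul_zero]) (by simp)]
        have h1 := hvY n
        rw [hv, if_pos (Or.inl rfl)] at h1
        have h1' : w c = 1 := mul_left_cancel₀ hnc (h1.symm.trans (mul_one _).symm)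
        have h3 := hvY m
        rw [hv, if_neg hm, h1', mul_one] at h3
        exact h3.symm
      have hda : ∀ i, i ≠ a → d i ≠ d a := fun i hi => by
        rw [hd, dvec_left]
        rcases eq_or_ne i b with rfl | hib
        · rw [dvec_right hab]; exact hαi.symm
        · rw [dvec_other hi hib]; exact Ne.symm hα1
      have hdb : ∀ i, i ≠ b → d i ≠ d b := fun i hi => by
        rw [hd, dvec_right hab]
        rcases eq_or_ne i a with rfl | hia
        · rw [dvec_left]; exact hαi
        · rw [dvec_other hia hi]; exact Ne.symm (inv_ne_one.2 hα1)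
      exact ⟨fun m => (hO a hda hna m).trans (hO b hdb hnb m).symm, {n, σ n}, Finset.card_le_two.trans (by norm_num),
        fun m hm => (hO a hda hna m).2 (by simpa using hm)⟩
    · have hσ2 : σ (σ n) ≠ σ n := hσi.ne hσn
      let xv : ι → F := fun k => (α₀ - 1) * (g : Matrix ι ι F) a k
      let yv : ι → F := fun k => (α₀⁻¹ - 1) * (g : Matrix ι ι F) b k
      have hd' : xv n * yv (σ n) ≠ xv (σ n) * yv n := by
        intro e
        have e1 : (1 : Matrix ι ι F) (σ (σ n)) n + (xv n * Y (σ (σ n)) a + yv n * Y (σ (σ n)) b) = 0 := by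
          rw [← hu]; exact hσ n _ hσ2
        rw [Matrix.one_apply_ne h2, zero_add] at e1
        have e2 : (1 : Matrix ι ι F) (σ (σ n)) (σ n) + (xv (σ n) * Y (σ (σ n)) a + yv (σ n) * Y (σ (σ n)) b) ≠ 0 := by
          rw [← hu]; exact hσ0 (σ n)
        rw [Matrix.one_apply_ne hσ2, zero_add] at e2
        have hx : xv n = 0 := (mul_eq_zero.1 (show xv n * (xv (σ n) * Y (σ (σ n)) a + yv (σ n) * Y (σ (σ n)) b) = 0 by
          linear_combination xv (σ n) * e1 + Y (σ (σ n)) b * e)).resolve_right e2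
        have hy : yv n = 0 := (mul_eq_zero.1 (show yv n * (xv (σ n) * Y (σ (σ n)) a + yv (σ n) * Y (σ (σ n)) b) = 0 by
          linear_combination yv (σ n) * e1 - Y (σ (σ n)) a * e)).resolve_right e2
        have e3 : (1 : Matrix ι ι F) (σ n) n + (xv n * Y (σ n) a + yv n * Y (σ n) b) ≠ 0 := by
          rw [← hu]; exact hσ0 n
        rw [Matrix.one_apply_ne hσn, hx, hy] at e3
        simp at e3
      have hout : ∀ m, ¬ (m = n ∨ m = σ n ∨ m = σ (σ n)) → Y m a = 0 ∧ Y m b = 0 := fun m hm =>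
        rank_two_support hσ Finset.univ (x := xv) (y := yv) (fun m _ k _ => hu m k) (Finset.mem_univ n)
          (Finset.mem_univ (σ n)) hd' (Finset.mem_univ m) (by
            simp only [Finset.mem_insert, Finset.mem_singleton]; tauto)
      refine ⟨fun m => ?_, {n, σ n, σ (σ n)}, Finset.card_le_three, fun m hm => (hout m (by simpa using hm)).1⟩
      by_cases hm : m = n ∨ m = σ n ∨ m = σ (σ n)
      · rcases hm with rfl | rfl | rfl
        · exact iff_of_false hna hnb
        · exact iff_of_false ((hinv a n).not.1 hna) ((hinv b n).not.1 hnb)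
        · exact iff_of_false ((hinv a _).not.1 ((hinv a n).not.1 hna)) ((hinv b _).not.1 ((hinv b n).not.1 hnb))
      · exact iff_of_true (hout m hm).1 (hout m hm).2
  have hT1 : ∀ g ∈ M, ¬ IsMon (g : Matrix ι ι F) → ∀ (j : ι) (Z : Finset ι),
      (∀ z ∈ Z, (g : Matrix ι ι F) z j = 0) → Z.card ≤ 3 := by
    intro g hg hgn j Z hZ
    by_contra hlt
    obtain ⟨a, ha, b, hb, hab⟩ := Finset.one_lt_card.1 (by omega : 1 < Z.card)
    obtain ⟨-, T, hT, hTa⟩ := hpair g hg hgn j a b hab (hZ a ha) (hZ b hb)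
    have hall : ∀ z ∈ Z, ∀ m, m ∉ T → ((g⁻¹ : GL ι F) : Matrix ι ι F) m z = 0 := fun z hz m hm => by
      rcases eq_or_ne a z with rfl | haz
      · exact hTa m hm
      · exact ((hpair g hg hgn j a z haz (hZ a ha) (hZ z hz)).1 m).1 (hTa m hm)
    have hli : LinearIndependent F (fun z : Z => fun m : T => ((g⁻¹ : GL ι F) : Matrix ι ι F) m z) := by
      refine Fintype.linearIndependent_iff.2 fun c hc z₀ => ?_
      have h : ∑ m : T, (g : Matrix ι ι F) z₀ m * ∑ z : Z, c z * ((g⁻¹ : GL ι F) : Matrix ι ι F) m z = 0 :=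
        Finset.sum_eq_zero fun m _ => by
          have := congrFun hc m
          simp only [Finset.sum_apply, Pi.smul_apply, smul_eq_mul, Pi.zero_apply] at this
          rw [this, mul_zero]
      simp only [Finset.mul_sum] at h
      rw [Finset.sum_comm, Finset.sum_eq_single z₀] at h
      · rw [Finset.sum_congr rfl (fun m _ => mul_left_comm _ _ _), ← Finset.mul_sum] at h
        rw [show ∑ m : T, (g : Matrix ι ι F) z₀ m * ((g⁻¹ : GL ι F) : Matrix ι ι F) m z₀ = 1 by
          rw [Finset.sum_coe_sort T (fun m => (g : Matrix ι ι F) z₀ m * ((g⁻¹ : GL ι F) : Matrix ι ι F) m z₀),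
            Finset.sum_subset (Finset.subset_univ T) (fun m _ hm => by rw [hall _ z₀.2 m hm, mul_zero]),
            sum_mul_inv, Matrix.one_apply_eq], mul_one] at h
        exact h
      · intro z _ hz
        rw [Finset.sum_congr rfl (fun m _ => mul_left_comm _ _ _), ← Finset.mul_sum,
          Finset.sum_coe_sort T (fun m => (g : Matrix ι ι F) z₀ m * ((g⁻¹ : GL ι F) : Matrix ι ι F) m z),
          Finset.sum_subset (Finset.subset_univ T) (fun m _ hm => by rw [hall _ z.2 m hm, mul_zero]), sum_mul_inv,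
          Matrix.one_apply_ne (fun e => hz (Subtype.ext e.symm)), mul_zero]
      · simp
    have := hli.fintype_card_le_finrank
    simp at this
    omega
  have hzeros : ∀ g ∈ M, ¬ IsMon (g : Matrix ι ι F) → ∀ j,
      (Finset.univ.filter fun m => (g : Matrix ι ι F) m j = 0).card ≤ 3 :=
    fun g hg hgn j => hT1 g hg hgn j _ fun z hz => by simpa using hz
  have hcomp : ∀ T : Finset ι, Fintype.card ι - T.card ≤ Tᶜ.card := fun T => by rw [Finset.card_compl]
  -- a three-cycle fixing a column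
  have hcyc : ∀ g ∈ M, ¬ IsMon (g : Matrix ι ι F) → ∀ j b c, b ≠ c → (g : Matrix ι ι F) b j ≠ 0 →
      (g : Matrix ι ι F) c j ≠ 0 → ∃ T : Finset ι, T.card ≤ 4 ∧ ∀ m, m ∉ T →
        (g : Matrix ι ι F) b j * ((g⁻¹ : GL ι F) : Matrix ι ι F) m b -
          (g : Matrix ι ι F) c j * ((g⁻¹ : GL ι F) : Matrix ι ι F) m c = 0 := by
    intro g hg hgn j b c hbc hb hc
    obtain ⟨d, -, hd⟩ := Finset.exists_mem_notMem_of_card_lt_card (t := Finset.univ)
      (s := (Finset.univ.filter fun m => (g : Matrix ι ι F) m j = 0) ∪ {b, c})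
      (lt_of_le_of_lt (Finset.card_union_le _ _) (by
        have := hzeros g hg hgn j
        have := Finset.card_le_two (a := b) (b := c)
        rw [Finset.card_univ]; omega))
    simp only [Finset.mem_union, Finset.mem_filter, Finset.mem_univ, true_and, Finset.mem_insert, Finset.mem_singleton,
      not_or] at hd
    obtain ⟨hdj, hdb, hdc⟩ := hd
    obtain ⟨x, hx⟩ : ∃ x : ι → F, ∀ i, x i = (g : Matrix ι ι F) i j := ⟨_, fun _ => rfl⟩
    obtain ⟨s, hs⟩ : ∃ s : Equiv.Perm ι, s = Equiv.swap b c * Equiv.swap b d := ⟨_, rfl⟩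
    have hsb : s b = d := by simp [hs, Equiv.swap_apply_of_ne_of_ne hdb hdc]
    have hsd : s d = c := by simp [hs]
    have hsc : s c = b := by simp [hs, Equiv.swap_apply_of_ne_of_ne hbc.symm (Ne.symm hdc)]
    have hso : ∀ m, m ≠ b → m ≠ c → m ≠ d → s m = m := fun m h1 h2 h3 => by
      simp [hs, Equiv.swap_apply_of_ne_of_ne h1 h3, Equiv.swap_apply_of_ne_of_ne h1 h2]
    obtain ⟨dd, hdd⟩ : ∃ dd : ι → F, ∀ m, dd m =
        if m = b ∨ m = c ∨ m = d then x m / x (s m) else 1 := ⟨_, fun _ => rfl⟩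
    obtain ⟨P, hPdef⟩ : ∃ P : Matrix ι ι F, P = Matrix.diagonal dd * s.permMatrix F := ⟨_, rfl⟩
    have hxb : x b ≠ 0 := by rw [hx]; exact hb
    have hxc : x c ≠ 0 := by rw [hx]; exact hc
    have hxd : x d ≠ 0 := by rw [hx]; exact hdj
    have hdet : P.det = 1 := by
      rw [hPdef, Matrix.det_mul, Matrix.det_diagonal, Matrix.det_permutation,
        ← Finset.prod_subset (Finset.subset_univ ({b, c, d} : Finset ι)) (fun m _ hm => by
          rw [hdd, if_neg (by simpa using hm)]),
        Finset.prod_insert (by simp [hbc, Ne.symm hdb]), Finset.prod_insert (by simp [Ne.symm hdc]),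
        Finset.prod_singleton, hdd, hdd, hdd, if_pos (Or.inl rfl), if_pos (Or.inr (Or.inl rfl)),
        if_pos (Or.inr (Or.inr rfl)), hsb, hsc, hsd, hs, Equiv.Perm.sign_mul, Equiv.Perm.sign_swap hbc,
        Equiv.Perm.sign_swap (Ne.symm hdb)]
      field_simp
      simp
    have hPm : IsMon P := hPdef ▸ (isMon_diagonal dd).mul fun y => ⟨s.symm y, fun a ha => by
      simp only [Equiv.Perm.permMatrix, PEquiv.toMatrix_apply, Equiv.toPEquiv_apply, Option.mem_some_iff]
      rw [if_neg]
      intro e; exact ha (by rw [← e]; simp)⟩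
    obtain ⟨p, hpv⟩ : ∃ p : GL ι F, (p : Matrix ι ι F) = P :=
      ⟨GeneralLinearGroup.mkOfDetNeZero P (by rw [hdet]; exact one_ne_zero), rfl⟩
    have hp : p ∈ M := H.mon p (mem_specialLinear_iff.2 (by rw [hpv, hdet])) (by rw [hpv]; exact hPm)
    have hPg : ∀ m n, ((p : Matrix ι ι F) * (g : Matrix ι ι F)) m n = dd m * (g : Matrix ι ι F) (s m) n := fun m n => by
      rw [hpv, hPdef, Matrix.mul_assoc, Matrix.diagonal_mul, Equiv.Perm.permMatrix, PEquiv.toMatrix_toPEquiv_mul]
      rfl
    obtain ⟨pv, hpvv⟩ : ∃ pv : ι → F, ∀ n, pv n = (g : Matrix ι ι F) d n / x d - (g : Matrix ι ι F) b n / x b :=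
      ⟨_, fun _ => rfl⟩
    obtain ⟨qv, hqvv⟩ : ∃ qv : ι → F, ∀ n, qv n = (g : Matrix ι ι F) d n / x d - (g : Matrix ι ι F) c n / x c :=
      ⟨_, fun _ => rfl⟩
    set Y := ((g⁻¹ : GL ι F) : Matrix ι ι F) with hY
    obtain ⟨u, hudef⟩ : ∃ u, u = g⁻¹ * p * g := ⟨_, rfl⟩
    have hu : ∀ m n, (u : Matrix ι ι F) m n = (1 : Matrix ι ι F) m n +
        (pv n * (x b * Y m b - x c * Y m c) + qv n * (x c * Y m c - x d * Y m d)) := by
      intro m n
      rw [hudef, mul_assoc, Units.val_mul, Units.val_mul, Matrix.mul_apply]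
      have e : ∀ i, Y m i * ((p : Matrix ι ι F) * (g : Matrix ι ι F)) i n = Y m i * (g : Matrix ι ι F) i n +
          Y m i * (dd i * (g : Matrix ι ι F) (s i) n - (g : Matrix ι ι F) i n) := fun i => by rw [hPg]; ring
      rw [Finset.sum_congr rfl fun i _ => e i, Finset.sum_add_distrib, hsum]
      congr 1
      rw [← Finset.sum_subset (Finset.subset_univ ({b, c, d} : Finset ι)) (fun i _ hi => by
          simp only [Finset.mem_insert, Finset.mem_singleton, not_or] at hi
          rw [hdd, if_neg (by tauto), hso i hi.1 hi.2.1 hi.2.2]; ring),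
        Finset.sum_insert (by simp [hbc, Ne.symm hdb]), Finset.sum_insert (by simp [Ne.symm hdc]),
        Finset.sum_singleton, hdd, hdd, hdd, if_pos (Or.inl rfl), if_pos (Or.inr (Or.inl rfl)),
        if_pos (Or.inr (Or.inr rfl)), hsb, hsc, hsd, hpvv, hqvv]
      field_simp
      ring
    have hmonu : IsMon (u : Matrix ι ι F) := hA u (hudef ▸ mul_mem (mul_mem (inv_mem hg) hp) hg) j j fun l hl => by
      rw [hu, hpvv, hqvv, ← hx, ← hx, ← hx, div_self hxb, div_self hxc, div_self hxd, Matrix.one_apply_ne hl]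
      ring
    obtain ⟨σ, -, hσ, -⟩ := hmonu.exists_perm
    have hsY : ∀ i r, ∑ n, (g : Matrix ι ι F) i n / x i * Y n r = (1 : Matrix ι ι F) i r / x i := fun i r => by
      rw [← sum_mul_inv g i r, Finset.sum_div]
      exact Finset.sum_congr rfl fun n _ => by rw [hY]; ring
    obtain ⟨n, -, n', -, hd'⟩ := exists_indep Finset.univ pv qv (fun n => Y n b) (fun n => Y n c)
      (by simp only [hpvv, sub_mul, Finset.sum_sub_distrib, hsY, Matrix.one_apply_ne hdb, Matrix.one_apply_eq]
          simpa using hxb)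
      (by simp only [hqvv, sub_mul, Finset.sum_sub_distrib, hsY, Matrix.one_apply_ne hdb, Matrix.one_apply_ne hbc.symm]
          simp)
      (by simp only [hqvv, sub_mul, Finset.sum_sub_distrib, hsY, Matrix.one_apply_ne hdc, Matrix.one_apply_eq]
          simpa using hxc)
    refine ⟨{n, σ n, n', σ n'}, Finset.card_le_four, fun m hm => ?_⟩
    have := (rank_two_support hσ Finset.univ (P := fun m => x b * Y m b - x c * Y m c)
      (Q := fun m => x c * Y m c - x d * Y m d) (x := pv) (y := qv) (fun m _ k _ => hu m k) (Finset.mem_univ n)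
      (Finset.mem_univ n') hd' (Finset.mem_univ m) hm).1
    simpa [hx] using this
  have hT2 : ∀ g ∈ M, ¬ IsMon (g : Matrix ι ι F) → ∀ j j' b c, b ≠ c → (g : Matrix ι ι F) b j ≠ 0 →
      (g : Matrix ι ι F) c j ≠ 0 → (g : Matrix ι ι F) b j' ≠ 0 → (g : Matrix ι ι F) c j' ≠ 0 →
      (g : Matrix ι ι F) b j * (g : Matrix ι ι F) c j' = (g : Matrix ι ι F) c j * (g : Matrix ι ι F) b j' := by
    intro g hg hgn j j' b c hbc h1 h2 h3 h4
    by_contra hne
    obtain ⟨T, hT, hTv⟩ := hcyc g hg hgn j b c hbc h1 h2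
    obtain ⟨T', hT', hTv'⟩ := hcyc g hg hgn j' b c hbc h3 h4
    have := hT1 g⁻¹ (inv_mem hg) (isMon_inv_iff.not.2 hgn) b (T ∪ T')ᶜ fun m hm => by
      simp only [Finset.mem_compl, Finset.mem_union, not_or] at hm
      refine (mul_eq_zero.1 ?_).resolve_left (sub_ne_zero.2 hne)
      linear_combination (g : Matrix ι ι F) c j' * hTv m hm.1 - (g : Matrix ι ι F) c j * hTv' m hm.2
    have := hcomp (T ∪ T')
    have := Finset.card_union_le T T'
    omega
  -- two columns
  obtain ⟨a, b, hab⟩ : ∃ a b : ι, a ≠ b := Fintype.one_lt_card_iff.1 (by omega)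
  set Y := ((g₀⁻¹ : GL ι F) : Matrix ι ι F) with hY
  obtain ⟨S, hS⟩ : ∃ S : Finset ι, ∀ m, m ∈ S ↔ (g₀ : Matrix ι ι F) m a ≠ 0 ∧ (g₀ : Matrix ι ι F) m b ≠ 0 :=
    ⟨Finset.univ.filter fun m => (g₀ : Matrix ι ι F) m a ≠ 0 ∧ (g₀ : Matrix ι ι F) m b ≠ 0, fun m => by simp⟩
  have hScard : 7 ≤ S.card := by
    have hsub : Sᶜ ⊆ (Finset.univ.filter fun m => (g₀ : Matrix ι ι F) m a = 0) ∪
        (Finset.univ.filter fun m => (g₀ : Matrix ι ι F) m b = 0) := fun m hm => by
      simp only [Finset.mem_compl, hS] at hm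
      simp only [Finset.mem_union, Finset.mem_filter, Finset.mem_univ, true_and]
      tauto
    have h1 := (Finset.card_le_card hsub).trans (Finset.card_union_le _ _)
    have := hzeros g₀ hg₀ hgn₀ a
    have := hzeros g₀ hg₀ hgn₀ b
    have := Finset.card_add_card_compl S
    omega
  obtain ⟨l, hl⟩ := Finset.card_pos.1 (by omega : 0 < S.card)
  obtain ⟨hla, hlb⟩ := (hS l).1 hl
  obtain ⟨ρ, hρ⟩ : ∃ ρ, ρ = (g₀ : Matrix ι ι F) l b / (g₀ : Matrix ι ι F) l a := ⟨_, rfl⟩
  have hprop : ∀ m ∈ S, (g₀ : Matrix ι ι F) m b = ρ * (g₀ : Matrix ι ι F) m a := by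
    intro m hm
    obtain ⟨hma, hmb⟩ := (hS m).1 hm
    rw [hρ, div_mul_eq_mul_div, eq_div_iff hla]
    rcases eq_or_ne l m with rfl | hlm
    · rfl
    · linear_combination hT2 g₀ hg₀ hgn₀ a b l m hlm hla hma hlb hmb
  obtain ⟨A, hA'⟩ : ∃ A, A = (g₀ : Matrix ι ι F) l a * Y a l := ⟨_, rfl⟩
  obtain ⟨B, hB'⟩ : ∃ B, B = (g₀ : Matrix ι ι F) l b * Y b l := ⟨_, rfl⟩
  obtain ⟨R, hR, hroot⟩ : ∃ R : Finset F, R.card ≤ 2 ∧ ∀ x, A * (x * x) + (1 - A - B) * x + B = 0 → x ∈ R := by
    by_cases h : A ≠ 0 ∨ 1 - A - B ≠ 0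
    · exact quad_roots h
    · push Not at h
      refine ⟨∅, by simp, fun x hx => absurd hx ?_⟩
      rw [h.2, h.1, show B = 1 by linear_combination -h.2 - h.1]
      simp
  obtain ⟨α, hα⟩ := exists_avoid ({0, 1} ∪ R) (lt_of_le_of_lt (Finset.card_union_le _ _) (by
    have := Finset.card_le_two (a := (0 : F)) (b := 1); omega))
  simp only [Finset.mem_union, Finset.mem_insert, Finset.mem_singleton, not_or] at hα
  obtain ⟨⟨h0, h1⟩, hαR⟩ := hα
  obtain ⟨h, -, -, huM, hu⟩ := hconj g₀ hg₀ a b hab α h0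
  obtain ⟨u, hudef⟩ : ∃ u, u = g₀ * h * g₀⁻¹ := ⟨_, rfl⟩
  rw [← hudef] at huM hu
  have hun : ¬ IsMon (u : Matrix ι ι F) := fun hm => by
    obtain ⟨σ, -, hσ, -⟩ := hm.exists_perm
    have e : ∀ c r (k : F), ∑ n, k * Y c n * (g₀ : Matrix ι ι F) n r = k * (1 : Matrix ι ι F) c r := fun c r k => by
      rw [← hsum g₀ c r, Finset.mul_sum]
      exact Finset.sum_congr rfl fun n _ => by rw [hY]; ring
    obtain ⟨n, -, n', -, hd⟩ := exists_indep Finset.univ (fun n => (α - 1) * Y a n) (fun n => (α⁻¹ - 1) * Y b n)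
      (fun m => (g₀ : Matrix ι ι F) m a) (fun m => (g₀ : Matrix ι ι F) m b)
      (by rw [e, Matrix.one_apply_eq, mul_one]; exact sub_ne_zero.2 h1)
      (by rw [e, Matrix.one_apply_ne hab.symm, mul_zero])
      (by rw [e, Matrix.one_apply_eq, mul_one]; exact sub_ne_zero.2 (inv_ne_one.2 h1))
    have := hT1 g₀ hg₀ hgn₀ a ({n, σ n, n', σ n'} : Finset ι)ᶜ fun m hm =>
      (rank_two_support hσ Finset.univ (fun m _ k _ => hu m k) (Finset.mem_univ n) (Finset.mem_univ n') hd
        (Finset.mem_univ m) (Finset.mem_compl.1 hm)).1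
    have := hcomp ({n, σ n, n', σ n'} : Finset ι)
    have := Finset.card_le_four (a := n) (b := σ n) (c := n') (d := σ n')
    omega
  obtain ⟨s, hs⟩ : ∃ s : ι → F, ∀ n, s n = (α - 1) * Y a n + (α⁻¹ - 1) * ρ * Y b n := ⟨_, fun _ => rfl⟩
  have hum : ∀ m ∈ S, ∀ n, (u : Matrix ι ι F) m n = (1 : Matrix ι ι F) m n + (g₀ : Matrix ι ι F) m a * s n :=
    fun m hm n => by rw [hu, hprop m hm, hs]; ring
  have hs0 : ∀ n, s n ≠ 0 := fun n hn => by
    have := hT1 u huM hun n (S.erase n) fun m hm => by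
      rw [Finset.mem_erase] at hm
      rw [hum m hm.2, hn, Matrix.one_apply_ne hm.1]; ring
    have := Finset.pred_card_le_card_erase (s := S) (a := n)
    omega
  obtain ⟨l', hl'⟩ := Finset.card_pos.1 (by rw [Finset.card_erase_of_mem hl]; omega : 0 < (S.erase l).card)
  obtain ⟨m, hm⟩ := Finset.card_pos.1 (by
    have := Finset.pred_card_le_card_erase (s := S.erase l) (a := l')
    rw [Finset.card_erase_of_mem hl] at this
    omega : 0 < ((S.erase l).erase l').card)
  simp only [Finset.mem_erase] at hl' hm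
  have hull : (u : Matrix ι ι F) l l ≠ 0 := fun h' => by
    rw [hu, Matrix.one_apply_eq] at h'
    refine hαR (hroot α ?_)
    have := mul_inv_cancel₀ h0
    rw [hA', hB']
    linear_combination α * h' - ((g₀ : Matrix ι ι F) l b * Y b l) * this
  have hma : (g₀ : Matrix ι ι F) m a ≠ 0 := ((hS m).1 hm.2.2).1
  have e := hT2 u huM hun l l' l m (Ne.symm hm.2.1) hull
    (by rw [hum m hm.2.2, Matrix.one_apply_ne hm.2.1, zero_add]; exact mul_ne_zero hma (hs0 l))
    (by rw [hum l hl, Matrix.one_apply_ne hl'.1.symm, zero_add]; exact mul_ne_zero hla (hs0 l'))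
    (by rw [hum m hm.2.2, Matrix.one_apply_ne hm.1, zero_add]; exact mul_ne_zero hma (hs0 l'))
  rw [hum l hl, hum l hl, hum m hm.2.2, hum m hm.2.2, Matrix.one_apply_eq, Matrix.one_apply_ne hl'.1.symm,
    Matrix.one_apply_ne hm.1, Matrix.one_apply_ne hm.2.1] at e
  exact mul_ne_zero hma (hs0 l') (by linear_combination e)

end CfsgLib.GeoMono
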