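import Mathlib
import Cfsg.Prelude.Def_GeometricClasses
import Cfsg.Agent.GeoLib.Decomp

/-!
Tools for non-maximal stabilisers: rank-one maps and the invariance group of a function.
-/

set_option autoImplicit false

namespace CfsgLib.GeoNonMax

open Matrix

variable {ι : Type} [Fintype ι] [DecidableEq ι] {F : Type*} [Field F]

/-- The map `x ↦ x + φ x • v` with its determinant. -/
theorem exists_rankOne (v : ι → F) (φ : Module.Dual F (ι → F)) (h : 1 + φ v ≠ 0) :
    ∃ g : GL ι F, (∀ x, (g : Matrix ι ι F) *ᵥ x = x + φ x • v) ∧ (g : Matrix ι ι F).det = 1 + φ v := by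
  set r : ι → F := fun i => φ (Pi.single i 1) with hr
  have hdot : ∀ x, r ⬝ᵥ x = φ x := by
    intro x
    conv_rhs => rw [pi_eq_sum_univ' x, map_sum]
    simp only [dotProduct, hr, map_smul, smul_eq_mul, mul_comm]
  set M : Matrix ι ι F := 1 + vecMulVec v r with hM
  have hdet : M.det = 1 + φ v := by
    rw [hM, vecMulVec_eq Unit, det_one_add_replicateCol_mul_replicateRow, hdot]
  refine ⟨GeneralLinearGroup.mkOfDetNeZero M (by rw [hdet]; exact h), fun x => ?_, hdet⟩
  show M *ᵥ x = _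
  rw [hM, add_mulVec, one_mulVec, vecMulVec_mulVec, hdot]
  simp

theorem mem_specialLinear {g : GL ι F} :
    g ∈ Cfsg.Geo.specialLinear ι F ↔ (g : Matrix ι ι F).det = 1 := by
  rw [Cfsg.Geo.specialLinear, MonoidHom.mem_ker, Units.ext_iff]
  rfl

/-- The invertible matrices preserving a function. -/
def fixFun (Φ : (ι → F) → F) : Subgroup (GL ι F) where
  carrier := {g | ∀ x, Φ ((g : Matrix ι ι F) *ᵥ x) = Φ x}
  mul_mem' {a b} ha hb x := by rw [Units.val_mul, ← mulVec_mulVec, ha, hb]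
  one_mem' x := by simp
  inv_mem' {a} ha x := by
    rw [← ha, mulVec_mulVec, ← Units.val_mul, mul_inv_cancel, Units.val_one, one_mulVec]

theorem mem_fixFun {Φ : (ι → F) → F} {g : GL ι F} :
    g ∈ fixFun Φ ↔ ∀ x, Φ ((g : Matrix ι ι F) *ᵥ x) = Φ x := Iff.rfl

variable {t k : ℕ} {D : Fin t → Submodule F (ι → F)}

omit [Fintype ι] [DecidableEq ι] in
/-- The number of non-zero components, in `F`. -/
noncomputable def weight (π : Fin t → ((ι → F) →ₗ[F] (ι → F))) (x : ι → F) : F :=
  open Classical in ∑ i, if π i x = 0 then 0 else 1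

theorem weight_stab {π : Fin t → ((ι → F) →ₗ[F] (ι → F))} (hπ1 : ∀ i x, π i x ∈ D i) (hπ2 : ∀ x, ∑ i, π i x = x)
    (hπ3 : ∀ i, ∀ d ∈ D i, π i d = d) (hπ4 : ∀ i j, i ≠ j → ∀ d ∈ D j, π i d = 0)
    {g : GL ι F} (hg : g ∈ Cfsg.Geo.decompositionStabilizer D) : g ∈ fixFun (weight π) := by
  classical
  obtain ⟨σ, hσ⟩ := hg
  intro x
  have hmem : ∀ i, ∀ d ∈ D i, (g : Matrix ι ι F) *ᵥ d ∈ D (σ i) := fun i d hd => by
    rw [← hσ i]; exact ⟨d, hd, Matrix.toLin'_apply _ _⟩
  have hc : ∀ i, π (σ i) ((g : Matrix ι ι F) *ᵥ x) = (g : Matrix ι ι F) *ᵥ (π i x) := by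
    intro i
    conv_lhs => rw [← hπ2 x, mulVec_sum, map_sum]
    rw [Finset.sum_eq_single i (fun j _ hj => hπ4 _ _ (fun h => hj (σ.injective h).symm) _ (hmem j _ (hπ1 j x)))
      (fun h => absurd (Finset.mem_univ i) h), hπ3 _ _ (hmem i _ (hπ1 i x))]
  simp only [weight]
  refine (Fintype.sum_equiv σ _ _ fun i => ?_).symm
  rw [hc]
  refine if_congr ⟨fun h => by rw [h, mulVec_zero], fun h => ?_⟩ rfl rfl
  exact mulVec_injective_of_isUnit g.isUnit (by rw [h, mulVec_zero])

end CfsgLib.GeoNonMax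

namespace CfsgLib.GeoNonMax

open Matrix

variable {ι : Type} [Fintype ι] [DecidableEq ι] {F : Type*} [Field F] {t : ℕ} {D : Fin t → Submodule F (ι → F)}
  {π : Fin t → ((ι → F) →ₗ[F] (ι → F))}

theorem weight_one (hπ3 : ∀ i, ∀ d ∈ D i, π i d = d) (hπ4 : ∀ i j, i ≠ j → ∀ d ∈ D j, π i d = 0)
    {i : Fin t} {d : ι → F} (hd : d ∈ D i) (h0 : d ≠ 0) : weight π d = 1 := by
  classical
  rw [weight, Finset.sum_eq_single i (fun j _ hj => by rw [hπ4 j i hj _ hd, if_pos rfl])
    (fun h => absurd (Finset.mem_univ i) h), hπ3 i _ hd, if_neg h0]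

theorem weight_two (hπ3 : ∀ i, ∀ d ∈ D i, π i d = d) (hπ4 : ∀ i j, i ≠ j → ∀ d ∈ D j, π i d = 0)
    {i j : Fin t} (hij : i ≠ j) {d d' : ι → F} (hd : d ∈ D i) (h0 : d ≠ 0) (hd' : d' ∈ D j) (h0' : d' ≠ 0) :
    weight π (d + d') = 2 := by
  classical
  rw [weight, Finset.sum_eq_add i j hij]
  · rw [map_add, hπ3 i _ hd, hπ4 i j hij _ hd', add_zero, if_neg h0, map_add, hπ4 j i hij.symm _ hd, zero_add,
      hπ3 j _ hd', if_neg h0', one_add_one_eq_two]
  · intro c _ hc
    rw [map_add, hπ4 c i hc.1 _ hd, hπ4 c j hc.2 _ hd', add_zero, if_pos rfl]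
  · exact fun h => absurd (Finset.mem_univ i) h
  · exact fun h => absurd (Finset.mem_univ j) h

/-- Over two elements, translating by three members along their functionals keeps the weight. -/
theorem weight_three (hF : ∀ z : F, z = 0 ∨ z = 1) (h2 : (2 : F) = 0)
    (hπ1 : ∀ i x, π i x ∈ D i) (hπ3 : ∀ i, ∀ d ∈ D i, π i d = d) (hπ4 : ∀ i j, i ≠ j → ∀ d ∈ D j, π i d = 0)
    {e : Fin t → ι → F} (he : ∀ i, e i ∈ D i) (he0 : ∀ i, e i ≠ 0) (l : Fin t → Module.Dual F (ι → F))
    (hle : ∀ i, l i (e i) = 0) (hlπ : ∀ i x, l i x = l i (π i x))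
    (hlk : ∀ i, ∀ d ∈ D i, l i d = 0 → d = 0 ∨ d = e i) {a b c : Fin t} (hab : a ≠ b) (hac : a ≠ c) (hbc : b ≠ c)
    (x : ι → F) : weight π (x + (l a x + l b x + l c x) • (e a + e b + e c)) = weight π x := by
  classical
  rcases hF (l a x + l b x + l c x) with hL | hL
  · rw [hL, zero_smul, add_zero]
  rw [hL, one_smul, weight, weight]
  have hπe : ∀ i j, π i (e j) = if j = i then e i else 0 := fun i j => by
    rcases eq_or_ne j i with rfl | hji
    · rw [if_pos rfl, hπ3 j _ (he j)]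
    · rw [if_neg hji, hπ4 i j hji.symm _ (he j)]
  have key : ∀ i, (if π i (x + (e a + e b + e c)) = 0 then (0 : F) else 1) = (if π i x = 0 then 0 else 1) +
      ((if a = i then 1 + l i x else 0) + (if b = i then 1 + l i x else 0) + (if c = i then 1 + l i x else 0)) := by
    intro i
    by_cases hin : a = i ∨ b = i ∨ c = i
    swap
    · push Not at hin
      simp [map_add, hπe, hin.1, hin.2.1, hin.2.2]
    have h1 : π i (e a + e b + e c) = e i ∧
        ((if a = i then 1 + l i x else 0) + (if b = i then 1 + l i x else 0) +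
          (if c = i then 1 + l i x else (0 : F))) = 1 + l i x := by
      rcases hin with h | h | h <;> subst h <;>
        simp [map_add, hπe, hab, hac, hbc, hab.symm, hac.symm, hbc.symm]
    rw [map_add, h1.1, h1.2, hlπ i x]
    rcases hF (l i (π i x)) with h0 | h0
    · rw [h0, add_zero]
      rcases hlk i _ (hπ1 i x) h0 with hz | hz
      · rw [hz, zero_add, if_neg (he0 i), if_pos rfl, zero_add]
      · rw [hz, if_neg (he0 i), ← two_smul F (e i), h2, zero_smul, if_pos rfl, one_add_one_eq_two, h2]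
    · rw [h0, one_add_one_eq_two, h2, add_zero, if_neg, if_neg]
      · intro hz; rw [hz, map_zero] at h0; exact zero_ne_one h0
      · intro hz
        have := congrArg (l i) hz
        rw [map_add, hle, h0, add_zero, map_zero] at this
        exact one_ne_zero this
  simp only [key, Finset.sum_add_distrib, Finset.sum_ite_eq, Finset.mem_univ, if_true]
  linear_combination 2 * h2 + hL

end CfsgLib.GeoNonMax
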