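import Cfsg.Agent.GeoLib.OmegaRoots

/-!
Stabilisers of non-degenerate subspaces in `Ω`: a subgroup with the root and reflection-pair elements of an
orthogonal splitting and one mixed element contains all of `Ω`.
-/

set_option autoImplicit false

open QuadraticMap

namespace CfsgLib.GeoOrth

open Matrix CfsgLib.GeoFull CfsgLib.Forms

variable {ι : Type} [Fintype ι] [DecidableEq ι] {F : Type*} [Field F] {Q : QuadraticForm F (ι → F)}
  {M : Subgroup (GL ι F)}

/-- `g` is the Siegel element attached to `d` and `a`. -/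
def IsSiegel (Q : QuadraticForm F (ι → F)) (d a : ι → F) (g : GL ι F) : Prop :=
  ∀ x, (g : Matrix ι ι F) *ᵥ x = x + (polar Q a x - Q a * polar Q d x) • d - polar Q d x • a

/-- The Siegel element of `d` and `a` lies in `M`. -/
def SiegelIn (Q : QuadraticForm F (ι → F)) (M : Subgroup (GL ι F)) (d a : ι → F) : Prop :=
  ∀ g : GL ι F, IsSiegel Q d a g → g ∈ M

theorem siegelIn_of_rootIn {d a : ι → F} (ha : Q a = 0) (h : RootIn Q M d a) : SiegelIn Q M d a :=
  fun g hg => h g fun x => by rw [hg, ha, zero_mul, sub_zero]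

theorem rootIn_of_siegelIn {d a : ι → F} (ha : Q a = 0) (h : SiegelIn Q M d a) : RootIn Q M d a :=
  fun g hg => h g fun x => by rw [hg, ha, zero_mul, sub_zero]

theorem siegelIn_zero_left (a : ι → F) : SiegelIn Q M 0 a := fun g hg => by
  rw [show g = 1 from gl_ext fun x => by rw [hg, Units.val_one, one_mulVec, polar_zero_left]; simp]
  exact one_mem M

theorem siegelIn_zero_right (d : ι → F) : SiegelIn Q M d 0 := fun g hg => by
  rw [show g = 1 from gl_ext fun x => by rw [hg, Units.val_one, one_mulVec, polar_zero_left]; simp]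
  exact one_mem M

theorem siegelIn_smul {c : F} {d a : ι → F} (h : SiegelIn Q M (c • d) a) : SiegelIn Q M d (c • a) :=
  fun g hg => h g fun x => by
    rw [hg, polar_smul_left, polar_smul_left, QuadraticMap.map_smul, smul_eq_mul, smul_eq_mul, smul_eq_mul]
    module

theorem siegelIn_smul' {c : F} {d a : ι → F} (h : SiegelIn Q M d (c • a)) : SiegelIn Q M (c • d) a :=
  fun g hg => h g fun x => by
    rw [hg, polar_smul_left, polar_smul_left, QuadraticMap.map_smul, smul_eq_mul, smul_eq_mul, smul_eq_mul]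
    module

theorem isSiegel_conj {g : GL ι F} (hg : g ∈ Cfsg.Geo.omegaGL ⇑Q) {d a : ι → F} {r : GL ι F}
    (hr : IsSiegel Q d a r) :
    IsSiegel Q ((g : Matrix ι ι F) *ᵥ d) ((g : Matrix ι ι F) *ᵥ a) (g * r * g⁻¹) := fun x => by
  conv_rhs => rw [← mulVec_inv_cancel g x, (polar_omega hg).2, (polar_omega hg).2, (polar_omega hg).1]
  rw [Units.val_mul, Units.val_mul, ← Matrix.mulVec_mulVec, ← Matrix.mulVec_mulVec, hr, Matrix.mulVec_sub,
    Matrix.mulVec_add, Matrix.mulVec_smul, Matrix.mulVec_smul]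

/-- Conjugation moves Siegel elements. -/
theorem siegelIn_map {g : GL ι F} (hgM : g ∈ M) (hg : g ∈ Cfsg.Geo.omegaGL ⇑Q) {d a : ι → F}
    (h : SiegelIn Q M d a) : SiegelIn Q M ((g : Matrix ι ι F) *ᵥ d) ((g : Matrix ι ι F) *ᵥ a) := by
  intro t ht
  have hc := isSiegel_conj (inv_mem hg) ht
  rw [inv_mulVec_cancel, inv_mulVec_cancel, inv_inv] at hc
  have := mul_mem (mul_mem hgM (h _ hc)) (inv_mem hgM)
  simpa [mul_assoc] using this

variable [Finite F]

theorem exists_isSiegel (hQ : (polarBilin Q).Nondegenerate) (hn : 5 ≤ Fintype.card ι) {d a : ι → F} (hd : Q d = 0)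
    (hda : polar Q d a = 0) : ∃ g ∈ Cfsg.Geo.omegaGL ⇑Q, IsSiegel Q d a g := by
  have had : polar Q a d = 0 := by rw [polar_comm, hda]
  obtain ⟨g, hg, hgv⟩ := exists_omegaGL (siegel_mem_commutator hQ hn hd had)
  refine ⟨g, hg, fun v => ?_⟩
  rw [hgv]
  show siegel Q d a hd had v = _
  rw [siegel_apply, polar_comm Q v a, polar_comm Q v d]

theorem siegelIn_add (hQ : (polarBilin Q).Nondegenerate) (hn : 5 ≤ Fintype.card ι) {d a b : ι → F} (hd : Q d = 0)
    (hda : polar Q d a = 0) (hdb : polar Q d b = 0) (h1 : SiegelIn Q M d a) (h2 : SiegelIn Q M d b) :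
    SiegelIn Q M d (a + b) := by
  intro g hg
  obtain ⟨s, -, hs⟩ := exists_isSiegel hQ hn hd hda
  obtain ⟨t, -, ht⟩ := exists_isSiegel hQ hn hd hdb
  rw [show g = s * t from gl_ext fun x => by
    rw [hg, Units.val_mul, ← Matrix.mulVec_mulVec, ht, hs]
    simp only [polar_add_left, polar_add_right, polar_sub_right, polar_smul_right, polar_comm Q a d, hda, hdb,
      polar_self, hd, QuadraticMap.map_add (⇑Q), smul_eq_mul]
    simp
    module]
  exact mul_mem (h1 s hs) (h2 t ht)

/-- The commutator of a Siegel element and a root meeting in one pair. -/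
theorem rootIn_comm_siegel (hQ : (polarBilin Q).Nondegenerate) (hn : 5 ≤ Fintype.card ι) {d a d' a' : ι → F}
    (hd : Q d = 0) (hd' : Q d' = 0) (ha' : Q a' = 0) (e1 : polar Q d a = 0) (e3 : polar Q d' a' = 0)
    (hdd' : polar Q d d' = 0) (e4 : polar Q d a' = 0) (e2 : polar Q d' a = 0)
    (h1 : SiegelIn Q M d a) (h2 : RootIn Q M d' a') : RootIn Q M d (-polar Q a' a • d') := by
  intro r hr
  obtain ⟨x, -, hx⟩ := exists_isSiegel hQ hn hd e1
  obtain ⟨y, -, hy⟩ := exists_isRoot hQ hn hd' ha' e3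
  have he : r * y * x = x * y := gl_ext fun z => by
    simp only [Units.val_mul, ← Matrix.mulVec_mulVec]
    rw [hr, hy, hy, hx, hx]
    simp only [polar_add_right, polar_sub_right, polar_smul_right, polar_smul_left, polar_self,
      hd, hd', ha', e1, e2, e3, e4, hdd', polar_comm Q a d, polar_comm Q a' d, polar_comm Q a' d',
      polar_comm Q d' d, polar_comm Q a d', polar_comm Q a a', smul_eq_mul]
    simp
    module
  rw [show r = x * y * x⁻¹ * y⁻¹ by rw [← he]; group]
  exact mul_mem (mul_mem (mul_mem (h1 x hx) (h2 y hy)) (inv_mem (h1 x hx))) (inv_mem (h2 y hy))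

/-- The product of two reflections with the same value lies in `Ω`. -/
theorem exists_pair (hQ : (polarBilin Q).Nondegenerate) {w u : ι → F} (hw : Q w ≠ 0) (hu : Q u = Q w) :
    ∃ g ∈ Cfsg.Geo.omegaGL ⇑Q, ∀ x, (g : Matrix ι ι F) *ᵥ x =
      refl Q w hw (refl Q u (hu ▸ hw) x) := by
  have hu0 : Q u ≠ 0 := hu ▸ hw
  obtain ⟨g, hg, hgv⟩ := exists_omegaGL (reflProd_mem_commutator hQ [⟨w, hw⟩, ⟨u, hu0⟩] (by simp) (by
    show IsSquare (valueProd Q _)
    simp [valueProd, hu]))
  refine ⟨g, hg, fun x => ?_⟩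
  rw [hgv]
  rfl

/-- An orthogonal splitting of the space. -/
structure IsSplit (Q : QuadraticForm F (ι → F)) (W U : Submodule F (ι → F)) : Prop where
  compl : IsCompl W U
  orth : ∀ w ∈ W, ∀ u ∈ U, polar Q w u = 0

namespace IsSplit

variable {W U : Submodule F (ι → F)}

omit [Fintype ι] [DecidableEq ι] [Finite F] in
theorem symm (hS : IsSplit Q W U) : IsSplit Q U W :=
  ⟨hS.compl.symm, fun u hu w hw => by rw [polar_comm]; exact hS.orth w hw u hu⟩

omit [Fintype ι] [DecidableEq ι] [Finite F] in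
theorem exists_decomp (hS : IsSplit Q W U) (x : ι → F) : ∃ w ∈ W, ∃ u ∈ U, w + u = x :=
  Submodule.mem_sup.1 (show x ∈ W ⊔ U by rw [hS.compl.sup_eq_top]; trivial)

variable (hQ : (polarBilin Q).Nondegenerate)
include hQ

omit [Finite F] in
theorem eq_zero (hS : IsSplit Q W U) {x : ι → F} (hx : x ∈ U) (h : ∀ y ∈ U, polar Q x y = 0) : x = 0 :=
  polar_ext hQ fun z => by
    obtain ⟨w, hw, u, hu, rfl⟩ := hS.exists_decomp z
    rw [polar_add_right, polar_comm Q x w, hS.orth w hw x hx, h u hu, add_zero]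

omit [Finite F] in
/-- The dual of a vector inside a member. -/
theorem exists_polar (hS : IsSplit Q W U) {T : Submodule F (ι → F)} (hT : T ≤ U) {x : ι → F} (hx : x ∈ U)
    (hxT : x ∉ T) : ∃ f ∈ U, (∀ t ∈ T, polar Q t f = 0) ∧ polar Q x f = 1 := by
  obtain ⟨f, hf, hxf⟩ := exists_polar_eq_one hQ hxT
  obtain ⟨w, hw, u, hu, e⟩ := hS.exists_decomp f
  have hp : ∀ t ∈ U, polar Q t u = polar Q t f := fun t ht => by
    rw [← e, polar_add_right, polar_comm Q t w, hS.orth w hw t ht, zero_add]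
  exact ⟨u, hu, fun t ht => by rw [hp t (hT ht), polar_comm]; exact mem_perp.1 hf t ht, by rw [hp x hx, hxf]⟩

omit [Finite F] in
theorem exists_partner (hS : IsSplit Q W U) {T : Submodule F (ι → F)} (hT : T ≤ U) {d : ι → F} (hd : d ∈ U)
    (hd0 : Q d = 0) (hdT : d ∉ T) (horth : ∀ t ∈ T, polar Q t d = 0) :
    ∃ f ∈ U, (∀ t ∈ T, polar Q t f = 0) ∧ Q f = 0 ∧ polar Q d f = 1 := by
  obtain ⟨f, hf, hfT, hdf⟩ := hS.exists_polar hQ hT hd hdT
  refine ⟨f + (-Q f) • d, add_mem hf (U.smul_mem _ hd), fun t ht => ?_, ?_, ?_⟩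
  · rw [polar_add_right, polar_smul_right, hfT t ht, horth t ht, smul_zero, add_zero]
  · rw [map_add_smul, hd0, polar_comm, hdf]; ring
  · rw [polar_add_right, polar_smul_right, polar_self, hd0, hdf]; simp

/-- A singular vector of a member orthogonal to two vectors. -/
theorem exists_singular₂ (hU : 5 ≤ Module.finrank F U) (a b : ι → F) :
    ∃ d ∈ U, d ≠ 0 ∧ Q d = 0 ∧ polar Q d a = 0 ∧ polar Q d b = 0 := by
  have h1 := Submodule.finrank_sup_add_finrank_inf_eq U (perp Q (Submodule.span F {a, b}))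
  have h2 := Submodule.finrank_le (U ⊔ perp Q (Submodule.span F {a, b}))
  have h3 := CfsgLib.GeoOrth.finrank_pair_le (F := F) a b
  rw [finrank_perp hQ] at h1
  rw [Module.finrank_fintype_fun_eq_card] at h1 h2
  obtain ⟨d, hd, hd0, hQd⟩ := exists_singular Q (U ⊓ perp Q (Submodule.span F {a, b})) (by omega)
  exact ⟨d, hd.1, hd0, hQd, (mem_perp_pair.1 hd.2).1, (mem_perp_pair.1 hd.2).2⟩

/-- A hyperbolic pair of a member orthogonal to a given vector. -/
theorem exists_hyp (hS : IsSplit Q W U) (hU : 5 ≤ Module.finrank F U) {x : ι → F} (hx : x ∈ U) (hxx : Q x = 0) :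
    ∃ e ∈ U, ∃ f ∈ U, Q e = 0 ∧ Q f = 0 ∧ polar Q e f = 1 ∧ polar Q x e = 0 ∧ polar Q x f = 0 ∧
      e ∉ Submodule.span F {x} := by
  rcases eq_or_ne x 0 with rfl | hx0
  · obtain ⟨e, he, he0, hee, -, -⟩ := exists_singular₂ hQ hU 0 0
    obtain ⟨f, hf, -, hff, hef⟩ := hS.exists_partner hQ bot_le he hee (by simpa using he0) (by simp)
    exact ⟨e, he, f, hf, hee, hff, hef, by simp, by simp, by simpa [Submodule.span_zero_singleton] using he0⟩
  obtain ⟨x', hx', -, hxx', hp⟩ := hS.exists_partner hQ bot_le hx hxx (by simpa using hx0) (by simp)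
  obtain ⟨e, he, he0, hee, hex, hex'⟩ := exists_singular₂ hQ hU x x'
  have hne : e ∉ Submodule.span F {x} := fun h => he0 (by
    obtain ⟨c, rfl⟩ := Submodule.mem_span_singleton.1 h
    rw [polar_smul_left, hp, smul_eq_mul, mul_one] at hex'
    rw [hex', zero_smul])
  obtain ⟨f, hf, hfx, hff, hef⟩ := hS.exists_partner hQ
    ((Submodule.span_singleton_le_iff_mem _ _).2 hx) he hee hne fun t ht => by
      obtain ⟨c, rfl⟩ := Submodule.mem_span_singleton.1 ht
      rw [polar_smul_left, polar_comm, hex, smul_zero]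
  exact ⟨e, he, f, hf, hee, hff, hef, by rw [polar_comm, hex], hfx x (Submodule.mem_span_singleton_self x), hne⟩

/-- Singular vectors of a member orthogonal to a singular vector span the orthogonal space. -/
theorem le_of_singular (hS : IsSplit Q W U) (hU : 5 ≤ Module.finrank F U) {x : ι → F} (hx : x ∈ U) (hxx : Q x = 0)
    {Z : Submodule F (ι → F)} (hZ : ∀ a ∈ U, Q a = 0 → polar Q x a = 0 → a ∈ Z) :
    ∀ a ∈ U, polar Q x a = 0 → a ∈ Z := by
  obtain ⟨e, he, f, hf, hee, hff, hef, hxe, hxf, -⟩ := hS.exists_hyp hQ hU hx hxx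
  intro a ha hxa
  set z := a - polar Q a f • e - polar Q a e • f with hz
  have hze : polar Q z e = 0 := by
    simp [hz, polar_sub_left, polar_smul_left, polar_self, hee, polar_comm Q f e, hef]
  have hzf : polar Q z f = 0 := by
    simp [hz, polar_sub_left, polar_smul_left, polar_self, hff, hef]
  have hzU : z ∈ U := sub_mem (sub_mem ha (U.smul_mem _ he)) (U.smul_mem _ hf)
  have hxz : polar Q x z = 0 := by simp [hz, polar_sub_right, hxa, hxe, hxf]
  have h1 : z + e + (-Q z) • f ∈ Z := hZ _ (add_mem (add_mem hzU he) (U.smul_mem _ hf))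
    (by rw [map_add_smul, QuadraticMap.map_add (⇑Q), hee, hze, hff, polar_add_left, hzf, hef]; ring)
    (by rw [polar_add_right, polar_add_right, polar_smul_right, hxz, hxe, hxf]; simp)
  have h2 : z ∈ Z := by
    rw [show z = z + e + (-Q z) • f - e - (-Q z) • f by abel]
    exact sub_mem (sub_mem h1 (hZ e he hee hxe)) (Z.smul_mem (-Q z) (hZ f hf hff hxf))
  rw [show a = z + polar Q a f • e + polar Q a e • f by rw [hz]; abel]
  exact add_mem (add_mem h2 (Z.smul_mem (polar Q a f) (hZ e he hee hxe)))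
    (Z.smul_mem (polar Q a e) (hZ f hf hff hxf))

/-- A singular vector of a member not orthogonal to a given one of it. -/
theorem exists_singular_ne (hS : IsSplit Q W U) (hU : 5 ≤ Module.finrank F U) {x : ι → F} (hx : x ∈ U) (hx0 : x ≠ 0) :
    ∃ d ∈ U, Q d = 0 ∧ polar Q x d ≠ 0 := by
  by_contra hall
  push Not at hall
  refine hx0 (hS.eq_zero hQ hx fun y hy => ?_)
  exact LinearMap.mem_ker.1 (hS.le_of_singular hQ hU (x := 0) U.zero_mem (by simp) (Z := LinearMap.ker (polarBilin Q x))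
    (fun a ha haa _ => hall a ha haa) y hy (by simp))

/-- One Siegel element joining the members gives all of `Ω`. -/
theorem omega_le_of_siegel (hS : IsSplit Q W U) (hn : 5 ≤ Fintype.card ι) (hU : 5 ≤ Module.finrank F U)
    (hW2 : Module.finrank F W = 2 → (∃ e ∈ W, e ≠ 0 ∧ Q e = 0) → 4 ≤ Nat.card F)
    (hsU : ∀ d ∈ U, ∀ b ∈ U, Q d = 0 → polar Q d b = 0 → SiegelIn Q M d b)
    (hsW : ∀ d ∈ W, ∀ b ∈ W, Q d = 0 → polar Q d b = 0 → SiegelIn Q M d b)
    (hpair : ∀ w ∈ W, ∀ u ∈ U, ∀ (hw : Q w ≠ 0) (hu : Q u = Q w), ∀ g : GL ι F,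
      (∀ x, (g : Matrix ι ι F) *ᵥ x = refl Q w hw (refl Q u (hu ▸ hw) x)) → g ∈ M)
    {d₀ w₀ : ι → F} (hd₀ : d₀ ∈ U) (hd₀0 : d₀ ≠ 0) (hd₀s : Q d₀ = 0) (hw₀ : w₀ ∈ W) (hw₀0 : w₀ ≠ 0)
    (h₀ : SiegelIn Q M d₀ w₀) : Cfsg.Geo.omegaGL ⇑Q ≤ M := by
  classical
  set Ω := Cfsg.Geo.omegaGL ⇑Q
  let QU := Q.comp U.subtype
  have hQU : (polarBilin QU).Nondegenerate := nondegenerate_iff.2 fun x hx =>
    Subtype.ext (hS.eq_zero hQ x.2 fun y hy => hx ⟨y, hy⟩)
  have hext : ∀ x ∈ rootGroup QU, ∃ m ∈ M, m ∈ Ω ∧ (∀ u : U, (m : Matrix ι ι F) *ᵥ (u : ι → F) = (x u : ι → F)) ∧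
      ∀ w ∈ W, (m : Matrix ι ι F) *ᵥ w = w := by
    intro x hx
    induction hx using Subgroup.closure_induction with
    | mem y hy =>
      obtain ⟨d, a, hd, had, ha, rfl⟩ := hy
      have hda : polar Q (d : ι → F) (a : ι → F) = 0 := by rw [polar_comm]; exact had
      obtain ⟨m, hm, hmv⟩ := exists_isSiegel hQ hn (show Q (d : ι → F) = 0 from hd) hda
      refine ⟨m, hsU _ d.2 _ a.2 hd hda m hmv, hm, fun u => ?_, fun w hw => ?_⟩
      · rw [hmv, siegel_apply, ha, show Q (a : ι → F) = 0 from ha, polar_comm QU u a, polar_comm QU u d]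
        simp only [zero_mul, sub_zero, Submodule.coe_sub, Submodule.coe_add, Submodule.coe_smul]
        rfl
      · rw [hmv, polar_comm Q (a : ι → F) w, hS.orth w hw _ a.2, polar_comm Q (d : ι → F) w, hS.orth w hw _ d.2]
        simp
    | one => exact ⟨1, one_mem M, one_mem Ω, fun u => by simp, fun w _ => by simp⟩
    | mul y z _ _ hy hz =>
      obtain ⟨m, hm, hm', hmu, hmw⟩ := hy
      obtain ⟨l, hl, hl', hlu, hlw⟩ := hz
      exact ⟨m * l, mul_mem hm hl, mul_mem hm' hl', fun u => by rw [Units.val_mul, ← mulVec_mulVec, hlu, hmu]; rfl,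
        fun w hw => by rw [Units.val_mul, ← mulVec_mulVec, hlw w hw, hmw w hw]⟩
    | inv y _ hy =>
      obtain ⟨m, hm, hm', hmu, hmw⟩ := hy
      refine ⟨m⁻¹, inv_mem hm, inv_mem hm', fun u => ?_, fun w hw => ?_⟩
      · refine mulVec_injective_of_isUnit m.isUnit ?_
        show (m : Matrix ι ι F) *ᵥ _ = (m : Matrix ι ι F) *ᵥ _
        rw [mulVec_inv_cancel, hmu]
        exact congrArg Subtype.val (y.apply_symm_apply u).symm
      · conv_lhs => rw [← hmw w hw, inv_mulVec_cancel]
  -- the vectors of the other member joined to every singular vector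
  let P : Submodule F (ι → F) :=
    { carrier := {x | x ∈ W ∧ ∀ d ∈ U, Q d = 0 → SiegelIn Q M d x}
      add_mem' := fun {a b} ha hb => ⟨add_mem ha.1 hb.1, fun d hd hdd => siegelIn_add hQ hn hdd
        (by rw [polar_comm]; exact hS.orth a ha.1 d hd) (by rw [polar_comm]; exact hS.orth b hb.1 d hd)
        (ha.2 d hd hdd) (hb.2 d hd hdd)⟩
      zero_mem' := ⟨zero_mem _, fun d _ _ => siegelIn_zero_right d⟩
      smul_mem' := fun c a ha => ⟨W.smul_mem c ha.1, fun d hd hdd =>
        siegelIn_smul (ha.2 (c • d) (U.smul_mem c hd) (by rw [QuadraticMap.map_smul, hdd, smul_zero]))⟩ }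
  have hPW : ∀ x ∈ P, x ∈ W := fun x hx => hx.1
  have hw₀P : w₀ ∈ P := by
    refine ⟨hw₀, fun d hd hdd => ?_⟩
    rcases eq_or_ne d 0 with rfl | hd0
    · exact siegelIn_zero_left _
    obtain ⟨x, hx, hxd⟩ := exists_rootGroup_map hQU hU (u := (⟨d₀, hd₀⟩ : U)) (w := ⟨d, hd⟩)
      (fun h => hd₀0 (congrArg Subtype.val h)) (fun h => hd0 (congrArg Subtype.val h)) (hd₀s.trans hdd.symm)
    obtain ⟨m, hm, hm', hmu, hmw⟩ := hext x hx
    have := siegelIn_map hm hm' h₀
    rwa [show (m : Matrix ι ι F) *ᵥ d₀ = d from (hmu ⟨d₀, hd₀⟩).trans (congrArg Subtype.val hxd),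
      hmw w₀ hw₀] at this
  -- stability
  have hstab : ∀ g : GL ι F, g ∈ M → g ∈ Ω → (∀ u ∈ U, ((g⁻¹ : GL ι F) : Matrix ι ι F) *ᵥ u ∈ U) →
      (∀ w ∈ W, (g : Matrix ι ι F) *ᵥ w ∈ W) → ∀ x ∈ P, (g : Matrix ι ι F) *ᵥ x ∈ P := by
    intro g hg hg' hgU hgW x hx
    refine ⟨hgW x hx.1, fun d hd hdd => ?_⟩
    have := siegelIn_map hg hg' (hx.2 _ (hgU d hd) (by rw [(polar_omega (inv_mem hg')).1, hdd]))
    rwa [mulVec_inv_cancel] at this
  have hrefl : ∀ w ∈ W, Q w ≠ 0 → ∀ x ∈ P, x - ((Q w)⁻¹ * polar Q x w) • w ∈ P := by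
    intro w hw hw0 x hx
    obtain ⟨e, he, f, hf, hee, hff, hef, -, -, -⟩ := hS.exists_hyp hQ hU (x := 0) U.zero_mem (by simp)
    set u := e + Q w • f with hu'
    have hu : Q u = Q w := by rw [hu', map_add_smul, hee, hff, hef]; ring
    have huU : u ∈ U := add_mem he (U.smul_mem _ hf)
    obtain ⟨g, hg, hgv⟩ := exists_pair hQ hw0 hu
    have hgU : ∀ z ∈ U, (g : Matrix ι ι F) *ᵥ z ∈ U := fun z hz => by
      have hz' : refl Q u (hu ▸ hw0) z ∈ U := by rw [refl_apply]; exact sub_mem hz (U.smul_mem _ huU)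
      rw [hgv, refl_apply, polar_comm, hS.orth w hw _ hz', mul_zero, zero_smul, sub_zero]
      exact hz'
    have hgW : ∀ z ∈ W, (g : Matrix ι ι F) *ᵥ z = z - ((Q w)⁻¹ * polar Q z w) • w := fun z hz => by
      rw [hgv, refl_apply (u := u), hS.orth z hz u huU, mul_zero, zero_smul, sub_zero, refl_apply]
    have hgU' : ∀ z ∈ U, ((g⁻¹ : GL ι F) : Matrix ι ι F) *ᵥ z ∈ U := by
      intro z hz
      let L := Matrix.toLin' (g : Matrix ι ι F)
      have hLi : Function.Injective L := fun a b h => mulVec_injective_of_isUnit g.isUnit (by simpa [L] using h)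
      have hmap : U.map L = U := Submodule.eq_of_le_of_finrank_le
        (by rintro _ ⟨v, hv, rfl⟩; simpa [L] using hgU v hv)
        (by rw [← (Submodule.equivMapOfInjective L hLi U).finrank_eq])
      rw [← hmap] at hz
      obtain ⟨v, hv, rfl⟩ := hz
      rw [Matrix.toLin'_apply, inv_mulVec_cancel]
      exact hv
    rw [← hgW x hx.1]
    exact hstab g (hpair w hw u huU hw0 hu g hgv) hg hgU' (fun z hz => by
      rw [hgW z hz]; exact sub_mem hz (W.smul_mem _ hw)) x hx
  let P' : Submodule F (ι → F) :=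
    { carrier := {z | z ∈ W ∧ ∀ x ∈ P, polar Q x z = 0}
      add_mem' := fun {a b} ha hb => ⟨add_mem ha.1 hb.1, fun x hx => by
        rw [polar_add_right, ha.2 x hx, hb.2 x hx, add_zero]⟩
      zero_mem' := ⟨zero_mem _, fun x _ => polar_zero_right Q x⟩
      smul_mem' := fun c a ha => ⟨W.smul_mem c ha.1, fun x hx => by
        rw [polar_smul_right, ha.2 x hx, smul_zero]⟩ }
  have haniso : ∀ w ∈ W, Q w ≠ 0 → w ∈ P ∨ w ∈ P' := by
    intro w hw hw0
    by_cases h : ∀ x ∈ P, polar Q x w = 0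
    · exact Or.inr ⟨hw, h⟩
    push Not at h
    obtain ⟨x, hx, hxw⟩ := h
    refine Or.inl ((Submodule.smul_mem_iff _ (mul_ne_zero (inv_ne_zero hw0) hxw)).1 ?_)
    simpa using sub_mem hx (hrefl w hw hw0 x hx)
  have hP' : P' ≠ W := fun h => by
    obtain ⟨z, hz, -, hz'⟩ := hS.symm.exists_polar hQ bot_le hw₀ (by simpa using hw₀0)
    rw [(h.symm ▸ hz : z ∈ P').2 w₀ hw₀P] at hz'
    exact zero_ne_one hz'
  have hPtop : W ≤ P := by
    by_cases h2 : Module.finrank F W = 2
    · by_cases hs : ∃ e ∈ W, e ≠ 0 ∧ Q e = 0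
      · obtain ⟨e, he, he0, hee⟩ := hs
        obtain ⟨f, hf, -, hff, hef⟩ := hS.symm.exists_partner hQ bot_le he hee (by simpa using he0) (by simp)
        have hq := hW2 h2 ⟨e, he, he0, hee⟩
        let T := {t : F // t ≠ 0}
        have hmem : ∀ t : T, e + (t : F) • f ∈ P ∨ e + (t : F) • f ∈ P' := fun t =>
          haniso _ (add_mem he (W.smul_mem _ hf)) (by rw [map_add_smul, hee, hff, hef]; simpa using t.2)
        let col : T → Bool := fun t => decide (e + (t : F) • f ∈ P)
        obtain ⟨t, t', htt, hcol⟩ : ∃ t t', t ≠ t' ∧ col t = col t' := by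
          haveI := Fintype.ofFinite F
          refine Fintype.exists_ne_map_eq_of_card_lt col ?_
          rw [Fintype.card_bool, Fintype.card_subtype_compl, Fintype.card_subtype_eq]
          rw [Nat.card_eq_fintype_card] at hq
          omega
        have htt' : (t : F) - (t' : F) ≠ 0 := sub_ne_zero.2 fun h => htt (Subtype.ext h)
        have hboth : ∀ Z : Submodule F (ι → F), e + (t : F) • f ∈ Z → e + (t' : F) • f ∈ Z → W ≤ Z := by
          intro Z h1 h2'
          have hfZ : f ∈ Z := by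
            refine (Submodule.smul_mem_iff _ htt').1 ?_
            rw [show ((t : F) - (t' : F)) • f = (e + (t : F) • f) - (e + (t' : F) • f) by module]
            exact sub_mem h1 h2'
          have heZ : e ∈ Z := by simpa using sub_mem h1 (Z.smul_mem (t : F) hfZ)
          have hle : Submodule.span F {e, f} ≤ W := Submodule.span_le.2 (by rintro z (rfl | rfl) <;> assumption)
          have hli : LinearIndependent F ![e, f] := (LinearIndependent.pair_iff' he0).2 fun c hc => by
            rw [← hc, polar_smul_right, polar_self, hee] at hef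
            simp at hef
          have hWspan : Submodule.span F {e, f} = W := Submodule.eq_of_le_of_finrank_le hle (by
            rw [h2, ← Matrix.range_cons_cons_empty e f ![], finrank_span_eq_card hli]; simp)
          rw [← hWspan]
          exact Submodule.span_le.2 (by rintro z (rfl | rfl) <;> assumption)
        by_cases hc : e + (t : F) • f ∈ P
        · exact hboth P hc (by simpa [col, hc] using hcol)
        · have hc' : e + (t' : F) • f ∉ P := by simpa [col, hc] using hcol
          refine absurd (le_antisymm (fun z hz => hz.1) (hboth P' ((hmem t).resolve_left hc) ((hmem t').resolve_left hc'))) hP'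
      · push Not at hs
        by_contra hWP
        obtain ⟨a, ha, haP⟩ := SetLike.not_le_iff_exists.1 hWP
        obtain ⟨b, hb, hbP⟩ := SetLike.not_le_iff_exists.1 (show ¬ W ≤ P' from fun h => hP' (le_antisymm (fun z hz => hz.1) h))
        have hcov : ∀ z ∈ W, z ∈ P ∨ z ∈ P' := fun z hz => by
          rcases eq_or_ne z 0 with rfl | hz0
          · exact Or.inl (zero_mem _)
          · exact haniso z hz (hs z hz hz0)
        rcases hcov (a + b) (add_mem ha hb) with h | h
        · exact haP (by simpa using sub_mem h ((hcov b hb).resolve_right hbP))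
        · exact hbP (by simpa using sub_mem h ((hcov a ha).resolve_left haP))
    · by_contra hWP
      obtain ⟨a, ha, haP⟩ := SetLike.not_le_iff_exists.1 hWP
      obtain ⟨b, hb, hbP⟩ := SetLike.not_le_iff_exists.1 (show ¬ W ≤ P' from fun h => hP' (le_antisymm (fun z hz => hz.1) h))
      have h3 : 3 ≤ Module.finrank F W := by
        have h1 : 1 ≤ Module.finrank F W := Nat.one_le_iff_ne_zero.2 fun h => hw₀0 (by
          rw [Submodule.finrank_eq_zero] at h; rw [h] at hw₀; simpa using hw₀)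
        by_contra hlt
        have hspan : Submodule.span F {w₀} = W := Submodule.eq_of_le_of_finrank_le
          ((Submodule.span_singleton_le_iff_mem _ _).2 hw₀) (by rw [finrank_span_singleton hw₀0]; omega)
        exact hWP (hspan ▸ (Submodule.span_singleton_le_iff_mem _ _).2 hw₀P)
      have hcov : ∀ z ∈ W, z ∈ P ∨ z ∈ P' := by
        intro d hd
        by_cases hdd : Q d = 0
        swap
        · exact haniso d hd hdd
        by_contra hnot
        push Not at hnot
        obtain ⟨hdP, hdP'⟩ := hnot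
        obtain ⟨x, hx, hxd⟩ : ∃ x ∈ P, polar Q x d ≠ 0 := by
          by_contra h
          push Not at h
          exact hdP' ⟨hd, h⟩
        have hxd' : polar Q d x ≠ 0 := by rwa [polar_comm]
        have hmv : ∀ c ∈ W, polar Q d c = 0 → ∀ y ∈ P,
            (polar Q c y - Q c * polar Q d y) • d - polar Q d y • c ∈ P := by
          intro c hc hdc y hy
          obtain ⟨s, hs, hsv⟩ := exists_isSiegel hQ hn hdd hdc
          have hfixU : ∀ u ∈ U, (s : Matrix ι ι F) *ᵥ u = u := fun u hu => by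
            rw [hsv, hS.orth c hc u hu, hS.orth d hd u hu]; simp
          have h := sub_mem (hstab s (hsW d hd c hc hdd hdc s hsv) hs
            (fun u hu => by conv => arg 2; rw [← hfixU u hu, inv_mulVec_cancel]
                            exact hu)
            (fun z hz => by rw [hsv]; exact sub_mem (add_mem hz (W.smul_mem _ hd)) (W.smul_mem _ hc)) y hy) hy
          rw [hsv] at h
          simpa [add_sub_assoc] using h
        obtain ⟨b₁, ⟨hb₁W, hb₁d⟩, hb₁⟩ : ∃ b₁ ∈ W ⊓ perp Q (Submodule.span F {d}), b₁ ∉ Submodule.span F {d} := by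
          refine SetLike.not_le_iff_exists.1 fun hle => ?_
          have h1 := Submodule.finrank_sup_add_finrank_inf_eq W (perp Q (Submodule.span F {d}))
          have h4 := Submodule.finrank_le (W ⊔ perp Q (Submodule.span F {d}))
          have h5 := Submodule.finrank_mono hle
          have hd0 : d ≠ 0 := fun h => hdP (h ▸ zero_mem _)
          rw [finrank_span_singleton hd0] at h5
          rw [finrank_perp hQ, finrank_span_singleton hd0, Module.finrank_fintype_fun_eq_card] at h1
          rw [Module.finrank_fintype_fun_eq_card] at h4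
          omega
        have hb₁d' : polar Q d b₁ = 0 := by
          rw [polar_comm]; exact mem_perp.1 hb₁d d (Submodule.mem_span_singleton_self d)
        obtain ⟨c, hc, hdc, hc1⟩ := hS.symm.exists_polar hQ
          ((Submodule.span_singleton_le_iff_mem _ _).2 hd) hb₁W hb₁
        have hdc' := hdc d (Submodule.mem_span_singleton_self d)
        set x₁ := (polar Q b₁ x - Q b₁ * polar Q d x) • d - polar Q d x • b₁ with hx₁
        have hx₁P : x₁ ∈ P := hmv b₁ hb₁W hb₁d' x hx
        have h := hmv c hc hdc' x₁ hx₁P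
        have e1 : polar Q d x₁ = 0 := by simp [hx₁, polar_sub_right, polar_self, hdd, hb₁d']
        have e2 : polar Q c x₁ = -polar Q d x := by
          simp [hx₁, polar_sub_right, polar_comm Q c d, hdc', polar_comm Q c b₁, hc1]
        rw [e1, e2, mul_zero, sub_zero, zero_smul, sub_zero] at h
        exact hdP ((Submodule.smul_mem_iff _ (neg_ne_zero.2 hxd')).1 h)
      rcases hcov (a + b) (add_mem ha hb) with h | h
      · exact haP (by simpa using sub_mem h ((hcov b hb).resolve_right hbP))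
      · exact hbP (by simpa using sub_mem h ((hcov a ha).resolve_left haP))
  -- full centres
  let Cn : (ι → F) → Prop := fun x => ∀ a, polar Q x a = 0 → SiegelIn Q M x a
  have hCU : ∀ d ∈ U, Q d = 0 → Cn d := by
    intro d hd hdd a hda
    obtain ⟨w, hw, u, hu, rfl⟩ := hS.exists_decomp a
    have hdw : polar Q d w = 0 := by rw [polar_comm]; exact hS.orth w hw d hd
    have hdu : polar Q d u = 0 := by rwa [polar_add_right, hdw, zero_add] at hda
    exact siegelIn_add hQ hn hdd hdw hdu ((hPtop hw).2 d hd hdd) (hsU d hd u hu hdd hdu)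
  have hCsmul : ∀ (c : F) x, Cn x → Cn (c • x) := by
    intro c x hx a ha
    rcases eq_or_ne c 0 with rfl | hc
    · rw [zero_smul]; exact siegelIn_zero_left a
    rw [polar_smul_left, smul_eq_mul, mul_eq_zero] at ha
    exact siegelIn_smul' (hx (c • a) (by rw [polar_smul_right, ha.resolve_left hc, smul_zero]))
  have hCmap : ∀ g : GL ι F, g ∈ M → g ∈ Ω → ∀ x, Cn x → Cn ((g : Matrix ι ι F) *ᵥ x) := by
    intro g hg hg' x hx a ha
    have := siegelIn_map hg hg' (hx (((g⁻¹ : GL ι F) : Matrix ι ι F) *ᵥ a) (by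
      rw [← (polar_omega hg').2, mulVec_inv_cancel, ha]))
    rwa [mulVec_inv_cancel] at this
  have hmove : ∀ d e x, Q d = 0 → Cn d → Q e = 0 → Cn e → Q x = 0 → polar Q d e ≠ 0 → polar Q d x ≠ 0 → Cn x := by
    intro d e x hdd hd hee he hxx hde hdx
    set k := polar Q d x with hk
    set e' := (k / polar Q d e) • e with he'
    have hde' : polar Q d e' = k := by rw [he', polar_smul_right, smul_eq_mul, div_mul_cancel₀ _ hde]
    have hee' : Q e' = 0 := by rw [he', QuadraticMap.map_smul, hee, smul_zero]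
    set a := k⁻¹ • (e' - x) with ha
    have hda : polar Q d a = 0 := by rw [ha, polar_smul_right, polar_sub_right, hde', ← hk, sub_self, smul_zero]
    obtain ⟨s, hs, hsv⟩ := exists_isSiegel hQ hn hdd hda
    have h := hCmap s (hd a hda s hsv) hs e' (hCsmul _ e he)
    have hco : polar Q a e' - Q a * polar Q d e' = 0 := by
      rw [hde', ha, polar_smul_left, polar_sub_left, QuadraticMap.map_smul, CfsgLib.Forms.map_sub', hee', hxx, polar_self, hee',
        polar_comm Q x e', smul_zero, smul_eq_mul, smul_eq_mul]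
      field_simp
      ring
    rw [hsv, hco, hde', zero_smul, add_zero, ha, smul_smul, mul_inv_cancel₀ hdx, one_smul, sub_sub_cancel] at h
    exact h
  have hCU' : ∀ x, Q x = 0 → (∃ w ∈ W, ∃ u ∈ U, u ≠ 0 ∧ w + u = x) → Cn x := by
    rintro x hxx ⟨w, hw, u, hu, hu0, rfl⟩
    obtain ⟨d, hd, hdd, hud⟩ := hS.exists_singular_ne hQ hU hu hu0
    have hd0 : d ≠ 0 := fun h => hud (by rw [h, polar_zero_right])
    obtain ⟨e, he, -, hee, hde⟩ := hS.exists_partner hQ bot_le hd hdd (by simpa using hd0) (by simp)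
    refine hmove d e _ hdd (hCU d hd hdd) hee (hCU e he hee) hxx (by rw [hde]; exact one_ne_zero) ?_
    rw [polar_add_right, polar_comm Q d w, hS.orth w hw d hd, zero_add, polar_comm]
    exact hud
  refine omegaGL_le_of_roots hQ hn fun x a hxx haa hxa => rootIn_of_siegelIn haa ?_
  suffices Cn x from this a hxa
  obtain ⟨w, hw, u, hu, rfl⟩ := hS.exists_decomp x
  rcases ne_or_eq u 0 with hu0 | rfl
  · exact hCU' _ hxx ⟨w, hw, u, hu, hu0, rfl⟩
  rw [add_zero] at hxx ⊢
  rcases eq_or_ne w 0 with rfl | hw0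
  · exact fun a _ => siegelIn_zero_left a
  obtain ⟨w', hw', -, hww'⟩ := hS.symm.exists_polar hQ bot_le hw (by simpa using hw0)
  obtain ⟨e, he, f, hf, hee, hff, hef, -, -, -⟩ := hS.exists_hyp hQ hU (x := 0) U.zero_mem (by simp)
  set u' := e + (-Q w') • f with hu'
  have hu'U : u' ∈ U := add_mem he (U.smul_mem _ hf)
  have hu'0 : u' ≠ 0 := fun h => by
    have := congrArg (polar Q f) h
    simp [hu', polar_comm Q f e, hef, polar_self, hff] at this
  have hd'' : Q (w' + u') = 0 := by
    rw [QuadraticMap.map_add (⇑Q), hS.orth w' hw' u' hu'U, hu', map_add_smul, hee, hff, hef]; ring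
  obtain ⟨e₂, he₂, he₂e, hue⟩ := hS.exists_singular_ne hQ hU hu'U hu'0
  refine hmove (w' + u') e₂ w hd'' (hCU' _ hd'' ⟨w', hw', u', hu'U, hu'0, rfl⟩) he₂e (hCU e₂ he₂ he₂e) hxx ?_ ?_
  · rw [polar_add_left, hS.orth w' hw' e₂ he₂, zero_add]; exact hue
  · rw [polar_add_left, polar_comm Q u' w, hS.orth w hw u' hu'U, add_zero, polar_comm, hww']
    exact one_ne_zero

/-- A root joining the members gives a Siegel element joining them. -/
theorem exists_siegel_of_root (hS : IsSplit Q W U) (hn : 5 ≤ Fintype.card ι) (hU : 5 ≤ Module.finrank F U)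
    (hsU : ∀ d ∈ U, ∀ b ∈ U, Q d = 0 → polar Q d b = 0 → SiegelIn Q M d b)
    {w u w' u' : ι → F} (hw : w ∈ W) (hu : u ∈ U) (hw' : w' ∈ W) (hu' : u' ∈ U)
    (hd : Q (w + u) = 0) (ha : Q (w' + u') = 0) (hda : polar Q (w + u) (w' + u') = 0)
    (hw0 : w ≠ 0) (hu0 : u ≠ 0) (huu : u' ∉ Submodule.span F {u}) (h : RootIn Q M (w + u) (w' + u')) :
    ∃ d ∈ U, d ≠ 0 ∧ Q d = 0 ∧ ∃ x ∈ W, x ≠ 0 ∧ SiegelIn Q M d x := by
  have finish : ∀ d ∈ U, d ≠ 0 → Q d = 0 → ∀ x ∈ W, x ≠ 0 → ∀ y ∈ U, Q (x + y) = 0 → polar Q d y = 0 →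
      RootIn Q M d (x + y) → ∃ d ∈ U, d ≠ 0 ∧ Q d = 0 ∧ ∃ x ∈ W, x ≠ 0 ∧ SiegelIn Q M d x := by
    intro d hd hd0 hdd x hx hx0 y hy hxy hdy hr
    refine ⟨d, hd, hd0, hdd, x, hx, hx0, ?_⟩
    have := siegelIn_add hQ hn hdd (a := x + y) (b := -y)
      (by rw [polar_add_right, polar_comm Q d x, hS.orth x hx d hd, hdy, add_zero])
      (by rw [polar_neg_right, hdy, neg_zero]) (siegelIn_of_rootIn hxy hr)
      (hsU d hd (-y) (neg_mem hy) hdd (by rw [polar_neg_right, hdy, neg_zero]))
    rwa [add_neg_cancel_right] at this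
  have key : ∀ w u w' u', w ∈ W → u ∈ U → w' ∈ W → u' ∈ U → Q (w + u) = 0 → Q (w' + u') = 0 →
      polar Q (w + u) (w' + u') = 0 → w ≠ 0 → RootIn Q M (w + u) (w' + u') → ∀ d ∈ U, d ≠ 0 → Q d = 0 →
      polar Q d u = 0 → polar Q d u' = 0 → u' ∉ Submodule.span F {d, u} →
      ∃ d ∈ U, d ≠ 0 ∧ Q d = 0 ∧ ∃ x ∈ W, x ≠ 0 ∧ SiegelIn Q M d x := by
    intro w u w' u' hw hu hw' hu' h1 h2 h3 hw0 hr d hd hd0 hdd hdu hdu' hout
    obtain ⟨b, hb, hbT, hb1⟩ := hS.exists_polar hQ
      (show Submodule.span F {d, u} ≤ U from Submodule.span_le.2 (by rintro z (rfl | rfl) <;> assumption)) hu' hout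
    have hdb : polar Q d b = 0 := hbT d (Submodule.subset_span (by simp))
    have hd1 : polar Q d (w + u) = 0 := by rw [polar_add_right, polar_comm Q d w, hS.orth w hw d hd, hdu, zero_add]
    have hd2 : polar Q d (w' + u') = 0 := by
      rw [polar_add_right, polar_comm Q d w', hS.orth w' hw' d hd, hdu', zero_add]
    have hd3 : polar Q (w + u) b = 0 := by
      rw [polar_add_left, hS.orth w hw b hb, hbT u (Submodule.subset_span (by simp)), zero_add]
    have hr' := rootIn_comm_siegel hQ hn hdd h1 h2 hdb h3 hd1 hd2 hd3 (hsU d hd b hb hdd hdb) hr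
    rw [polar_add_left, hS.orth w' hw' b hb, hb1, zero_add, smul_add] at hr'
    refine finish d hd hd0 hdd _ (W.smul_mem _ hw) (smul_ne_zero (neg_ne_zero.2 one_ne_zero) hw0) _ (U.smul_mem _ hu)
      (by rw [← smul_add, QuadraticMap.map_smul, h1, smul_zero]) (by rw [polar_smul_right, hdu, smul_zero]) hr'
  obtain ⟨d, hd', hd0, hdd, hdu, hdu'⟩ := exists_singular₂ hQ hU u u'
  by_cases hout : u' ∈ Submodule.span F {d, u}
  swap
  · exact key w u w' u' hw hu hw' hu' hd ha hda hw0 h d hd' hd0 hdd hdu hdu' hout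
  obtain ⟨s, t, hst⟩ := Submodule.mem_span_pair.1 hout
  have hs : s ≠ 0 := fun h0 => huu (Submodule.mem_span_singleton.2 ⟨t, by rw [← hst, h0, zero_smul, zero_add]⟩)
  -- the same root on another basis of its line
  set β := s⁻¹ with hβ
  set α := -(s⁻¹ * t) with hα
  have hd_eq : d = α • u + β • u' := by
    rw [← hst, hα, hβ, smul_add, smul_smul, smul_smul, inv_mul_cancel₀ hs]; module
  have hnew : RootIn Q M ((α • w + β • w') + d) ((-β⁻¹) • w + (-β⁻¹) • u) := by
    intro g hg
    refine h g fun z => ?_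
    rw [hg, hd_eq, show α • w + β • w' + (α • u + β • u') = α • (w + u) + β • (w' + u') by module,
      ← smul_add, polar_add_left, polar_smul_left, polar_smul_left, polar_smul_left]
    simp only [smul_eq_mul]
    have hb0 : β ≠ 0 := inv_ne_zero hs
    match_scalars <;> field_simp <;> ring
  have hc : (-β⁻¹) ≠ 0 := neg_ne_zero.2 (inv_ne_zero (inv_ne_zero hs))
  have q1 : Q ((α • w + β • w') + d) = 0 := by
    rw [hd_eq, show α • w + β • w' + (α • u + β • u') = α • (w + u) + β • (w' + u') by module,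
      map_add_smul, QuadraticMap.map_smul, hd, ha, polar_smul_left, hda]
    simp
  have q2 : Q ((-β⁻¹) • w + (-β⁻¹) • u) = 0 := by rw [← smul_add, QuadraticMap.map_smul, hd, smul_zero]
  have q3 : polar Q ((α • w + β • w') + d) ((-β⁻¹) • w + (-β⁻¹) • u) = 0 := by
    rw [hd_eq, show α • w + β • w' + (α • u + β • u') = α • (w + u) + β • (w' + u') by module, ← smul_add,
      polar_smul_right, polar_add_left, polar_smul_left, polar_smul_left, polar_self, hd, polar_comm Q (w' + u'), hda]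
    simp
  rcases eq_or_ne (α • w + β • w') 0 with h0 | h0
  · rw [h0, zero_add] at hnew
    exact finish d hd' hd0 hdd _ (W.smul_mem _ hw) (smul_ne_zero hc hw0) _ (U.smul_mem _ hu) q2
      (by rw [polar_smul_right, hdu, smul_zero]) hnew
  refine key _ d _ _ (add_mem (W.smul_mem _ hw) (W.smul_mem _ hw')) hd' (W.smul_mem _ hw) (U.smul_mem _ hu)
    q1 q2 q3 h0 hnew d hd' hd0 hdd (by rw [polar_self, hdd, smul_zero]) (by rw [polar_smul_right, hdu, smul_zero]) ?_
  rw [Set.pair_eq_singleton, Submodule.smul_mem_iff _ hc]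
  intro hu_d
  obtain ⟨c, hcu⟩ := Submodule.mem_span_singleton.1 hu_d
  have hc0 : c ≠ 0 := fun h0 => hu0 (by rw [← hcu, h0, zero_smul])
  exact huu (by
    rw [← hst, ← hcu, smul_smul, ← add_smul]
    exact Submodule.mem_span_singleton.2 ⟨(s + t * c) * c⁻¹, by
      rw [smul_smul, mul_assoc, inv_mul_cancel₀ hc0, mul_one]⟩)

end IsSplit

end CfsgLib.GeoOrth
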