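import Cfsg.Agent.GeoLib.OmegaNondeg

/-!
Full centres: two non-orthogonal ones give all of `Ω`. The stabiliser of a totally singular subspace is maximal.
-/

set_option autoImplicit false

open QuadraticMap

namespace CfsgLib.GeoOrth

open Matrix CfsgLib.GeoFull CfsgLib.Forms

variable {ι : Type} [Fintype ι] [DecidableEq ι] {F : Type*} [Field F] {Q : QuadraticForm F (ι → F)}
  {M : Subgroup (GL ι F)}

/-- All Siegel elements centred at `x` lie in `M`. -/
def FullCen (Q : QuadraticForm F (ι → F)) (M : Subgroup (GL ι F)) (x : ι → F) : Prop :=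
  ∀ a, polar Q x a = 0 → SiegelIn Q M x a

theorem fullCen_smul (c : F) {x : ι → F} (hx : FullCen Q M x) : FullCen Q M (c • x) := by
  intro a ha
  rcases eq_or_ne c 0 with rfl | hc
  · rw [zero_smul]; exact siegelIn_zero_left a
  rw [polar_smul_left, smul_eq_mul, mul_eq_zero] at ha
  exact siegelIn_smul' (hx (c • a) (by rw [polar_smul_right, ha.resolve_left hc, smul_zero]))

theorem fullCen_map {g : GL ι F} (hg : g ∈ M) (hg' : g ∈ Cfsg.Geo.omegaGL ⇑Q) {x : ι → F} (hx : FullCen Q M x) :
    FullCen Q M ((g : Matrix ι ι F) *ᵥ x) := by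
  intro a ha
  have := siegelIn_map hg hg' (hx (((g⁻¹ : GL ι F) : Matrix ι ι F) *ᵥ a) (by
    rw [← (polar_omega hg').2, mulVec_inv_cancel, ha]))
  rwa [mulVec_inv_cancel] at this

variable [Finite F]

theorem fullCen_move (hQ : (polarBilin Q).Nondegenerate) (hn : 5 ≤ Fintype.card ι) {d e x : ι → F}
    (hdd : Q d = 0) (hd : FullCen Q M d) (hee : Q e = 0) (he : FullCen Q M e) (hxx : Q x = 0)
    (hde : polar Q d e ≠ 0) (hdx : polar Q d x ≠ 0) : FullCen Q M x := by
  set k := polar Q d x with hk
  set e' := (k / polar Q d e) • e with he'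
  have hde' : polar Q d e' = k := by rw [he', polar_smul_right, smul_eq_mul, div_mul_cancel₀ _ hde]
  have hee' : Q e' = 0 := by rw [he', QuadraticMap.map_smul, hee, smul_zero]
  set a := k⁻¹ • (e' - x) with ha
  have hda : polar Q d a = 0 := by rw [ha, polar_smul_right, polar_sub_right, hde', ← hk, sub_self, smul_zero]
  obtain ⟨s, hs, hsv⟩ := exists_isSiegel hQ hn hdd hda
  have h := fullCen_map (hd a hda s hsv) hs (fullCen_smul (k / polar Q d e) he)
  rw [← he'] at h
  have hco : polar Q a e' - Q a * polar Q d e' = 0 := by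
    rw [hde', ha, polar_smul_left, polar_sub_left, QuadraticMap.map_smul, CfsgLib.Forms.map_sub', hee', hxx,
      polar_self, hee', polar_comm Q x e', smul_zero, smul_eq_mul, smul_eq_mul]
    field_simp
    ring
  rw [hsv, hco, hde', zero_smul, add_zero, ha, smul_smul, mul_inv_cancel₀ hdx, one_smul, sub_sub_cancel] at h
  exact h

/-- Two non-orthogonal full centres give everything. -/
theorem omega_le_of_fullCen (hQ : (polarBilin Q).Nondegenerate) (hn : 5 ≤ Fintype.card ι) {d e : ι → F}
    (hdd : Q d = 0) (hd : FullCen Q M d) (hee : Q e = 0) (he : FullCen Q M e) (hde : polar Q d e ≠ 0) :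
    Cfsg.Geo.omegaGL ⇑Q ≤ M := by
  refine omegaGL_le_of_roots hQ hn fun x a hxx haa hxa => rootIn_of_siegelIn haa ?_
  suffices FullCen Q M x from this a hxa
  by_cases hdx : polar Q d x = 0
  swap
  · exact fullCen_move hQ hn hdd hd hee he hxx hde hdx
  rcases eq_or_ne x 0 with rfl | hx0
  · exact fun a _ => siegelIn_zero_left a
  have hed : polar Q e d ≠ 0 := by rwa [polar_comm]
  by_cases hex : polar Q e x = 0
  swap
  · exact fullCen_move hQ hn hee he hdd hd hxx hed hex
  -- a singular vector orthogonal to neither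
  obtain ⟨y, hy, hyx, hyy⟩ : ∃ y, polar Q d y ≠ 0 ∧ polar Q x y ≠ 0 ∧ Q y = 0 := by
    obtain ⟨f, -, hff, hxf⟩ := exists_partner hQ (U := ⊥) (d := x) (mem_perp.2 fun u hu => by
      rw [(Submodule.mem_bot F).1 hu, polar_zero_right]) hxx (by simpa using hx0)
    by_cases hdf : polar Q d f = 0
    swap
    · exact ⟨f, hdf, by rw [hxf]; exact one_ne_zero, hff⟩
    refine ⟨e + f - polar Q e f • x, ?_, ?_, ?_⟩
    · rw [polar_sub_right, polar_add_right, polar_smul_right, hdf, hdx, smul_zero, add_zero, sub_zero]; exact hde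
    · rw [polar_sub_right, polar_add_right, polar_smul_right, polar_comm Q x e, hex, hxf, polar_self, hxx]; simp
    · rw [CfsgLib.Forms.map_sub', QuadraticMap.map_add (⇑Q), hee, hff, QuadraticMap.map_smul, hxx, polar_smul_right,
        polar_add_left, polar_comm Q f x, hxf, hex]
      simp
  exact fullCen_move hQ hn hyy (fullCen_move hQ hn hdd hd hee he hyy hde hy) hdd hd hxx
    (by rwa [polar_comm]) (by rwa [polar_comm])

/-- A full centre and a Siegel element moving it off its orthogonal space give everything. -/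
theorem omega_le_of_fullCen_siegel (hQ : (polarBilin Q).Nondegenerate) (hn : 5 ≤ Fintype.card ι) {v d a : ι → F}
    (hvv : Q v = 0) (hv : FullCen Q M v) (hdd : Q d = 0) (hvd : polar Q v d ≠ 0) (hda : polar Q d a = 0)
    (ha : Q a ≠ 0) (h : SiegelIn Q M d a) : Cfsg.Geo.omegaGL ⇑Q ≤ M := by
  obtain ⟨s, hs, hsv⟩ := exists_isSiegel hQ hn hdd hda
  refine omega_le_of_fullCen hQ hn hvv hv (e := (s : Matrix ι ι F) *ᵥ v) ?_ (fullCen_map (h s hsv) hs hv) ?_
  · rw [(polar_omega hs).1, hvv]
  · rw [hsv, polar_sub_right, polar_add_right, polar_smul_right, polar_smul_right, polar_self, hvv, smul_zero,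
      zero_add, polar_comm Q v a, polar_comm Q d v, smul_eq_mul, smul_eq_mul]
    rw [show (polar Q a v - Q a * polar Q v d) * polar Q v d - polar Q v d * polar Q a v =
      -(Q a * (polar Q v d * polar Q v d)) by ring]
    exact neg_ne_zero.2 (mul_ne_zero ha (mul_ne_zero hvd hvd))

/-- An anisotropic vector orthogonal to two given ones inside a large subspace. -/
theorem exists_aniso₂ (hQ : (polarBilin Q).Nondegenerate) (hn : 5 ≤ Fintype.card ι) (x y : ι → F) :
    ∃ a, Q a ≠ 0 ∧ polar Q x a = 0 ∧ polar Q y a = 0 := by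
  by_contra hall
  push Not at hall
  have hsing : ∀ a ∈ perp Q (Submodule.span F {x, y}), Q a = 0 := fun a ha => by
    by_contra h
    exact hall a h (by rw [polar_comm]; exact (mem_perp_pair.1 ha).1) (by rw [polar_comm]; exact (mem_perp_pair.1 ha).2)
  have h := two_finrank_le_of_singular hQ hsing
  have h2 := finrank_pair_le (F := F) x y
  rw [finrank_perp hQ, Module.finrank_fintype_fun_eq_card] at h
  omega

/-- The stabiliser of a totally singular subspace is maximal, unless it is contained in a larger one. -/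
theorem maximal_singular (hQ : (polarBilin Q).Nondegenerate) (hn : 13 ≤ Fintype.card ι) {W : Submodule F (ι → F)}
    (hW0 : W ≠ ⊥) (hW : ∀ w ∈ W, Q w = 0)
    (hcase : (∀ x ∈ perp Q W, Q x = 0 → x ∈ W) ∨ 2 * Module.finrank F W + 3 ≤ Fintype.card ι) :
    Cfsg.Geo.IsMaximalIn (Cfsg.Geo.omegaGL ⇑Q) (Cfsg.Geo.subspaceStabilizer W ⊓ Cfsg.Geo.omegaGL ⇑Q) := by
  have hn5 : 5 ≤ Fintype.card ι := by omega
  obtain ⟨w, hw, hw0⟩ := W.exists_mem_ne_zero_of_ne_bot hW0
  refine ⟨lt_of_le_not_ge inf_le_right fun hge => ?_, fun M hGM hMS => ?_⟩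
  · obtain ⟨d, -, hdd, hwd⟩ := exists_partner hQ (U := ⊥) (d := w) (mem_perp.2 fun u hu => by
      rw [(Submodule.mem_bot F).1 hu, polar_zero_right]) (hW w hw) (by simpa using hw0)
    obtain ⟨a, ha, hda, hwa⟩ := exists_aniso₂ hQ hn5 d w
    obtain ⟨g, hg, hgv⟩ := exists_isSiegel hQ hn5 hdd hda
    have h := ((hge hg).1 w).1 hw
    change (g : Matrix ι ι F) *ᵥ w ∈ W at h
    rw [hgv, polar_comm Q a w, hwa, polar_comm Q d w, hwd, mul_one, zero_sub, one_smul] at h
    have h' := hW _ (show a + Q a • d ∈ W by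
      have h'' := sub_mem hw h
      convert h'' using 1
      module)
    rw [map_add_smul, hdd, polar_comm Q a d, hda] at h'
    simp [ha] at h'
  by_cases hle' : M ≤ Cfsg.Geo.subspaceStabilizer W
  · exact Or.inl (le_antisymm (le_inf hle' hMS) hGM)
  refine Or.inr (le_antisymm hMS ?_)
  have hWW : ∀ x ∈ W, ∀ y ∈ W, polar Q x y = 0 := fun x hx y hy => polar_eq_zero_of_singular hW hx hy
  have hfull : ∀ d ∈ W, FullCen Q M d := by
    intro d hd a hda g hg
    obtain ⟨g', hg', hgv⟩ := exists_isSiegel hQ hn5 (hW d hd) hda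
    refine hGM ⟨mem_subspaceStabilizer_of_le fun z hz => ?_, by
      rwa [show g = g' from gl_ext fun x => by rw [hg, hgv]]⟩
    rw [hg, hWW d hd z hz, zero_smul, sub_zero]
    exact add_mem hz (W.smul_mem _ hd)
  obtain ⟨g, hg, hgn⟩ := SetLike.not_le_iff_exists.1 hle'
  obtain ⟨z, hz, hgz⟩ : ∃ z ∈ W, (g : Matrix ι ι F) *ᵥ z ∉ W := by
    by_contra h
    push Not at h
    exact hgn (mem_subspaceStabilizer_of_le h)
  set v := (g : Matrix ι ι F) *ᵥ z with hv
  have hvv : Q v = 0 := by rw [hv, (polar_omega (hMS hg)).1, hW z hz]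
  have hvC : FullCen Q M v := fullCen_map hg (hMS hg) (hfull z hz)
  by_cases hperp : v ∈ perp Q W
  swap
  · rw [mem_perp] at hperp
    push Not at hperp
    obtain ⟨x, hx, hvx⟩ := hperp
    exact omega_le_of_fullCen hQ hn5 hvv hvC (hW x hx) (hfull x hx) hvx
  rcases hcase with h | hdim
  · exact absurd (h v hperp hvv) hgz
  -- a partner in the orthogonal space
  obtain ⟨d, hd, hdd, hvd⟩ := exists_partner hQ hperp hvv hgz
  obtain ⟨a, ha, haa⟩ : ∃ a ∈ perp Q (W ⊔ Submodule.span F {d}), Q a ≠ 0 := by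
    by_contra hall
    push Not at hall
    have h := two_finrank_le_of_singular hQ hall
    have h2 := Submodule.finrank_add_le_finrank_add_finrank W (Submodule.span F {d})
    have h3 := finrank_span_singleton (K := F) (v := d) fun h => by rw [h, polar_zero_right] at hvd; exact zero_ne_one hvd
    rw [finrank_perp hQ, Module.finrank_fintype_fun_eq_card] at h
    omega
  have hda : polar Q d a = 0 := by
    rw [polar_comm]; exact mem_perp.1 ha d (Submodule.mem_sup_right (Submodule.mem_span_singleton_self d))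
  refine omega_le_of_fullCen_siegel hQ hn5 hvv hvC hdd (by rw [hvd]; exact one_ne_zero) hda haa ?_
  intro r hr
  obtain ⟨r', hr', hrv⟩ := exists_isSiegel hQ hn5 hdd hda
  refine hGM ⟨mem_subspaceStabilizer_of_le fun x hx => ?_, by
    rwa [show r = r' from gl_ext fun y => by rw [hr, hrv]]⟩
  rw [hr, show polar Q a x = 0 from mem_perp.1 ha x (Submodule.mem_sup_left hx),
    show polar Q d x = 0 from mem_perp.1 hd x hx]
  simpa using hx

end CfsgLib.GeoOrth
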