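import Cfsg.Agent.GeoLib.OmegaSplitMax

/-!
For a field with at most three elements the stabiliser of a hyperbolic plane is not maximal in `Ω`.
-/

set_option autoImplicit false

open QuadraticMap

namespace CfsgLib.GeoOrth

open Matrix CfsgLib.GeoFull CfsgLib.Forms

variable {ι : Type} [Fintype ι] [DecidableEq ι] {F : Type*} [Field F] [Fintype F] {Q : QuadraticForm F (ι → F)}

theorem not_maximal_plane (hQ : (polarBilin Q).Nondegenerate) (hn : 13 ≤ Fintype.card ι) (hq : Fintype.card F ≤ 3)
    {W : Submodule F (ι → F)} (hdim : Module.finrank F W = 2) (hW : Cfsg.Geo.IsNondegenerateOn (polar ⇑Q) W)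
    (hWp : Cfsg.Geo.IsPlusTypeOn (⇑Q) W) :
    ∃ K : Subgroup (GL ι F), Cfsg.Geo.subspaceStabilizer W ⊓ Cfsg.Geo.omegaGL ⇑Q < K ∧
      K < Cfsg.Geo.omegaGL ⇑Q := by
  have hn5 : 5 ≤ Fintype.card ι := by omega
  have hS := exists_split hQ hW
  have hsum := Submodule.finrank_add_eq_of_isCompl hS.compl
  rw [Module.finrank_fintype_fun_eq_card, hdim] at hsum
  obtain ⟨U, hUW, hUs, hUd⟩ := hWp
  obtain ⟨e, heU, he0⟩ := U.exists_mem_ne_zero_of_ne_bot fun h => by rw [h, finrank_bot, hdim] at hUd; omega
  have he := hUW heU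
  have hee : Q e = 0 := hUs e heU
  obtain ⟨f, hf, -, hff, hef⟩ := hS.symm.exists_partner hQ bot_le he hee (by simpa using he0) (by simp)
  set v := e + f with hv
  have hvW : v ∈ W := add_mem he hf
  have hQv : Q v = 1 := by rw [hv, QuadraticMap.map_add (⇑Q), hee, hff, hef]; ring
  have hli : LinearIndependent F ![e, f] := (LinearIndependent.pair_iff' he0).2 fun c hc => by
    rw [← hc, polar_smul_right, polar_self, hee] at hef
    simp at hef
  have hWspan : Submodule.span F {e, f} = W := Submodule.eq_of_le_of_finrank_le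
    (Submodule.span_le.2 (by rintro z (rfl | rfl) <;> assumption))
    (by rw [hdim, ← Matrix.range_cons_cons_empty e f ![], finrank_span_eq_card hli]; simp)
  obtain ⟨d, hd, hd0, hdd, -, -⟩ := IsSplit.exists_singular₂ hQ (U := perp Q W) (by omega) 0 0
  have hde : polar Q d e = 0 := mem_perp.1 hd e he
  have hdf : polar Q d f = 0 := mem_perp.1 hd f hf
  have hdv : polar Q d v = 0 := mem_perp.1 hd v hvW
  have hdW : d ∉ W := fun h => hd0 (Submodule.disjoint_def.1 hS.compl.disjoint d h hd)
  refine ⟨Cfsg.Geo.subspaceStabilizer (Submodule.span F {v}) ⊓ Cfsg.Geo.omegaGL ⇑Q,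
    lt_of_le_not_ge (fun g hg => ⟨?_, hg.2⟩) fun hge => ?_, lt_of_le_not_ge inf_le_right fun hge => ?_⟩
  · obtain ⟨hgQ, -⟩ := polar_omega hg.2
    refine mem_subspaceStabilizer_of_le fun z hz => ?_
    obtain ⟨c, rfl⟩ := Submodule.mem_span_singleton.1 hz
    rw [mulVec_smul]
    refine Submodule.smul_mem _ c ?_
    have hgv : (g : Matrix ι ι F) *ᵥ v ∈ W := (hg.1 v).1 hvW
    rw [← hWspan, Submodule.mem_span_pair] at hgv
    obtain ⟨α, β, hαβ⟩ := hgv
    have h1 : α * β = 1 := by
      rw [← hQv, ← hgQ v, ← hαβ, map_add_smul, QuadraticMap.map_smul, hee, hff, polar_smul_left, hef]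
      simp only [smul_eq_mul]; ring
    have hα : α ≠ 0 := fun h => by simp [h] at h1
    have hα2 : α * α = 1 := by
      have h := FiniteField.pow_card_sub_one_eq_one α hα
      have h2 := Fintype.one_lt_card (α := F)
      rcases (show Fintype.card F - 1 = 1 ∨ Fintype.card F - 1 = 2 by omega) with h3 | h3 <;> rw [h3] at h
      · rw [pow_one] at h; rw [h, one_mul]
      · rwa [pow_two] at h
    have hβα : β = α := mul_left_cancel₀ hα (h1.trans hα2.symm)
    rw [← hαβ, hβα, ← smul_add]
    exact Submodule.smul_mem _ α (Submodule.mem_span_singleton_self v)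
  · obtain ⟨g, hg, hgv⟩ := exists_isSiegel hQ hn5 hdd (a := e - f) (by rw [polar_sub_right, hde, hdf, sub_zero])
    have hmem : g ∈ Cfsg.Geo.subspaceStabilizer (Submodule.span F {v}) := by
      refine mem_subspaceStabilizer_of_le fun z hz => ?_
      obtain ⟨c, rfl⟩ := Submodule.mem_span_singleton.1 hz
      have h0 : polar Q (e - f) v = 0 := by
        rw [hv, polar_sub_left, polar_add_right, polar_add_right, polar_self, polar_self, hee, hff,
          polar_comm Q f e, hef]
        simp
      rw [hgv, polar_smul_right, polar_smul_right, h0, hdv]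
      simpa using Submodule.smul_mem _ c (Submodule.mem_span_singleton_self v)
    have h := ((hge ⟨hmem, hg⟩).1 e).1 he
    change (g : Matrix ι ι F) *ᵥ e ∈ W at h
    rw [hgv, hde, polar_sub_left, polar_self, hee, polar_comm Q f e, hef] at h
    simp at h
    exact hdW (by simpa using sub_mem he h)
  · obtain ⟨g, hg, hgv⟩ := exists_isSiegel hQ hn5 hdd hde
    have h := ((hge hg).1 v).1 (Submodule.mem_span_singleton_self v)
    change (g : Matrix ι ι F) *ᵥ v ∈ Submodule.span F {v} at h
    have hev : polar Q e v = 1 := by rw [hv, polar_add_right, polar_self, hee, hef]; simp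
    rw [hgv, hdv, hev, hee, mul_zero, sub_zero, one_smul, zero_smul, sub_zero] at h
    exact hdW ((Submodule.span_singleton_le_iff_mem _ _).2 hvW
      (by simpa using sub_mem h (Submodule.mem_span_singleton_self v)))

end CfsgLib.GeoOrth
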