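import Cfsg.Agent.GeoLib.OrthFull

/-!
Root elements inside `omegaGL`, generation of `omegaGL` by them, and their conjugates and sums.
-/

set_option autoImplicit false

open QuadraticMap

namespace CfsgLib.GeoOrth

open Matrix CfsgLib.GeoFull CfsgLib.Forms

variable {ι : Type} [Fintype ι] [DecidableEq ι] {F : Type*} [Field F] {Q : QuadraticForm F (ι → F)}

/-- `g` is the root element attached to `d` and `a`. -/
def IsRoot (Q : QuadraticForm F (ι → F)) (d a : ι → F) (g : GL ι F) : Prop :=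
  ∀ x, (g : Matrix ι ι F) *ᵥ x = x + polar Q a x • d - polar Q d x • a

/-- The root element of `d` and `a` lies in `M`. -/
def RootIn (Q : QuadraticForm F (ι → F)) (M : Subgroup (GL ι F)) (d a : ι → F) : Prop :=
  ∀ g : GL ι F, IsRoot Q d a g → g ∈ M

theorem isRoot_unique {d a : ι → F} {g h : GL ι F} (hg : IsRoot Q d a g) (hh : IsRoot Q d a h) : g = h :=
  gl_ext fun x => by rw [hg, hh]

theorem rootIn_of {M : Subgroup (GL ι F)} {d a : ι → F} {g : GL ι F} (hg : IsRoot Q d a g) (h : g ∈ M) :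
    RootIn Q M d a := fun g' hg' => by rw [isRoot_unique hg' hg]; exact h

theorem polar_omega {g : GL ι F} (hg : g ∈ Cfsg.Geo.omegaGL ⇑Q) :
    (∀ x, Q ((g : Matrix ι ι F) *ᵥ x) = Q x) ∧
      ∀ x y, polar Q ((g : Matrix ι ι F) *ᵥ x) ((g : Matrix ι ι F) *ᵥ y) = polar Q x y := by
  obtain ⟨x, -, rfl⟩ := mem_omegaGL.1 hg
  have e : ∀ v, Q ((((x : Cfsg.isometryGroup F ⇑Q) : GL ι F) : Matrix ι ι F) *ᵥ v) = Q v := fun v => by
    have := (isoEquiv Q x).2 v
    rwa [coe_isoEquiv, glEquiv_apply] at this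
  refine ⟨e, fun u v => ?_⟩
  simp only [polar, ← Matrix.mulVec_add]
  rw [e, e, e]

variable [Finite F]

theorem exists_isRoot (hQ : (polarBilin Q).Nondegenerate) (hn : 5 ≤ Fintype.card ι) {d a : ι → F} (hd : Q d = 0)
    (ha : Q a = 0) (hda : polar Q d a = 0) : ∃ g ∈ Cfsg.Geo.omegaGL ⇑Q, IsRoot Q d a g := by
  have had : polar Q a d = 0 := by rw [polar_comm, hda]
  obtain ⟨g, hg, hgv⟩ := exists_omegaGL (siegel_mem_commutator hQ hn hd had)
  refine ⟨g, hg, fun v => ?_⟩
  rw [hgv]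
  show siegel Q d a hd had v = _
  rw [siegel_apply, ha, zero_mul, sub_zero, polar_comm Q v a, polar_comm Q v d]

/-- A subgroup with all root elements contains `Ω`. -/
theorem omegaGL_le_of_roots (hQ : (polarBilin Q).Nondegenerate) (hn : 5 ≤ Fintype.card ι) {M : Subgroup (GL ι F)}
    (h : ∀ d a, Q d = 0 → Q a = 0 → polar Q d a = 0 → RootIn Q M d a) : Cfsg.Geo.omegaGL ⇑Q ≤ M := by
  intro g hg
  obtain ⟨x, hx, rfl⟩ := mem_omegaGL.1 hg
  rw [mem_Omega_iff] at hx
  have h1 : ((isoEquiv Q x : isom Q) : (ι → F) ≃ₗ[F] (ι → F)) ∈ rootGroup Q :=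
    commutator_le_rootGroup hQ (by rw [Module.finrank_fintype_fun_eq_card]; exact hn) hx
  suffices H : ∀ e ∈ rootGroup Q, ∀ g : GL ι F, (∀ v, (g : Matrix ι ι F) *ᵥ v = e v) → g ∈ M from
    H _ h1 _ fun v => by rw [coe_isoEquiv, glEquiv_apply]
  intro e he
  induction he using Subgroup.closure_induction with
  | mem y hy =>
    obtain ⟨d, a, hd, had, ha, rfl⟩ := hy
    intro g hg
    refine h d a hd ha (by rw [polar_comm, had]) g fun v => ?_
    rw [hg, siegel_apply, ha, zero_mul, sub_zero, polar_comm Q v a, polar_comm Q v d]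
  | one =>
    intro g hg
    rw [show g = 1 from gl_ext fun v => by rw [hg, Units.val_one, Matrix.one_mulVec]; rfl]
    exact one_mem M
  | mul y z _ _ hy hz =>
    intro g hg
    have hY : (glEquiv.symm y : GL ι F) ∈ M := hy _ fun v => by rw [← glEquiv_apply, MulEquiv.apply_symm_apply]
    have hZ : (glEquiv.symm z : GL ι F) ∈ M := hz _ fun v => by rw [← glEquiv_apply, MulEquiv.apply_symm_apply]
    rw [show g = glEquiv.symm y * glEquiv.symm z from gl_ext fun v => by
      rw [hg, ← glEquiv_apply, map_mul, MulEquiv.apply_symm_apply, MulEquiv.apply_symm_apply]]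
    exact mul_mem hY hZ
  | inv y _ hy =>
    intro g hg
    have hY : (glEquiv.symm y : GL ι F) ∈ M := hy _ fun v => by rw [← glEquiv_apply, MulEquiv.apply_symm_apply]
    rw [show g = (glEquiv.symm y)⁻¹ from gl_ext fun v => by
      rw [hg, ← glEquiv_apply, map_inv, MulEquiv.apply_symm_apply]]
    exact inv_mem hY

variable {M : Subgroup (GL ι F)}

omit [Finite F] in
theorem isRoot_conj {g : GL ι F} (hg : g ∈ Cfsg.Geo.omegaGL ⇑Q) {d a : ι → F} {r : GL ι F} (hr : IsRoot Q d a r) :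
    IsRoot Q ((g : Matrix ι ι F) *ᵥ d) ((g : Matrix ι ι F) *ᵥ a) (g * r * g⁻¹) := fun x => by
  conv_rhs => rw [← mulVec_inv_cancel g x, (polar_omega hg).2, (polar_omega hg).2]
  rw [Units.val_mul, Units.val_mul, ← Matrix.mulVec_mulVec, ← Matrix.mulVec_mulVec, hr, Matrix.mulVec_sub,
    Matrix.mulVec_add, Matrix.mulVec_smul, Matrix.mulVec_smul]

omit [Finite F] in
/-- Conjugation moves roots. -/
theorem rootIn_map {g : GL ι F} (hgM : g ∈ M) (hg : g ∈ Cfsg.Geo.omegaGL ⇑Q) {d a : ι → F} (h : RootIn Q M d a) :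
    RootIn Q M ((g : Matrix ι ι F) *ᵥ d) ((g : Matrix ι ι F) *ᵥ a) := by
  intro t ht
  have hc := isRoot_conj (inv_mem hg) ht
  rw [inv_mulVec_cancel, inv_mulVec_cancel, inv_inv] at hc
  have := mul_mem (mul_mem hgM (h _ hc)) (inv_mem hgM)
  simpa [mul_assoc] using this

/-- Roots of one centre add up on a totally singular space. -/
theorem rootIn_add (hQ : (polarBilin Q).Nondegenerate) (hn : 5 ≤ Fintype.card ι) {d a b : ι → F} (hd : Q d = 0)
    (ha : Q a = 0) (hb : Q b = 0) (hda : polar Q d a = 0) (hdb : polar Q d b = 0) (hab : polar Q a b = 0)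
    (h1 : RootIn Q M d a) (h2 : RootIn Q M d b) : RootIn Q M d (a + b) := by
  intro g hg
  obtain ⟨s, -, hs⟩ := exists_isRoot hQ hn hd ha hda
  obtain ⟨t, -, ht⟩ := exists_isRoot hQ hn hd hb hdb
  rw [show g = s * t from gl_ext fun x => by
    rw [hg, Units.val_mul, ← Matrix.mulVec_mulVec, ht, hs]
    simp only [polar_add_left, polar_add_right, polar_sub_right, polar_smul_right, polar_comm Q a d, hda, hdb, hab,
      polar_self, hd, smul_eq_mul]
    simp
    module]
  exact mul_mem (h1 s hs) (h2 t ht)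

omit [Finite F] in
theorem rootIn_swap {d a : ι → F} (h : RootIn Q M d a) : RootIn Q M a (-d) := fun g hg => h g fun x => by
  rw [hg, polar_neg_left]; module

/-- The commutator of two roots meeting in one pair. -/
theorem rootIn_comm (hQ : (polarBilin Q).Nondegenerate) (hn : 5 ≤ Fintype.card ι) {d a d' a' : ι → F}
    (hd : Q d = 0) (ha : Q a = 0) (hd' : Q d' = 0) (ha' : Q a' = 0) (e1 : polar Q d a = 0)
    (e3 : polar Q d' a' = 0) (hdd' : polar Q d d' = 0) (e4 : polar Q d a' = 0) (e2 : polar Q d' a = 0)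
    (h1 : RootIn Q M d a) (h2 : RootIn Q M d' a') : RootIn Q M d (-polar Q a' a • d') := by
  intro r hr
  obtain ⟨x, -, hx⟩ := exists_isRoot hQ hn hd ha e1
  obtain ⟨y, -, hy⟩ := exists_isRoot hQ hn hd' ha' e3
  have he : r * y * x = x * y := gl_ext fun z => by
    simp only [Units.val_mul, ← Matrix.mulVec_mulVec]
    rw [hr, hy, hy, hx, hx]
    simp only [polar_add_left, polar_add_right, polar_sub_right, polar_smul_right, polar_smul_left, polar_self,
      hd, ha, hd', ha', e1, e2, e3, e4, hdd', polar_comm Q a d, polar_comm Q a' d, polar_comm Q a' d',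
      polar_comm Q d' d, polar_comm Q a d', polar_comm Q a a', smul_eq_mul]
    simp
    module
  rw [show r = x * y * x⁻¹ * y⁻¹ by rw [← he]; group]
  exact mul_mem (mul_mem (mul_mem (h1 x hx) (h2 y hy)) (inv_mem (h1 x hx))) (inv_mem (h2 y hy))

end CfsgLib.GeoOrth
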