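import Cfsg.Agent.GeoLib.OmegaNondeg

/-!
The stabiliser of a non-degenerate subspace is maximal in `Ω`.
-/

set_option autoImplicit false

open QuadraticMap

namespace CfsgLib.GeoOrth

open Matrix CfsgLib.GeoFull CfsgLib.Forms

variable {ι : Type} [Fintype ι] [DecidableEq ι] {F : Type*} [Field F] [Finite F] {Q : QuadraticForm F (ι → F)}

namespace IsSplit

variable {W U : Submodule F (ι → F)} (hQ : (polarBilin Q).Nondegenerate)
include hQ

omit [Finite F] in
theorem mem_of_perp (hS : IsSplit Q W U) {x : ι → F} (h : ∀ u ∈ U, polar Q x u = 0) : x ∈ W := by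
  obtain ⟨w, hw, u, hu, rfl⟩ := hS.exists_decomp x
  have : u = 0 := hS.eq_zero hQ hu fun y hy => by
    have := h y hy
    rwa [polar_add_left, hS.orth w hw y hy, zero_add] at this
  rwa [this, add_zero]

theorem maximal (hS : IsSplit Q W U) (hn : 13 ≤ Fintype.card ι) (hW0 : W ≠ ⊥)
    (hle : Module.finrank F W ≤ Module.finrank F U)
    (hsw : ∀ g ∈ Cfsg.Geo.omegaGL ⇑Q, ¬ ∀ u ∈ U, (g : Matrix ι ι F) *ᵥ u ∈ W)
    (hW2 : Module.finrank F W = 2 → (∃ e ∈ W, e ≠ 0 ∧ Q e = 0) → 4 ≤ Nat.card F) :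
    Cfsg.Geo.IsMaximalIn (Cfsg.Geo.omegaGL ⇑Q) (Cfsg.Geo.subspaceStabilizer W ⊓ Cfsg.Geo.omegaGL ⇑Q) := by
  classical
  set Ω := Cfsg.Geo.omegaGL ⇑Q
  have hn5 : 5 ≤ Fintype.card ι := by omega
  have hsum : Module.finrank F W + Module.finrank F U = Fintype.card ι := by
    rw [Submodule.finrank_add_eq_of_isCompl hS.compl, Module.finrank_fintype_fun_eq_card]
  have hU : 5 ≤ Module.finrank F U := by omega
  refine ⟨lt_of_le_not_ge inf_le_right fun hge => ?_, fun M hGM hMS => ?_⟩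
  · obtain ⟨d, hd, hd0, hdd, -, -⟩ := exists_singular₂ hQ hU 0 0
    obtain ⟨w, hw, hw0⟩ := W.exists_mem_ne_zero_of_ne_bot hW0
    obtain ⟨z, hz, -, hwz⟩ := hS.symm.exists_polar hQ bot_le hw (by simpa using hw0)
    have hdw : polar Q d w = 0 := by rw [polar_comm]; exact hS.orth w hw d hd
    obtain ⟨g, hg, hgv⟩ := exists_isSiegel hQ hn5 hdd hdw
    have h := ((hge hg).1 z).1 hz
    change (g : Matrix ι ι F) *ᵥ z ∈ W at h
    rw [hgv, polar_comm Q d z, hS.orth z hz d hd, hwz, mul_zero, sub_zero, one_smul, zero_smul, sub_zero] at h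
    exact hd0 (Submodule.disjoint_def.1 hS.compl.disjoint d (by simpa using sub_mem h hz) hd)
  by_cases hle' : M ≤ Cfsg.Geo.subspaceStabilizer W
  · exact Or.inl (le_antisymm (le_inf hle' hMS) hGM)
  refine Or.inr (le_antisymm hMS ?_)
  -- the elements of the stabiliser
  have hsU : ∀ d ∈ U, ∀ b ∈ U, Q d = 0 → polar Q d b = 0 → SiegelIn Q M d b := by
    intro d hd b hb hdd hdb g hg
    obtain ⟨g', hg', hgv⟩ := exists_isSiegel hQ hn5 hdd hdb
    refine hGM ⟨mem_subspaceStabilizer_of_le fun z hz => ?_, by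
      rwa [show g = g' from gl_ext fun x => by rw [hg, hgv]]⟩
    rw [hg, polar_comm Q b z, hS.orth z hz b hb, polar_comm Q d z, hS.orth z hz d hd]
    simpa using hz
  have hsW : ∀ d ∈ W, ∀ b ∈ W, Q d = 0 → polar Q d b = 0 → SiegelIn Q M d b := by
    intro d hd b hb hdd hdb g hg
    obtain ⟨g', hg', hgv⟩ := exists_isSiegel hQ hn5 hdd hdb
    refine hGM ⟨mem_subspaceStabilizer_of_le fun z hz => ?_, by
      rwa [show g = g' from gl_ext fun x => by rw [hg, hgv]]⟩
    rw [hg]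
    exact sub_mem (add_mem hz (W.smul_mem _ hd)) (W.smul_mem _ hb)
  have hpW : ∀ w ∈ W, ∀ u ∈ U, ∀ (hw : Q w ≠ 0) (hu : Q u = Q w), ∀ g : GL ι F,
      (∀ x, (g : Matrix ι ι F) *ᵥ x = refl Q w hw (refl Q u (hu ▸ hw) x)) → g ∈ M := by
    intro w hw u hu hw0 huw g hg
    obtain ⟨g', hg', hgv⟩ := exists_pair hQ hw0 huw
    refine hGM ⟨mem_subspaceStabilizer_of_le fun z hz => ?_, by
      rwa [show g = g' from gl_ext fun x => by rw [hg, hgv]]⟩
    rw [hg, refl_apply (u := u), hS.orth z hz u hu, mul_zero, zero_smul, sub_zero, refl_apply]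
    exact sub_mem hz (W.smul_mem _ hw)
  have hpU : ∀ w ∈ U, ∀ u ∈ W, ∀ (hw : Q w ≠ 0) (hu : Q u = Q w), ∀ g : GL ι F,
      (∀ x, (g : Matrix ι ι F) *ᵥ x = refl Q w hw (refl Q u (hu ▸ hw) x)) → g ∈ M := by
    intro w hw u hu hw0 huw g hg
    obtain ⟨g', hg', hgv⟩ := exists_pair hQ hw0 huw
    refine hGM ⟨mem_subspaceStabilizer_of_le fun z hz => ?_, by
      rwa [show g = g' from gl_ext fun x => by rw [hg, hgv]]⟩
    have hz' : refl Q u (huw ▸ hw0) z ∈ W := by rw [refl_apply]; exact sub_mem hz (W.smul_mem _ hu)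
    rw [hg, refl_apply, hS.orth _ hz' w hw, mul_zero, zero_smul, sub_zero]
    exact hz'
  obtain ⟨g, hg, hgn⟩ := SetLike.not_le_iff_exists.1 hle'
  obtain ⟨hgQ, hgB⟩ := polar_omega (hMS hg)
  let gM : (ι → F) →ₗ[F] (ι → F) := Matrix.toLin' (g : Matrix ι ι F)
  have hgMv : ∀ v, gM v = (g : Matrix ι ι F) *ᵥ v := fun v => Matrix.toLin'_apply _ _
  have hgMi : Function.Injective gM := fun a b e => mulVec_injective_of_isUnit g.isUnit (by simpa [gM] using e)
  have hbig : ∀ Z : Submodule F (ι → F), Module.finrank F (Z.comap gM) ≤ Module.finrank F Z := fun Z => by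
    rw [(Submodule.equivMapOfInjective gM hgMi (Z.comap gM)).finrank_eq]
    exact Submodule.finrank_mono (Submodule.map_comap_le _ _)
  -- a mixed image
  obtain ⟨d₀, hd₀, hd₀s, hd₀U, hd₀W⟩ : ∃ d ∈ U, Q d = 0 ∧ gM d ∉ U ∧ gM d ∉ W := by
    by_contra hall
    push Not at hall
    have hside : ∀ d ∈ U, Q d = 0 → gM d ∈ U ∨ gM d ∈ W := fun d hd hdd => by
      by_cases h : gM d ∈ U
      · exact Or.inl h
      · exact Or.inr (hall d hd hdd h)
    have hlink : ∀ d ∈ U, ∀ d' ∈ U, Q d = 0 → Q d' = 0 → polar Q d d' = 0 → d ≠ 0 → d' ≠ 0 →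
        gM d ∈ U → gM d' ∈ U := by
      intro d hd d' hd' hdd hdd' hp hd0 hd'0 h
      refine (hside d' hd' hdd').resolve_right fun hW => ?_
      rcases hside (d + d') (add_mem hd hd') (by rw [QuadraticMap.map_add (⇑Q), hdd, hdd', hp]; ring) with h' | h'
      · rw [map_add] at h'
        exact hd'0 (hgMi ((Submodule.disjoint_def.1 hS.compl.disjoint _ hW
          ((Submodule.add_mem_iff_right _ h).1 h')).trans (map_zero gM).symm))
      · rw [map_add] at h'
        have h0 : gM d = 0 := Submodule.disjoint_def.1 hS.compl.disjoint _ ((Submodule.add_mem_iff_left _ hW).1 h') h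
        exact hd0 (hgMi (h0.trans (map_zero gM).symm))
    by_cases hex : ∃ d ∈ U, d ≠ 0 ∧ Q d = 0 ∧ gM d ∈ U
    · obtain ⟨d₁, hd₁, hd₁0, hd₁s, hd₁U⟩ := hex
      have hall' : ∀ a ∈ U, Q a = 0 → gM a ∈ U := by
        intro a ha haa
        rcases eq_or_ne a 0 with rfl | ha0
        · simp
        obtain ⟨f, hf, hf0, hff, hfd, hfa⟩ := exists_singular₂ hQ hU d₁ a
        exact hlink f hf a ha hff haa hfa hf0 ha0 (hlink d₁ hd₁ f hf hd₁s hff (by rw [polar_comm, hfd]) hd₁0 hf0 hd₁U)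
      have hUU : U ≤ U.comap gM := fun a ha => hS.le_of_singular hQ hU U.zero_mem (by simp)
        (fun a ha haa _ => hall' a ha haa) a ha (by simp)
      have hmap : U.map gM = U := Submodule.eq_of_le_of_finrank_le (Submodule.map_le_iff_le_comap.2 hUU)
        (by rw [← (Submodule.equivMapOfInjective gM hgMi U).finrank_eq])
      refine hgn (mem_subspaceStabilizer_of_le fun w hw => hS.mem_of_perp hQ fun u hu => ?_)
      obtain ⟨v, hv, rfl⟩ : u ∈ U.map gM := by rw [hmap]; exact hu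
      rw [hgMv, hgB]; exact hS.orth w hw v hv
    · push Not at hex
      refine hsw g (hMS hg) fun u hu => ?_
      rw [← hgMv]
      exact hS.le_of_singular hQ hU U.zero_mem (by simp) (Z := W.comap gM) (fun a ha haa _ => by
        rcases eq_or_ne a 0 with rfl | ha0
        · exact zero_mem _
        · exact hall a ha haa (hex a ha ha0 haa)) u hu (by simp)
  obtain ⟨w, hw, u, hu, hwu⟩ := hS.exists_decomp (gM d₀)
  have hw0 : w ≠ 0 := fun h => hd₀U (by rw [← hwu, h, zero_add]; exact hu)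
  have hu0 : u ≠ 0 := fun h => hd₀W (by rw [← hwu, h, add_zero]; exact hw)
  have hd₀0 : d₀ ≠ 0 := fun h => hd₀U (by rw [h, map_zero]; exact zero_mem _)
  -- the two sides
  obtain ⟨a₀, ha₀, ha₀s, hda₀, w', hw', u', hu', hwu', hside⟩ : ∃ a ∈ U, Q a = 0 ∧ polar Q d₀ a = 0 ∧
      ∃ w' ∈ W, ∃ u' ∈ U, w' + u' = gM a ∧ (u' ∉ Submodule.span F {u} ∨
        (5 ≤ Module.finrank F W ∧ w' ∉ Submodule.span F {w})) := by
    by_contra hall
    push Not at hall
    have hdim : Module.finrank F U ≤ Module.finrank F ↥(U ⊓ perp Q (Submodule.span F {d₀})) + 1 := by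
      have h1 := Submodule.finrank_sup_add_finrank_inf_eq U (perp Q (Submodule.span F {d₀}))
      have h2 := Submodule.finrank_le (U ⊔ perp Q (Submodule.span F {d₀}))
      rw [finrank_perp hQ, finrank_span_singleton hd₀0, Module.finrank_fintype_fun_eq_card] at h1
      rw [Module.finrank_fintype_fun_eq_card] at h2
      omega
    have hin : ∀ (Z : Submodule F (ι → F)), (∀ a ∈ U, Q a = 0 → polar Q d₀ a = 0 → gM a ∈ Z) →
        Module.finrank F U ≤ Module.finrank F Z + 1 := fun Z hZ => by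
      refine hdim.trans (Nat.add_le_add_right ((Submodule.finrank_mono (t := Z.comap gM) fun a ha => ?_).trans (hbig Z)) 1)
      exact hS.le_of_singular hQ hU hd₀ hd₀s hZ a ha.1
        (by rw [polar_comm]; exact mem_perp.1 ha.2 d₀ (Submodule.mem_span_singleton_self d₀))
    by_cases hW5 : 5 ≤ Module.finrank F W
    · have h := hin (Submodule.span F {w, u}) fun a ha haa hda => by
        obtain ⟨w', hw', u', hu', e⟩ := hS.exists_decomp (gM a)
        obtain ⟨h1, h2⟩ := hall a ha haa hda w' hw' u' hu' e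
        rw [← e]
        exact add_mem (Submodule.span_mono (by simp) (h2 hW5)) (Submodule.span_mono (by simp) h1)
      have := finrank_pair_le (F := F) w u
      omega
    · have h := hin (W ⊔ Submodule.span F {u}) fun a ha haa hda => by
        obtain ⟨w', hw', u', hu', e⟩ := hS.exists_decomp (gM a)
        obtain ⟨h1, -⟩ := hall a ha haa hda w' hw' u' hu' e
        rw [← e]
        exact add_mem (Submodule.mem_sup_left hw') (Submodule.mem_sup_right h1)
      have h' := Submodule.finrank_add_le_finrank_add_finrank W (Submodule.span F {u})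
      rw [finrank_span_singleton hu0] at h'
      omega
  have hroot : RootIn Q M (w + u) (w' + u') := by
    rw [hwu, hwu', hgMv, hgMv]
    exact rootIn_map hg (hMS hg) (rootIn_of_siegelIn ha₀s (hsU d₀ hd₀ a₀ ha₀ hd₀s hda₀))
  have q1 : Q (w + u) = 0 := by rw [hwu, hgMv, hgQ, hd₀s]
  have q2 : Q (w' + u') = 0 := by rw [hwu', hgMv, hgQ, ha₀s]
  have q3 : polar Q (w + u) (w' + u') = 0 := by rw [hwu, hwu', hgMv, hgMv, hgB, hda₀]
  rcases hside with h | ⟨hW5, h⟩
  · obtain ⟨d, hd, hd0, hdd, x, hx, hx0, hs⟩ := hS.exists_siegel_of_root hQ hn5 hU hsU hw hu hw' hu' q1 q2 q3 hw0 hu0 h hroot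
    exact hS.omega_le_of_siegel hQ hn5 hU hW2 hsU hsW hpW hd hd0 hdd hx hx0 hs
  · rw [add_comm w u, add_comm w' u'] at hroot q3
    rw [add_comm w u] at q1
    rw [add_comm w' u'] at q2
    obtain ⟨d, hd, hd0, hdd, x, hx, hx0, hs⟩ :=
      hS.symm.exists_siegel_of_root hQ hn5 hW5 hsW hu hw hu' hw' q1 q2 q3 hu0 hw0 h hroot
    exact hS.symm.omega_le_of_siegel hQ hn5 hW5 (fun h2 => absurd h2 (by omega)) hsW hsU hpU hd hd0 hdd hx hx0 hs

end IsSplit

theorem exists_split (hQ : (polarBilin Q).Nondegenerate) {W : Submodule F (ι → F)}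
    (hW : Cfsg.Geo.IsNondegenerateOn (polar ⇑Q) W) : IsSplit Q W (perp Q W) := by
  refine ⟨?_, fun w hw u hu => by rw [polar_comm]; exact mem_perp.1 hu w hw⟩
  have hdis : Disjoint W (perp Q W) := Submodule.disjoint_def.2 fun x hx hxp => by_contra fun h0 => by
    obtain ⟨y, hy, hxy⟩ := (hW x hx h0).2
    exact hxy (mem_perp.1 hxp y hy)
  refine ⟨hdis, codisjoint_iff.2 (Submodule.eq_top_of_finrank_eq ?_)⟩
  have h1 := Submodule.finrank_sup_add_finrank_inf_eq W (perp Q W)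
  have h2 := Submodule.finrank_le (W ⊔ perp Q W)
  have h3 := Submodule.finrank_le W
  rw [disjoint_iff.1 hdis, finrank_bot, finrank_perp hQ] at h1
  rw [Module.finrank_fintype_fun_eq_card] at h1 h2 h3 ⊢
  omega

omit [Finite F] in
theorem IsSplit.stabilizer_le {W U : Submodule F (ι → F)} (hQ : (polarBilin Q).Nondegenerate) (hS : IsSplit Q W U)
    {g : GL ι F} (hgW : g ∈ Cfsg.Geo.subspaceStabilizer W) (hg : g ∈ Cfsg.Geo.omegaGL ⇑Q) :
    g ∈ Cfsg.Geo.subspaceStabilizer U := by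
  refine mem_subspaceStabilizer_of_le fun u hu => hS.symm.mem_of_perp hQ fun w hw => ?_
  have hinv := (inv_mem hgW w).1 hw
  change ((g⁻¹ : GL ι F) : Matrix ι ι F) *ᵥ w ∈ W at hinv
  rw [← mulVec_inv_cancel g w, (polar_omega hg).2, polar_comm]
  exact hS.orth _ hinv u hu

/-- The maximality statement for either member. -/
theorem maximal_nondeg (hQ : (polarBilin Q).Nondegenerate) (hn : 13 ≤ Fintype.card ι) {W : Submodule F (ι → F)}
    (hW0 : W ≠ ⊥) (hW1 : W ≠ ⊤) (hW : Cfsg.Geo.IsNondegenerateOn (polar ⇑Q) W)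
    (hsw : 2 * Module.finrank F W ≠ Fintype.card ι ∨
      ∀ g ∈ Cfsg.Geo.omegaGL ⇑Q, ¬ ∀ w ∈ W, (g : Matrix ι ι F) *ᵥ w ∈ perp Q W)
    (h2 : ∀ X, (X = W ∨ X = perp Q W) → Module.finrank F X = 2 → (∃ e ∈ X, e ≠ 0 ∧ Q e = 0) → 4 ≤ Nat.card F) :
    Cfsg.Geo.IsMaximalIn (Cfsg.Geo.omegaGL ⇑Q) (Cfsg.Geo.subspaceStabilizer W ⊓ Cfsg.Geo.omegaGL ⇑Q) := by
  have hS := exists_split hQ hW
  have hsum : Module.finrank F W + Module.finrank F (perp Q W) = Fintype.card ι := by
    rw [Submodule.finrank_add_eq_of_isCompl hS.compl, Module.finrank_fintype_fun_eq_card]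
  have himg : ∀ (A B : Submodule F (ι → F)) (g : GL ι F), (∀ a ∈ A, (g : Matrix ι ι F) *ᵥ a ∈ B) →
      Module.finrank F A ≤ Module.finrank F B ∧
        (Module.finrank F A = Module.finrank F B → ∀ b ∈ B, ((g⁻¹ : GL ι F) : Matrix ι ι F) *ᵥ b ∈ A) := by
    intro A B g hAB
    have hi : Function.Injective (Matrix.toLin' (g : Matrix ι ι F)) := fun a b e =>
      mulVec_injective_of_isUnit g.isUnit (by simpa using e)
    have hle : A.map (Matrix.toLin' (g : Matrix ι ι F)) ≤ B := by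
      rintro _ ⟨a, ha, rfl⟩; simpa using hAB a ha
    have he := (Submodule.equivMapOfInjective _ hi A).finrank_eq
    refine ⟨he ▸ Submodule.finrank_mono hle, fun hd b hb => ?_⟩
    rw [← Submodule.eq_of_le_of_finrank_le hle (by rw [← he, hd])] at hb
    obtain ⟨a, ha, rfl⟩ := hb
    rw [Matrix.toLin'_apply, inv_mulVec_cancel]; exact ha
  by_cases hle : Module.finrank F W ≤ Module.finrank F (perp Q W)
  · refine hS.maximal hQ hn hW0 hle (fun g hg hgU => ?_) (h2 W (Or.inl rfl))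
    obtain ⟨hd, hinv⟩ := himg _ _ g hgU
    rcases hsw with hne | hns
    · omega
    · exact hns g⁻¹ (inv_mem hg) fun w hw => hinv (le_antisymm hd hle) w hw
  · push Not at hle
    have heq : Cfsg.Geo.subspaceStabilizer W ⊓ Cfsg.Geo.omegaGL ⇑Q =
        Cfsg.Geo.subspaceStabilizer (perp Q W) ⊓ Cfsg.Geo.omegaGL ⇑Q :=
      le_antisymm (fun g hg => ⟨hS.stabilizer_le hQ hg.1 hg.2, hg.2⟩)
        (fun g hg => ⟨hS.symm.stabilizer_le hQ hg.1 hg.2, hg.2⟩)
    rw [heq]
    refine hS.symm.maximal hQ hn (fun h => hW1 ?_) hle.le (fun g _ hgW => ?_) (h2 _ (Or.inr rfl))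
    · have := hS.compl.sup_eq_top
      rwa [h, sup_bot_eq] at this
    · exact absurd (himg _ _ g hgW).1 (by omega)

end CfsgLib.GeoOrth
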