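import Cfsg.Agent.GeoLib.OmegaParabolic

/-!
The unitary extension-field groups of `Ω`: a similitude `k` with `k² = t k - N` irreducible and adjoint `t - k`.
-/

set_option autoImplicit false

open QuadraticMap

namespace CfsgLib.GeoOrth

open Matrix CfsgLib.GeoFull CfsgLib.Forms

variable {ι : Type} [Fintype ι] [DecidableEq ι] {F : Type*} [Field F]

/-- A generator of a quadratic extension field on which the form is hermitian. -/
structure HermRoot (Q : QuadraticForm F (ι → F)) (kk : Matrix ι ι F) (t N : F) : Prop where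
  adj : ∀ x y, polar Q (kk *ᵥ x) y = t * polar Q x y - polar Q x (kk *ᵥ y)
  sq : ∀ x, kk *ᵥ (kk *ᵥ x) = t • (kk *ᵥ x) - N • x
  qk : ∀ x, Q (kk *ᵥ x) = N * Q x
  diag : ∀ x, polar Q (kk *ᵥ x) x = t * Q x
  irr : ∀ s : F, s * s + t * s + N ≠ 0

namespace HermRoot

variable {Q : QuadraticForm F (ι → F)} {kk : Matrix ι ι F} {t N : F}

theorem norm_ne_zero (hk : HermRoot Q kk t N) : N ≠ 0 := fun h => hk.irr 0 (by rw [h]; ring)

theorem kk_kk (hk : HermRoot Q kk t N) (x y : ι → F) : polar Q (kk *ᵥ x) (kk *ᵥ y) = N * polar Q x y := by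
  rw [hk.adj, hk.sq, polar_sub_right, polar_smul_right, polar_smul_right]
  simp [smul_eq_mul]

theorem flip (hk : HermRoot Q kk t N) (x y : ι → F) :
    polar Q y (kk *ᵥ x) = t * polar Q x y - polar Q x (kk *ᵥ y) := by rw [polar_comm, hk.adj]

/-- The `K`-span. -/
def kspan (kk : Matrix ι ι F) (a b : ι → F) : Submodule F (ι → F) :=
  Submodule.span F {a, kk *ᵥ a, b, kk *ᵥ b}

omit [DecidableEq ι] in
theorem left_mem (a b : ι → F) : a ∈ kspan kk a b := Submodule.subset_span (by simp)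
omit [DecidableEq ι] in
theorem left_mem' (a b : ι → F) : kk *ᵥ a ∈ kspan kk a b := Submodule.subset_span (by simp)
omit [DecidableEq ι] in
theorem right_mem (a b : ι → F) : b ∈ kspan kk a b := Submodule.subset_span (by simp)
omit [DecidableEq ι] in
theorem right_mem' (a b : ι → F) : kk *ᵥ b ∈ kspan kk a b := Submodule.subset_span (by simp)

omit [DecidableEq ι] in
theorem kspan_le {S : Submodule F (ι → F)} {a b : ι → F} (h1 : a ∈ S) (h2 : kk *ᵥ a ∈ S) (h3 : b ∈ S)
    (h4 : kk *ᵥ b ∈ S) : kspan kk a b ≤ S :=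
  Submodule.span_le.2 (by intro x hx; rcases hx with rfl | rfl | rfl | rfl <;> assumption)

theorem kspan_stable (hk : HermRoot Q kk t N) (a b : ι → F) : ∀ x ∈ kspan kk a b, kk *ᵥ x ∈ kspan kk a b := by
  intro x hx
  rw [kspan] at hx ⊢
  induction hx using Submodule.span_induction with
  | mem y hy =>
    rcases hy with rfl | rfl | rfl | rfl
    · exact left_mem' _ _
    · rw [hk.sq]; exact sub_mem (Submodule.smul_mem _ _ (left_mem' _ _)) (Submodule.smul_mem _ _ (left_mem _ _))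
    · exact right_mem' _ _
    · rw [hk.sq]; exact sub_mem (Submodule.smul_mem _ _ (right_mem' _ _)) (Submodule.smul_mem _ _ (right_mem _ _))
  | zero => rw [mulVec_zero]; exact zero_mem _
  | add y z _ _ hy hz => rw [mulVec_add]; exact add_mem hy hz
  | smul c y _ hy => rw [mulVec_smul]; exact Submodule.smul_mem _ _ hy

omit [DecidableEq ι] in
theorem bot_stable : ∀ x ∈ (⊥ : Submodule F (ι → F)), kk *ᵥ x ∈ (⊥ : Submodule F (ι → F)) := by
  intro x hx; rw [Submodule.mem_bot] at hx ⊢; rw [hx, mulVec_zero]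

/-- A stable subspace is a `K`-subspace. -/
theorem coeff_eq_zero (hk : HermRoot Q kk t N) {W : Submodule F (ι → F)} (hW : ∀ x ∈ W, kk *ᵥ x ∈ W) {b : ι → F}
    (hb : b ∉ W) {u w : F} (h : u • b + w • (kk *ᵥ b) ∈ W) : u = 0 ∧ w = 0 := by
  have key : (u * u + u * w * t + w * w * N) • b ∈ W := by
    have := sub_mem (Submodule.smul_mem _ (u + w * t) h) (Submodule.smul_mem _ w (hW _ h))
    rw [mulVec_add, mulVec_smul, mulVec_smul, hk.sq] at this
    convert this using 1
    module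
  have hz : u * u + u * w * t + w * w * N = 0 := by
    by_contra hne
    exact hb ((Submodule.smul_mem_iff _ hne).1 key)
  have hw : w = 0 := by
    by_contra hw
    exact hk.irr (u / w) (by field_simp; linear_combination hz)
  exact ⟨by subst hw; simpa using hz, hw⟩

/-- The two vectors are orthogonal over `K`. -/
def Orth (Q : QuadraticForm F (ι → F)) (kk : Matrix ι ι F) (a b : ι → F) : Prop :=
  polar Q a b = 0 ∧ polar Q a (kk *ᵥ b) = 0

theorem Orth.symm (hk : HermRoot Q kk t N) {a b : ι → F} (h : Orth Q kk a b) : Orth Q kk b a :=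
  ⟨by rw [polar_comm, h.1], by rw [hk.flip, h.1, h.2]; ring⟩

theorem orth_self (hk : HermRoot Q kk t N) {v : ι → F} (hv : Q v = 0) : polar Q v (kk *ᵥ v) = 0 := by
  rw [polar_comm, hk.diag, hv, mul_zero]

/-- The field commutes with `h`. -/
def Comm (kk : Matrix ι ι F) (h : GL ι F) : Prop :=
  ∀ x, (h : Matrix ι ι F) *ᵥ (kk *ᵥ x) = kk *ᵥ ((h : Matrix ι ι F) *ᵥ x)

variable [Finite F]

omit [DecidableEq ι] in
theorem finrank_kspan_le [DecidableEq ι] (a b : ι → F) : Module.finrank F (kspan kk a b) ≤ 4 := by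
  rw [kspan, Submodule.span_insert]
  refine (Submodule.finrank_add_le_finrank_add_finrank _ _).trans ?_
  have h1 : Module.finrank F (Submodule.span F {a}) ≤ 1 :=
    (finrank_span_le_card ({a} : Set (ι → F))).trans (by simp)
  have h2 := finrank_triple_le (F := F) (kk *ᵥ a) b (kk *ᵥ b)
  omega

variable (hQ : (polarBilin Q).Nondegenerate) (hn : 13 ≤ Fintype.card ι) (hk : HermRoot Q kk t N)
include hQ hn hk

omit hk in
theorem exists_isotropic_out (a b : ι → F) :
    ∃ z, Q z = 0 ∧ Orth Q kk z a ∧ Orth Q kk z b ∧ z ∉ kspan kk a b := by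
  obtain ⟨z, hz, hzQ, hzU⟩ := exists_singular_out hQ (kspan kk a b) (by
    have := finrank_kspan_le (kk := kk) a b
    omega)
  have := mem_perp.1 hz
  exact ⟨z, hzQ, ⟨this _ (left_mem _ _), this _ (left_mem' _ _)⟩,
    ⟨this _ (right_mem _ _), this _ (right_mem' _ _)⟩, hzU⟩

/-- The roots of one isotropic line commute with the field. -/
theorem root_comm {v : ι → F} (hv : Q v = 0) (c : F) :
    ∃ g ∈ Cfsg.Geo.omegaGL ⇑Q, IsRoot Q (kk *ᵥ v) (c • v) g ∧ Comm kk g := by
  have h0 := hk.orth_self hv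
  obtain ⟨g, hg, hgr⟩ := exists_isRoot hQ (by omega) (d := kk *ᵥ v) (a := c • v) (by rw [hk.qk, hv, mul_zero])
    (by rw [QuadraticMap.map_smul, hv, smul_zero]) (by rw [polar_smul_right, polar_comm, h0, smul_zero])
  refine ⟨g, hg, hgr, fun x => ?_⟩
  rw [hgr, hgr]
  simp only [mulVec_add, mulVec_sub, mulVec_smul, hk.sq, polar_smul_left, smul_eq_mul, hk.kk_kk,
    hk.adj v x]
  module

/-- The elements commuting with the field move `d` by an orthogonal isotropic vector, fixing `s`. -/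
theorem exists_move {d z s : ι → F} (hz : Q z = 0) (hzd : Orth Q kk z d) (hzs : Orth Q kk z s)
    (hd : d ∉ kspan kk z s) :
    ∃ h ∈ Cfsg.Geo.omegaGL ⇑Q, Comm kk h ∧ (h : Matrix ι ι F) *ᵥ d = d + z ∧
      (h : Matrix ι ι F) *ᵥ s = s := by
  set U := kspan kk z s ⊔ Submodule.span F {kk *ᵥ d}
  have hU : Module.finrank F U ≤ 5 := by
    refine (Submodule.finrank_add_le_finrank_add_finrank _ _).trans ?_
    have h1 : Module.finrank F (Submodule.span F {kk *ᵥ d}) ≤ 1 :=
      (finrank_span_le_card ({kk *ᵥ d} : Set (ι → F))).trans (by simp)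
    have := finrank_kspan_le (kk := kk) z s
    omega
  have hdU : d ∉ U := by
    intro h
    obtain ⟨p, hp, q, hq, e⟩ := Submodule.mem_sup.1 h
    obtain ⟨c, rfl⟩ := Submodule.mem_span_singleton.1 hq
    have : (1 : F) • d + (-c) • (kk *ᵥ d) ∈ kspan kk z s := by
      convert hp using 1
      linear_combination (norm := module) (-1 : F) • e
    exact one_ne_zero (hk.coeff_eq_zero (hk.kspan_stable z s) hd this).1
  obtain ⟨w₀, hw, hw0, hwd⟩ := exists_singular_ne hQ (U := U) (by omega) hdU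
  have hN := hk.norm_ne_zero
  obtain ⟨w, hwdef⟩ : ∃ w, w = (N * polar Q d w₀)⁻¹ • w₀ := ⟨_, rfl⟩
  have ha : N * polar Q w d = 1 := by
    rw [hwdef, polar_comm, polar_smul_right, smul_eq_mul]
    field_simp
  have hwU : ∀ x ∈ U, polar Q w x = 0 := fun x hx => by
    rw [hwdef, polar_smul_left, mem_perp.1 hw x hx, smul_zero]
  have hl : ∀ {x}, x ∈ kspan kk z s → x ∈ U := fun h => Submodule.mem_sup_left h
  have hwQ : Q w = 0 := by rw [hwdef, QuadraticMap.map_smul, hw0, smul_zero]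
  have hwz : Orth Q kk w z := ⟨hwU _ (hl (left_mem _ _)), hwU _ (hl (left_mem' _ _))⟩
  have hws : Orth Q kk w s := ⟨hwU _ (hl (right_mem _ _)), hwU _ (hl (right_mem' _ _))⟩
  have hkwd : polar Q (kk *ᵥ w) d = t * polar Q w d := by
    rw [hk.adj, hwU _ (Submodule.mem_sup_right (Submodule.mem_span_singleton_self _)), sub_zero]
  have hzw := hwz.symm hk
  have hkzd : polar Q (kk *ᵥ z) d = 0 := by rw [hk.adj, hzd.1, hzd.2]; ring
  have hkzs : polar Q (kk *ᵥ z) s = 0 := by rw [hk.adj, hzs.1, hzs.2]; ring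
  have hkws : polar Q (kk *ᵥ w) s = 0 := by rw [hk.adj, hws.1, hws.2]; ring
  have hkzz : polar Q (kk *ᵥ z) w = 0 := by rw [polar_comm, hwz.2]
  have hkzq : Q (kk *ᵥ z) = 0 := by rw [hk.qk, hz, mul_zero]
  have hkwq : Q (kk *ᵥ w) = 0 := by rw [hk.qk, hwQ, mul_zero]
  obtain ⟨r₁, h₁, e₁⟩ := exists_isRoot hQ (by omega) (d := N • z) (a := w)
    (by rw [QuadraticMap.map_smul, hz, smul_zero]) hwQ (by rw [polar_smul_left, hzw.1, smul_zero])
  obtain ⟨r₂, h₂, e₂⟩ := exists_isRoot hQ (by omega) (d := kk *ᵥ z) (a := kk *ᵥ w) hkzq hkwq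
    (by rw [hk.kk_kk, hzw.1, mul_zero])
  obtain ⟨r₃, h₃, e₃⟩ := exists_isRoot hQ (by omega) (d := (-t) • (kk *ᵥ z)) (a := w)
    (by rw [QuadraticMap.map_smul, hkzq, smul_zero]) hwQ (by rw [polar_smul_left, hkzz, smul_zero])
  have e : ∀ x, ((r₁ * r₂ * r₃ : GL ι F) : Matrix ι ι F) *ᵥ x = x + (N * polar Q w x) • z
      + (polar Q (kk *ᵥ w) x - t * polar Q w x) • (kk *ᵥ z)
      - (N * polar Q z x - t * polar Q (kk *ᵥ z) x) • w - polar Q (kk *ᵥ z) x • (kk *ᵥ w) := by
    intro x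
    simp only [Units.val_mul, ← mulVec_mulVec]
    rw [e₁, e₂, e₃]
    simp only [polar_add_right, polar_sub_right, polar_smul_right, polar_smul_left, smul_eq_mul,
      polar_self, hk.kk_kk, hz, hwQ, hkzq, hkwq, hzw.1, hzw.2, hwz.1, hwz.2, hkzz, hk.orth_self hwQ,
      hk.orth_self hz, polar_comm Q (kk *ᵥ w) w, polar_comm Q (kk *ᵥ w) z, polar_comm Q (kk *ᵥ z) z, nsmul_zero,
      mul_zero, add_zero, sub_zero, zero_smul]
    module
  refine ⟨r₁ * r₂ * r₃, mul_mem (mul_mem h₁ h₂) h₃, fun x => ?_, ?_, ?_⟩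
  · rw [e, e]
    simp only [mulVec_add, mulVec_sub, mulVec_smul, hk.sq, hk.kk_kk, hk.adj w x, hk.adj z x]
    module
  · rw [e, ha, hkwd, hkzd, hzd.1]
    module
  · rw [e, hws.1, hzs.1, hkws, hkzs]
    module

omit hk in
/-- An anisotropic vector orthogonal to a `K`-span. -/
theorem exists_aniso_perp (a b : ι → F) : ∃ x ∈ perp Q (kspan kk a b), Q x ≠ 0 := by
  by_contra hall
  push Not at hall
  have h := two_finrank_le_of_singular hQ hall
  have := finrank_kspan_le (kk := kk) a b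
  rw [finrank_perp hQ, Module.finrank_fintype_fun_eq_card] at h
  omega

/-- A Siegel element with anisotropic part moves the field. -/
theorem exists_bad {d a : ι → F} (hd : Q d = 0) (hd0 : d ≠ 0) (ha : Q a ≠ 0) (hda : Orth Q kk a d)
    {s : GL ι F} (hs : IsSiegel Q d a s) :
    ∃ v, Q v = 0 ∧ polar Q ((s : Matrix ι ι F) *ᵥ v) (kk *ᵥ ((s : Matrix ι ι F) *ᵥ (kk *ᵥ v))) ≠ 0 := by
  have haW : a ∉ kspan kk d 0 := by
    intro h
    refine ha ?_
    rw [kspan, mulVec_zero, Submodule.span_insert, Submodule.mem_sup] at h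
    obtain ⟨p, hp, q, hq, rfl⟩ := h
    obtain ⟨c, rfl⟩ := Submodule.mem_span_singleton.1 hp
    rw [Set.pair_eq_singleton, Set.pair_comm, Submodule.span_insert_zero, Submodule.mem_span_singleton] at hq
    obtain ⟨c', rfl⟩ := hq
    rw [QuadraticMap.map_add (⇑Q), QuadraticMap.map_smul, QuadraticMap.map_smul, hd, hk.qk, hd, polar_smul_left,
      polar_smul_right, hk.orth_self hd]
    simp
  set A := t • a - kk *ᵥ a with hA
  set D := t • d - kk *ᵥ d with hD
  have hp1 : a ∉ Submodule.span F {d, D, A} := by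
    intro h
    rw [Submodule.span_insert, Submodule.mem_sup] at h
    obtain ⟨p, hp, q, hq, e⟩ := h
    obtain ⟨c, rfl⟩ := Submodule.mem_span_singleton.1 hp
    obtain ⟨c₁, c₂, rfl⟩ := Submodule.mem_span_pair.1 hq
    have h' := hk.coeff_eq_zero (hk.kspan_stable d 0) haW (u := 1 - c₂ * t) (w := c₂) (by
      rw [show (1 - c₂ * t) • a + c₂ • (kk *ᵥ a) = (c + c₁ * t) • d + (-c₁) • (kk *ᵥ d) by
        linear_combination (norm := module) (-1 : F) • e]
      exact add_mem (Submodule.smul_mem _ _ (left_mem _ _)) (Submodule.smul_mem _ _ (left_mem' _ _)))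
    rw [h'.2, zero_mul, sub_zero] at h'
    exact one_ne_zero h'.1
  have hq1 : D ∉ Submodule.span F {d, a, A} := by
    intro h
    rw [Submodule.span_insert, Submodule.mem_sup] at h
    obtain ⟨p, hp, q, hq, e⟩ := h
    obtain ⟨c, rfl⟩ := Submodule.mem_span_singleton.1 hp
    obtain ⟨c₁, c₂, rfl⟩ := Submodule.mem_span_pair.1 hq
    have h' := hk.coeff_eq_zero (hk.kspan_stable d 0) haW (u := c₁ + c₂ * t) (w := -c₂) (by
      rw [show (c₁ + c₂ * t) • a + (-c₂) • (kk *ᵥ a) = (t - c) • d + (-1 : F) • (kk *ᵥ d) by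
        linear_combination (norm := module) e]
      exact add_mem (Submodule.smul_mem _ _ (left_mem _ _)) (Submodule.smul_mem _ _ (left_mem' _ _)))
    obtain ⟨h1, h2⟩ := h'
    rw [neg_eq_zero] at h2
    subst h2
    rw [zero_mul, add_zero] at h1
    subst h1
    simp only [zero_smul, add_zero] at e
    exact one_ne_zero (hk.coeff_eq_zero bot_stable (b := d) (by simpa using hd0) (u := c - t) (w := 1)
      (by rw [Submodule.mem_bot]; linear_combination (norm := module) e)).2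
  obtain ⟨p, hp, hap⟩ := exists_polar_eq_one hQ hp1
  obtain ⟨q, hq, hDq⟩ := exists_polar_eq_one hQ hq1
  rw [mem_perp_span] at hp hq
  have hp' : polar Q d p = 0 ∧ polar Q D p = 0 ∧ polar Q A p = 0 := by
    refine ⟨?_, ?_, ?_⟩ <;> (rw [polar_comm]; exact hp _ (by simp))
  have hq' : polar Q d q = 0 ∧ polar Q a q = 0 ∧ polar Q A q = 0 := by
    refine ⟨?_, ?_, ?_⟩ <;> (rw [polar_comm]; exact hq _ (by simp))
  -- make the solution isotropic
  set U := kspan kk d a ⊔ Submodule.span F {p + q}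
  have hU : Module.finrank F U ≤ 5 := by
    refine (Submodule.finrank_add_le_finrank_add_finrank _ _).trans ?_
    have h1 : Module.finrank F (Submodule.span F {p + q}) ≤ 1 :=
      (finrank_span_le_card ({p + q} : Set (ι → F))).trans (by simp)
    have := finrank_kspan_le (kk := kk) d a
    omega
  obtain ⟨e, he, hee, heU⟩ := exists_singular_out hQ U (by omega)
  obtain ⟨f, hf, hff, hef⟩ := exists_singular_ne hQ (U := U) (by omega) heU
  set v := (p + q) + e + (-Q (p + q) / polar Q e f) • f with hv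
  have hpe : polar Q (p + q) e = 0 := by
    rw [polar_comm]; exact mem_perp.1 he _ (Submodule.mem_sup_right (Submodule.mem_span_singleton_self _))
  have hpf : polar Q (p + q) f = 0 := by
    rw [polar_comm]; exact mem_perp.1 hf _ (Submodule.mem_sup_right (Submodule.mem_span_singleton_self _))
  have hvQ : Q v = 0 := by
    rw [hv, QuadraticMap.map_add (⇑Q), QuadraticMap.map_add (⇑Q), hee, QuadraticMap.map_smul, hff, hpe,
      polar_smul_right, polar_add_left, hpf]
    simp only [smul_eq_mul, mul_zero, zero_add, add_zero]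
    field_simp
    ring
  have hperp : ∀ x ∈ kspan kk d a, polar Q x v = polar Q x (p + q) := fun x hx => by
    rw [hv, polar_add_right, polar_add_right, polar_smul_right, polar_comm Q x e,
      mem_perp.1 he x (Submodule.mem_sup_left hx), polar_comm Q x f,
      mem_perp.1 hf x (Submodule.mem_sup_left hx)]
    simp
  have v1 : polar Q d v = 0 := by rw [hperp _ (left_mem _ _), polar_add_right, hp'.1, hq'.1, add_zero]
  have v2 : polar Q a v = 1 := by rw [hperp _ (right_mem _ _), polar_add_right, hap, hq'.2.1, add_zero]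
  have v3 : polar Q d (kk *ᵥ v) = 1 := by
    have h := hperp D (sub_mem (Submodule.smul_mem _ _ (left_mem _ _)) (left_mem' _ _))
    rw [polar_add_right Q D p q, hp'.2.1, hDq, zero_add, hD, polar_sub_left, polar_smul_left, hk.adj d v] at h
    rw [← h, smul_eq_mul]; ring
  have v4 : polar Q a (kk *ᵥ v) = 0 := by
    have h := hperp A (sub_mem (Submodule.smul_mem _ _ (right_mem _ _)) (right_mem' _ _))
    rw [polar_add_right Q A p q, hp'.2.2, hq'.2.2, zero_add, hA, polar_sub_left, polar_smul_left, hk.adj a v] at h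
    rw [← h, smul_eq_mul]; ring
  refine ⟨v, hvQ, ?_⟩
  rw [hs, hs, v1, v2, v3, v4]
  simp only [mul_zero, sub_zero, one_smul, zero_smul, zero_sub, mul_one]
  have e1 : polar Q v (kk *ᵥ v) = 0 := hk.orth_self hvQ
  have e2 : polar Q d (kk *ᵥ d) = 0 := hk.orth_self hd
  have e3 : polar Q d (kk *ᵥ a) = 0 := (hda.symm hk).2
  have e4 : polar Q v (kk *ᵥ d) = -1 := by rw [hk.flip, v1, v3]; ring
  have e5 : polar Q v (kk *ᵥ a) = t := by rw [hk.flip, v2, v4]; ring
  simp only [mulVec_add, mulVec_sub, mulVec_smul, hk.sq, polar_add_left, polar_add_right, polar_sub_right,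
    polar_smul_right, smul_eq_mul, e1, e2, e3, e4, e5, v1, v3, polar_self, hvQ, nsmul_zero]
  convert ha using 1
  ring

/-- An element moving the field moves some isotropic line. -/
theorem exists_moved (g : GL ι F)
    (hg : ∀ α β : F, ∃ x, (g : Matrix ι ι F) *ᵥ (kk *ᵥ x) ≠
      α • ((g : Matrix ι ι F) *ᵥ x) + β • (kk *ᵥ ((g : Matrix ι ι F) *ᵥ x))) :
    ∃ v, Q v = 0 ∧ v ≠ 0 ∧ (g : Matrix ι ι F) *ᵥ (kk *ᵥ v) ∉ kspan kk ((g : Matrix ι ι F) *ᵥ v) 0 := by
  by_contra! hcon
  have hpair : ∀ v, Q v = 0 → v ≠ 0 → ∃ α β : F,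
      (g : Matrix ι ι F) *ᵥ (kk *ᵥ v) = α • ((g : Matrix ι ι F) *ᵥ v) + β • (kk *ᵥ ((g : Matrix ι ι F) *ᵥ v)) := by
    intro v hv hv0
    have h := hcon v hv hv0
    simp only [kspan, mulVec_zero] at h
    rw [Set.insert_comm, Submodule.span_insert] at h
    obtain ⟨p, hp, q, hq, e⟩ := Submodule.mem_sup.1 h
    obtain ⟨b, rfl⟩ := Submodule.mem_span_singleton.1 hp
    rw [Set.pair_eq_singleton, Set.pair_comm, Submodule.span_insert_zero, Submodule.mem_span_singleton] at hq
    obtain ⟨a, rfl⟩ := hq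
    exact ⟨a, b, by rw [← e, add_comm]⟩
  choose α β hαβ using hpair
  -- orthogonal isotropic vectors have the same coefficients
  have hlink : ∀ v y (hv : Q v = 0) (hv0 : v ≠ 0) (hy : Q y = 0) (hy0 : y ≠ 0), Orth Q kk y v →
      y ∉ kspan kk v v → α v hv hv0 = α y hy hy0 ∧ β v hv hv0 = β y hy hy0 := by
    intro v y hv hv0 hy hy0 hyv hyU
    have hs0 : v + y ≠ 0 := fun h => hyU (by
      rw [eq_neg_of_add_eq_zero_right h]; exact neg_mem (left_mem _ _))
    have hs : Q (v + y) = 0 := by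
      rw [QuadraticMap.map_add (⇑Q), hv, hy, polar_comm, hyv.1]
      simp
    have e := hαβ (v + y) hs hs0
    rw [mulVec_add, mulVec_add, hαβ v hv hv0, hαβ y hy hy0, mulVec_add, mulVec_add] at e
    have hab := hαβ v hv hv0
    generalize α v hv hv0 = a, β v hv hv0 = b, α y hy hy0 = c, β y hy hy0 = d, α (v + y) hs hs0 = p,
      β (v + y) hs hs0 = q at e hab ⊢
    have hg0 : (g : Matrix ι ι F) *ᵥ v ≠ 0 := fun h => hv0 (by
      rw [← inv_mulVec_cancel g v, h, mulVec_zero])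
    have hgy : (g : Matrix ι ι F) *ᵥ y ∉ kspan kk ((g : Matrix ι ι F) *ᵥ v) ((g : Matrix ι ι F) *ᵥ v) := by
      intro h
      -- the `K`-line of `g v` is the image of that of `v`
      have h1 : (g : Matrix ι ι F) *ᵥ v ∈ (kspan kk v v).map (Matrix.toLin' (g : Matrix ι ι F)) :=
        ⟨v, left_mem _ _, rfl⟩
      have h2 : (g : Matrix ι ι F) *ᵥ (kk *ᵥ v) ∈ (kspan kk v v).map (Matrix.toLin' (g : Matrix ι ι F)) :=
        ⟨_, left_mem' _ _, rfl⟩
      have hb' : b ≠ 0 := by
        rintro rfl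
        rw [zero_smul, add_zero, ← mulVec_smul] at hab
        have := congrArg (fun x => ((g⁻¹ : GL ι F) : Matrix ι ι F) *ᵥ x) hab
        simp only [inv_mulVec_cancel] at this
        exact one_ne_zero (hk.coeff_eq_zero bot_stable (b := v) (by simpa using hv0) (u := -a) (w := 1)
          (by rw [Submodule.mem_bot, this]; module)).2
      have h3 : kk *ᵥ ((g : Matrix ι ι F) *ᵥ v) ∈ (kspan kk v v).map (Matrix.toLin' (g : Matrix ι ι F)) := by
        rw [← Submodule.smul_mem_iff _ hb', eq_sub_of_add_eq' hab.symm]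
        exact sub_mem h2 (Submodule.smul_mem _ _ h1)
      obtain ⟨x, hx, hxy⟩ := kspan_le h1 h3 h1 h3 h
      rw [Matrix.toLin'_apply] at hxy
      exact hyU (by rwa [← inv_mulVec_cancel g y, ← hxy, inv_mulVec_cancel])
    have hd : (c - p) • ((g : Matrix ι ι F) *ᵥ y) + (d - q) • (kk *ᵥ ((g : Matrix ι ι F) *ᵥ y)) ∈
        kspan kk ((g : Matrix ι ι F) *ᵥ v) ((g : Matrix ι ι F) *ᵥ v) := by
      rw [show (c - p) • ((g : Matrix ι ι F) *ᵥ y) + (d - q) • (kk *ᵥ ((g : Matrix ι ι F) *ᵥ y)) =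
        (p - a) • ((g : Matrix ι ι F) *ᵥ v) + (q - b) • (kk *ᵥ ((g : Matrix ι ι F) *ᵥ v)) by
          linear_combination (norm := module) e]
      exact add_mem (Submodule.smul_mem _ _ (left_mem _ _)) (Submodule.smul_mem _ _ (left_mem' _ _))
    obtain ⟨h1, h2⟩ := hk.coeff_eq_zero (hk.kspan_stable _ _) hgy hd
    rw [sub_eq_zero] at h1 h2
    subst h1 h2
    obtain ⟨h3, h4⟩ := hk.coeff_eq_zero bot_stable (b := (g : Matrix ι ι F) *ᵥ v) (by simpa using hg0)
      (u := a - c) (w := b - d) (by rw [Submodule.mem_bot]; linear_combination (norm := module) e)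
    exact ⟨sub_eq_zero.1 h3, sub_eq_zero.1 h4⟩
  obtain ⟨v₁, hv₁, -, -, hv₁'⟩ := exists_isotropic_out (kk := kk) hQ hn 0 0
  have hv₁0 : v₁ ≠ 0 := fun h => hv₁' (by rw [h]; exact zero_mem _)
  let a := α v₁ hv₁ hv₁0
  let b := β v₁ hv₁ hv₁0
  obtain ⟨x, hx⟩ := hg a b
  let L : (ι → F) →ₗ[F] (ι → F) :=
    (Matrix.toLin' (g : Matrix ι ι F)).comp (Matrix.toLin' kk) - a • Matrix.toLin' (g : Matrix ι ι F) -
      b • (Matrix.toLin' kk).comp (Matrix.toLin' (g : Matrix ι ι F))
  have hL : ∀ y, L y = (g : Matrix ι ι F) *ᵥ (kk *ᵥ y) - a • ((g : Matrix ι ι F) *ᵥ y) -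
      b • (kk *ᵥ ((g : Matrix ι ι F) *ᵥ y)) :=
    fun y => by simp [L, Matrix.toLin'_apply]
  have hker : perp Q ⊥ ≤ LinearMap.ker L := by
    refine perp_le_of_singular hQ (by simp; omega) fun e _ he he0 => ?_
    have he0' : e ≠ 0 := by simpa using he0
    obtain ⟨y, hy, hy1, hy2, hyU⟩ := exists_isotropic_out (kk := kk) hQ hn v₁ e
    have hy0 : y ≠ 0 := fun h => hyU (by rw [h]; exact zero_mem _)
    have l1 := hlink v₁ y hv₁ hv₁0 hy hy0 hy1 fun h =>
      hyU (kspan_le (left_mem _ _) (left_mem' _ _) (left_mem _ _) (left_mem' _ _) h)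
    have l2 := hlink e y he he0' hy hy0 hy2 fun h =>
      hyU (kspan_le (right_mem _ _) (right_mem' _ _) (right_mem _ _) (right_mem' _ _) h)
    rw [LinearMap.mem_ker, hL, hαβ e he he0', l2.1, l2.2, ← l1.1, ← l1.2]
    simp [a, b]
  have := hker (show x ∈ perp Q ⊥ from mem_perp.2 fun u hu => by
    rw [(Submodule.mem_bot F).1 hu, polar_zero_right])
  rw [LinearMap.mem_ker, hL, sub_sub, sub_eq_zero] at this
  exact hx this

variable {M : Subgroup (GL ι F)}

/-- A moved line gives the Siegel elements orthogonal to its `K`-span. -/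
theorem siegelIn_perp (hM : ∀ h ∈ Cfsg.Geo.omegaGL ⇑Q, Comm kk h → h ∈ M) {u₁ u₂ : ι → F} (h1 : Q u₁ = 0)
    (h2 : Q u₂ = 0) (h12 : polar Q u₂ u₁ = 0) (hu₁ : u₁ ≠ 0) (hout : u₂ ∉ kspan kk u₁ 0)
    (hr : ∀ c : F, RootIn Q M u₂ (c • u₁)) :
    ∀ a ∈ perp Q (kspan kk u₁ u₂), ∀ c : F, SiegelIn Q M u₂ (c • a) := by
  let Z : Submodule F (ι → F) :=
    { carrier := {a | polar Q u₂ a = 0 ∧ ∀ c : F, SiegelIn Q M u₂ (c • a)}
      zero_mem' := ⟨polar_zero_right Q u₂, fun c => by rw [smul_zero]; exact siegelIn_zero_right u₂⟩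
      add_mem' := fun {a b} ha hb => ⟨by rw [polar_add_right, ha.1, hb.1, add_zero], fun c => by
        rw [smul_add]
        exact siegelIn_add hQ (by omega) h2 (by rw [polar_smul_right, ha.1, smul_zero])
          (by rw [polar_smul_right, hb.1, smul_zero]) (ha.2 c) (hb.2 c)⟩
      smul_mem' := fun e a ha => ⟨by rw [polar_smul_right, ha.1, smul_zero], fun c => by
        rw [smul_smul]; exact ha.2 _⟩ }
  suffices perp Q (kspan kk u₁ u₂) ≤ Z from fun a ha => (this ha).2
  refine perp_le_of_singular hQ (by have := finrank_kspan_le (kk := kk) u₁ u₂; omega) fun z hz hzQ hzU => ?_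
  have hz' := mem_perp.1 hz
  have hu₂z : polar Q u₂ z = 0 := by rw [polar_comm]; exact hz' _ (right_mem _ _)
  have hu₁U : u₁ ∉ kspan kk z u₂ := by
    intro h
    rw [kspan, Submodule.span_insert, Submodule.mem_sup] at h
    obtain ⟨p, hp, q, hq, e⟩ := h
    obtain ⟨s, rfl⟩ := Submodule.mem_span_singleton.1 hp
    rw [Submodule.span_insert, Submodule.mem_sup] at hq
    obtain ⟨p', hp', q', hq', rfl⟩ := hq
    obtain ⟨r, rfl⟩ := Submodule.mem_span_singleton.1 hp'
    obtain ⟨c, d, rfl⟩ := Submodule.mem_span_pair.1 hq'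
    have hst := hk.coeff_eq_zero (hk.kspan_stable u₁ u₂) hzU (u := s) (w := r) (by
      rw [show s • z + r • (kk *ᵥ z) = u₁ - (c • u₂ + d • (kk *ᵥ u₂)) by rw [← e]; module]
      exact sub_mem (left_mem _ _) (add_mem (Submodule.smul_mem _ _ (right_mem _ _))
        (Submodule.smul_mem _ _ (right_mem' _ _))))
    obtain ⟨rfl, rfl⟩ := hst
    have hcd := hk.coeff_eq_zero (hk.kspan_stable u₁ 0) (b := u₂) hout (u := c) (w := d) (by
      rw [show c • u₂ + d • (kk *ᵥ u₂) = u₁ by rw [← e]; module]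
      exact left_mem _ _)
    exact hu₁ (by rw [← e, hcd.1, hcd.2]; module)
  obtain ⟨h, hhO, hhk, hh1, hh2⟩ := exists_move hQ hn hk hzQ
    ⟨hz' _ (left_mem _ _), hz' _ (left_mem' _ _)⟩ ⟨hz' _ (right_mem _ _), hz' _ (right_mem' _ _)⟩ hu₁U
  refine ⟨hu₂z, fun c => ?_⟩
  have hA := siegelIn_map (hM h hhO hhk) hhO (siegelIn_of_rootIn
    (by rw [QuadraticMap.map_smul, h1, smul_zero]) (hr c))
  rw [hh2, mulVec_smul, hh1] at hA
  have hB := siegelIn_of_rootIn (Q := Q) (M := M) (by rw [QuadraticMap.map_smul, h1, smul_zero]) (hr (-c))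
  have := siegelIn_add hQ (by omega) h2
    (by rw [polar_smul_right, polar_add_right, h12, hu₂z, add_zero, smul_zero])
    (by rw [polar_smul_right, h12, smul_zero]) hA hB
  rwa [show c • (u₁ + z) + (-c) • u₁ = c • z by module] at this

/-- A subgroup with the centraliser of the field and one element moving it contains `Ω`. -/
theorem omega_le (hM : ∀ h ∈ Cfsg.Geo.omegaGL ⇑Q, Comm kk h → h ∈ M) {g : GL ι F} (hgM : g ∈ M)
    (hgO : g ∈ Cfsg.Geo.omegaGL ⇑Q)
    (hg : ∀ α β : F, ∃ x, (g : Matrix ι ι F) *ᵥ (kk *ᵥ x) ≠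
      α • ((g : Matrix ι ι F) *ᵥ x) + β • (kk *ᵥ ((g : Matrix ι ι F) *ᵥ x))) :
    Cfsg.Geo.omegaGL ⇑Q ≤ M := by
  have hn5 : 5 ≤ Fintype.card ι := by omega
  -- the roots on a moved line
  have hroots : ∀ s ∈ M, s ∈ Cfsg.Geo.omegaGL ⇑Q → ∀ v, Q v = 0 → ∀ c : F,
      RootIn Q M ((s : Matrix ι ι F) *ᵥ (kk *ᵥ v)) (c • ((s : Matrix ι ι F) *ᵥ v)) := by
    intro s hs hsO v hv c
    obtain ⟨r, hrO, hr, hrk⟩ := root_comm hQ hn hk hv c
    rw [← mulVec_smul]
    exact rootIn_map hs hsO (rootIn_of hr (hM r hrO hrk))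
  -- a line with non-degenerate span
  obtain ⟨s, hsM, hsO, v, hv, hb⟩ : ∃ s ∈ M, s ∈ Cfsg.Geo.omegaGL ⇑Q ∧ ∃ v, Q v = 0 ∧
      polar Q ((s : Matrix ι ι F) *ᵥ v) (kk *ᵥ ((s : Matrix ι ι F) *ᵥ (kk *ᵥ v))) ≠ 0 := by
    obtain ⟨v₀, hv₀, hv₀0, hout⟩ := exists_moved hQ hn hk g hg
    set u₁ := (g : Matrix ι ι F) *ᵥ v₀ with hu₁
    set u₂ := (g : Matrix ι ι F) *ᵥ (kk *ᵥ v₀) with hu₂
    have h1 : Q u₁ = 0 := by rw [hu₁, (polar_omega hgO).1, hv₀]
    have h2 : Q u₂ = 0 := by rw [hu₂, (polar_omega hgO).1, hk.qk, hv₀, mul_zero]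
    have h12 : polar Q u₂ u₁ = 0 := by rw [hu₁, hu₂, (polar_omega hgO).2, polar_comm, hk.orth_self hv₀]
    have hu₁0 : u₁ ≠ 0 := fun h => hv₀0 (by rw [← inv_mulVec_cancel g v₀, ← hu₁, h, mulVec_zero])
    have hS := siegelIn_perp hQ hn hk hM h1 h2 h12 hu₁0 hout (hroots g hgM hgO v₀ hv₀)
    obtain ⟨a, ha, haQ⟩ := exists_aniso_perp (kk := kk) hQ hn u₁ u₂
    have ha' := mem_perp.1 ha
    obtain ⟨s, hsO, hs⟩ := exists_isSiegel hQ hn5 h2 (a := a)
      (by rw [polar_comm]; exact ha' _ (right_mem _ _))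
    have hS1 : SiegelIn Q M u₂ a := by simpa using hS a ha 1
    exact ⟨s, hS1 s hs, hsO, exists_bad hQ hn hk h2
      (fun h => hout (by rw [h]; exact zero_mem _)) haQ ⟨ha' _ (right_mem _ _), ha' _ (right_mem' _ _)⟩ hs⟩
  set u₁ := (s : Matrix ι ι F) *ᵥ v with hu₁
  set u₂ := (s : Matrix ι ι F) *ᵥ (kk *ᵥ v) with hu₂
  set b := polar Q u₁ (kk *ᵥ u₂) with hbdef
  have h1 : Q u₁ = 0 := by rw [hu₁, (polar_omega hsO).1, hv]
  have h2 : Q u₂ = 0 := by rw [hu₂, (polar_omega hsO).1, hk.qk, hv, mul_zero]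
  have h12 : polar Q u₂ u₁ = 0 := by rw [hu₁, hu₂, (polar_omega hsO).2, polar_comm, hk.orth_self hv]
  have h12' : polar Q u₁ u₂ = 0 := by rw [polar_comm, h12]
  have hb' : polar Q u₂ (kk *ᵥ u₁) = -b := by rw [hk.flip, h12', ← hbdef]; ring
  have hu₁0 : u₁ ≠ 0 := fun h => hb (by rw [hbdef, h, polar_zero_left])
  have hu₂0 : u₂ ≠ 0 := fun h => hb (by rw [hbdef, h, mulVec_zero, polar_zero_right])
  have hout : u₂ ∉ kspan kk u₁ 0 := by
    intro h
    refine hb ?_
    rw [hbdef, kspan, mulVec_zero, Submodule.span_insert, Submodule.mem_sup] at *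
    obtain ⟨p, hp, q, hq, e⟩ := h
    obtain ⟨c, rfl⟩ := Submodule.mem_span_singleton.1 hp
    rw [Set.pair_eq_singleton, Set.pair_comm, Submodule.span_insert_zero, Submodule.mem_span_singleton] at hq
    obtain ⟨c', rfl⟩ := hq
    rw [← e, mulVec_add, mulVec_smul, mulVec_smul, hk.sq]
    simp only [polar_add_right, polar_sub_right, polar_smul_right, hk.orth_self h1, polar_self, h1, smul_eq_mul,
      nsmul_zero]
    ring
  have hr := hroots s hsM hsO v hv
  have hS := siegelIn_perp hQ hn hk hM h1 h2 h12 hu₁0 hout hr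
  have hF : FullCen Q M u₂ := by
    intro a ha
    set γ := polar Q a u₁ / b with hγ
    set β := -polar Q a (kk *ᵥ u₁) / b with hβ
    set α := polar Q a (kk *ᵥ u₂) / b with hα
    set a' := a - α • u₁ - β • u₂ - γ • (kk *ᵥ u₂) with ha'
    have hmem : a' ∈ perp Q (kspan kk u₁ u₂) := by
      rw [kspan, mem_perp_span]
      intro u hu
      rcases hu with rfl | rfl | rfl | rfl
      · rw [ha']
        simp only [polar_sub_left, polar_smul_left, polar_self, h1, h12, smul_eq_mul, nsmul_zero]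
        rw [polar_comm Q (kk *ᵥ u₂) u₁, ← hbdef, hγ]
        field_simp
        ring
      · rw [ha']
        simp only [polar_sub_left, polar_smul_left, hk.orth_self h1, hb', hk.kk_kk, h12, smul_eq_mul]
        rw [hβ]
        field_simp
        ring
      · rw [ha']
        simp only [polar_sub_left, polar_smul_left, polar_self, h2, h12', smul_eq_mul, nsmul_zero]
        rw [polar_comm Q (kk *ᵥ u₂) u₂, hk.orth_self h2, polar_comm Q a u₂, ha]
        ring
      · rw [ha']
        simp only [polar_sub_left, polar_smul_left, hk.orth_self h2, polar_self, hk.qk, h2, smul_eq_mul,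
          mul_zero, nsmul_zero]
        rw [← hbdef, hα]
        field_simp
        ring
    have h22 : polar Q u₂ u₂ = 0 := by rw [polar_self, h2, nsmul_zero]
    have e0 : polar Q u₂ a' = 0 := by rw [polar_comm]; exact mem_perp.1 hmem _ (right_mem _ _)
    have e1 : polar Q u₂ (α • u₁) = 0 := by rw [polar_smul_right, h12, smul_zero]
    have e2 : polar Q u₂ (β • u₂) = 0 := by rw [polar_smul_right, h22, smul_zero]
    have e3 : polar Q u₂ (γ • (kk *ᵥ u₂)) = 0 := by rw [polar_smul_right, hk.orth_self h2, smul_zero]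
    have s1 : SiegelIn Q M u₂ (α • u₁) :=
      siegelIn_of_rootIn (by rw [QuadraticMap.map_smul, h1, smul_zero]) (hr α)
    have s2 : SiegelIn Q M u₂ (β • u₂) := fun r hr' => by
      rw [show r = 1 from gl_ext fun x => by
        rw [hr', QuadraticMap.map_smul, h2, polar_smul_left, Units.val_one, one_mulVec]; simp; module]
      exact one_mem M
    have s3 : SiegelIn Q M u₂ (γ • (kk *ᵥ u₂)) := by
      obtain ⟨r, hrO, hr', hrk⟩ := root_comm hQ hn hk h2 (-γ)
      refine siegelIn_of_rootIn (by rw [QuadraticMap.map_smul, hk.qk, h2, mul_zero, smul_zero])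
        (rootIn_of (g := r) (fun x => ?_) (hM r hrO hrk))
      rw [hr', polar_smul_left, polar_smul_left, smul_eq_mul, smul_eq_mul]
      module
    have s0 : SiegelIn Q M u₂ a' := by simpa using hS a' hmem 1
    have := siegelIn_add hQ hn5 h2 (by rw [polar_add_right, polar_add_right, e0, e1, e2]; simp) e3
      (siegelIn_add hQ hn5 h2 (by rw [polar_add_right, e0, e1, add_zero]) e2
        (siegelIn_add hQ hn5 h2 e0 e1 s0 s1) s2) s3
    rwa [show a' + α • u₁ + β • u₂ + γ • (kk *ᵥ u₂) = a by rw [ha']; module] at this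
  -- carried along to all singular vectors
  have hstep : ∀ a b, Q a = 0 → Q b = 0 → Orth Q kk b a → a ∉ kspan kk (b - a) 0 → FullCen Q M a →
      FullCen Q M b := by
    intro a b ha hb hba hout' hC
    obtain ⟨h, hhO, hhk, hh, -⟩ := exists_move hQ hn hk (d := a) (z := b - a) (s := 0)
      (by rw [CfsgLib.Forms.map_sub', ha, hb, hba.1]; simp)
      ⟨by rw [polar_sub_left, hba.1, polar_self, ha]; simp,
       by rw [polar_sub_left, hba.2, hk.orth_self ha, sub_zero]⟩
      ⟨polar_zero_right Q _, by rw [mulVec_zero, polar_zero_right]⟩ hout'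
    have := fullCen_map (hM h hhO hhk) hhO hC
    rwa [hh, add_sub_cancel] at this
  have hline : ∀ a b : ι → F, a ∈ kspan kk b 0 → ∃ c c' : F, a = c • b + c' • (kk *ᵥ b) := by
    intro a b h
    rw [kspan, mulVec_zero, Submodule.span_insert, Submodule.mem_sup] at h
    obtain ⟨p, hp, q, hq, e⟩ := h
    obtain ⟨c, rfl⟩ := Submodule.mem_span_singleton.1 hp
    rw [Set.pair_eq_singleton, Set.pair_comm, Submodule.span_insert_zero, Submodule.mem_span_singleton] at hq
    obtain ⟨c', rfl⟩ := hq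
    exact ⟨c, c', e.symm⟩
  have hall : ∀ e, Q e = 0 → e ≠ 0 → FullCen Q M e := by
    intro e he he0
    obtain ⟨y, hy, hy1, hy2, hyU⟩ := exists_isotropic_out (kk := kk) hQ hn u₂ e
    refine hstep y e hy he (hy2.symm hk) ?_ (hstep u₂ y h2 hy hy1 ?_ hF)
    · intro h
      obtain ⟨c, c', hc⟩ := hline _ _ h
      rw [mulVec_sub] at hc
      obtain ⟨h1', h3⟩ := hk.coeff_eq_zero (hk.kspan_stable u₂ e) hyU (u := 1 + c) (w := c') (by
        rw [show (1 + c) • y + c' • (kk *ᵥ y) = c • e + c' • (kk *ᵥ e) by linear_combination (norm := module) hc]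
        exact add_mem (Submodule.smul_mem _ _ (right_mem _ _)) (Submodule.smul_mem _ _ (right_mem' _ _)))
      rw [h3, eq_neg_of_add_eq_zero_right h1', zero_smul, add_zero] at hc
      exact he0 (by linear_combination (norm := module) hc)
    · intro h
      obtain ⟨c, c', hc⟩ := hline _ _ h
      rw [mulVec_sub] at hc
      obtain ⟨h1', h3⟩ := hk.coeff_eq_zero (hk.kspan_stable u₂ e) hyU (u := c) (w := c') (by
        rw [show c • y + c' • (kk *ᵥ y) = (1 + c) • u₂ + c' • (kk *ᵥ u₂) by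
          linear_combination (norm := module) (-1 : F) • hc]
        exact add_mem (Submodule.smul_mem _ _ (left_mem _ _)) (Submodule.smul_mem _ _ (left_mem' _ _)))
      exact hu₂0 (by rw [hc, h1', h3]; module)
  obtain ⟨f, -, hff, hf⟩ := exists_singular_ne hQ (U := ⊥) (by simp; omega) (a := u₂) (by simpa using hu₂0)
  exact omega_le_of_fullCen hQ hn5 h2 hF hff (hall f hff fun h => hf (by rw [h, polar_zero_right])) hf

/-- The group is strictly smaller. -/
theorem exists_out :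
    ∃ s ∈ Cfsg.Geo.omegaGL ⇑Q, ∀ α β : F, ∃ x, (s : Matrix ι ι F) *ᵥ (kk *ᵥ x) ≠
      α • ((s : Matrix ι ι F) *ᵥ x) + β • (kk *ᵥ ((s : Matrix ι ι F) *ᵥ x)) := by
  obtain ⟨d, hd, -, -, hdU⟩ := exists_isotropic_out (kk := kk) hQ hn 0 0
  obtain ⟨a, ha, haQ⟩ := exists_aniso_perp (kk := kk) hQ hn d d
  have ha' := mem_perp.1 ha
  obtain ⟨s, hsO, hs⟩ := exists_isSiegel hQ (by omega) hd (a := a)
    (by rw [polar_comm]; exact ha' _ (left_mem _ _))
  obtain ⟨v, hv, hb⟩ := exists_bad hQ hn hk hd (fun h => hdU (by rw [h]; exact zero_mem _)) haQ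
    ⟨ha' _ (left_mem _ _), ha' _ (left_mem' _ _)⟩ hs
  refine ⟨s, hsO, fun α β => ⟨v, fun h => hb ?_⟩⟩
  have hsv : Q ((s : Matrix ι ι F) *ᵥ v) = 0 := by rw [(polar_omega hsO).1, hv]
  rw [h, mulVec_add, mulVec_smul, mulVec_smul, hk.sq]
  simp only [polar_add_right, polar_sub_right, polar_smul_right, hk.orth_self hsv, polar_self, hsv, smul_eq_mul,
    nsmul_zero]
  ring

end HermRoot

end CfsgLib.GeoOrth
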