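import Cfsg.Agent.GeoLib.FullSL
import Cfsg.Agent.Forms.GeoBridge
import Cfsg.Agent.Forms.RootGroup

/-!
Root elements of an orthogonal group inside a subgroup of GL: the hull lemma, the criterion for
containing the special linear group, and the transvection made from two root elements of different forms.
-/

set_option autoImplicit false

open QuadraticMap

namespace CfsgLib.GeoOrth

open Matrix CfsgLib.GeoParabolic CfsgLib.GeoFull CfsgLib.Forms

variable {ι : Type} [Fintype ι] [DecidableEq ι] {F : Type*} [Field F]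
  {Q : QuadraticForm F (ι → F)} {M : Subgroup (GL ι F)}

/-- `M` contains the root element of the singular line `⟨d, a⟩` of `Q`. -/
def HasRoots (Q : QuadraticForm F (ι → F)) (M : Subgroup (GL ι F)) : Prop :=
  ∀ d a, Q d = 0 → Q a = 0 → polar Q d a = 0 → ∀ g : GL ι F,
    (∀ x, (g : Matrix ι ι F) *ᵥ x = x + polar Q a x • d - polar Q d x • a) → g ∈ M

theorem exists_root {d a : ι → F} (hd : Q d = 0) (ha : Q a = 0) (hda : polar Q d a = 0) :
    ∃ g ∈ Cfsg.Geo.specialLinear ι F,
      (∀ x, (g : Matrix ι ι F) *ᵥ x = x + polar Q a x • d - polar Q d x • a) ∧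
        ∀ x, Q ((g : Matrix ι ι F) *ᵥ x) = Q x := by
  have hdd : polar Q d d = 0 := by rw [polar_self, hd]; simp
  have haa : polar Q a a = 0 := by rw [polar_self, ha]; simp
  have had : polar Q a d = 0 := by rw [polar_comm, hda]
  obtain ⟨s, hsS, hs⟩ := GeoTransvection.exists_transvection d (polarBilin Q a) had
  obtain ⟨t, htS, ht⟩ := GeoTransvection.exists_transvection a (-polarBilin Q d) (by simp [hda])
  have e : ∀ x, ((s * t : GL ι F) : Matrix ι ι F) *ᵥ x = x + polar Q a x • d - polar Q d x • a := fun x => by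
    rw [Units.val_mul, ← mulVec_mulVec, hs, ht]
    simp [haa]
    abel
  refine ⟨s * t, mul_mem hsS htS, e, fun x => ?_⟩
  rw [e, sub_eq_add_neg, ← neg_smul, map_add_smul, map_add_smul, hd, ha, polar_add_left, polar_smul_left,
    polar_comm Q x d, polar_comm Q x a, hda, smul_eq_mul]
  ring

theorem root_formula_inv {d a : ι → F} (hd : Q d = 0) (ha : Q a = 0) (hda : polar Q d a = 0) {g : GL ι F}
    (hg : ∀ x, (g : Matrix ι ι F) *ᵥ x = x + polar Q a x • d - polar Q d x • a) (x : ι → F) :
    ((g⁻¹ : GL ι F) : Matrix ι ι F) *ᵥ x = x - polar Q a x • d + polar Q d x • a := by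
  apply mulVec_injective_of_isUnit g.isUnit
  show (g : Matrix ι ι F) *ᵥ _ = (g : Matrix ι ι F) *ᵥ _
  rw [mulVec_inv_cancel, hg]
  simp only [polar_add_right, polar_sub_right, polar_smul_right, polar_comm Q a d, hda, polar_self, hd, ha]
  simp
  abel

/-- A singular vector orthogonal to a small subspace and outside it. -/
theorem exists_singular_out [Finite F] (hQ : (polarBilin Q).Nondegenerate) (U : Submodule F (ι → F))
    (h : 2 * Module.finrank F U + 3 ≤ Fintype.card ι) : ∃ e ∈ perp Q U, Q e = 0 ∧ e ∉ U := by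
  obtain ⟨C, hC⟩ := U.exists_isCompl
  have h1 := Submodule.finrank_sup_add_finrank_inf_eq (perp Q U) C
  have h2 := Submodule.finrank_le (perp Q U ⊔ C)
  have h3 := Submodule.finrank_add_eq_of_isCompl hC
  rw [finrank_perp hQ] at h1
  rw [Module.finrank_fintype_fun_eq_card] at h1 h2 h3
  obtain ⟨e, he, he0, heQ⟩ := exists_singular Q (perp Q U ⊓ C) (by omega)
  exact ⟨e, he.1, heQ, fun heU => he0 (Submodule.disjoint_def.1 hC.disjoint e heU he.2)⟩

theorem exists_singular_ne [Finite F] (hQ : (polarBilin Q).Nondegenerate) {U : Submodule F (ι → F)}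
    (h : 2 * Module.finrank F U + 3 ≤ Fintype.card ι) {a : ι → F} (ha : a ∉ U) :
    ∃ e ∈ perp Q U, Q e = 0 ∧ polar Q a e ≠ 0 := by
  obtain ⟨e₀, he, he0, heU⟩ := exists_singular_out hQ U h
  exact exists_singular_polar hQ he he0 heU ha

/-- Singular vectors span the complement of a small subspace. -/
theorem perp_le_of_singular [Finite F] (hQ : (polarBilin Q).Nondegenerate) {U Z : Submodule F (ι → F)}
    (h : 2 * Module.finrank F U + 3 ≤ Fintype.card ι)
    (hZ : ∀ e ∈ perp Q U, Q e = 0 → e ∉ U → e ∈ Z) : perp Q U ≤ Z := by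
  have hall : ∀ e ∈ perp Q U, Q e = 0 → e ∈ Z := by
    intro e he he0
    by_cases heU : e ∈ U
    swap
    · exact hZ e he he0 heU
    obtain ⟨e₁, he₁, he₁0, he₁U⟩ := exists_singular_out hQ U h
    have hp : polar Q e e₁ = 0 := by rw [polar_comm]; exact mem_perp.1 he₁ e heU
    have h1 := hZ (e + e₁) (add_mem he he₁) (by rw [QuadraticMap.map_add (⇑Q), he0, he₁0, hp]; simp)
      (fun hc => he₁U (by simpa using sub_mem hc heU))
    simpa using sub_mem h1 (hZ e₁ he₁ he₁0 he₁U)
  intro x hx
  by_contra hxZ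
  obtain ⟨y, hy, hxy⟩ := exists_polar_eq_one hQ hxZ
  by_cases hyU : y ∈ U
  · exact one_ne_zero (hxy.symm.trans (mem_perp.1 hx y hyU))
  · obtain ⟨e, he, he0, hne⟩ := exists_singular_ne hQ h hyU
    exact hne (mem_perp.1 hy e (hall e he he0))

omit [Fintype ι] [DecidableEq ι] in
theorem not_mem_span_pair {v u d : ι → F} (hu : u ∉ Submodule.span F {v}) (hd : d ∉ Submodule.span F {v, u}) :
    u ∉ Submodule.span F {v, d} := by
  intro hc
  obtain ⟨s, t, e⟩ := Submodule.mem_span_pair.1 hc
  rcases eq_or_ne t 0 with rfl | ht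
  · exact hu (Submodule.mem_span_singleton.2 ⟨s, by rw [← e, zero_smul, add_zero]⟩)
  · refine hd (Submodule.mem_span_pair.2 ⟨-(t⁻¹ * s), t⁻¹, ?_⟩)
    rw [← e, smul_add, smul_smul, smul_smul, inv_mul_cancel₀ ht, one_smul, neg_smul]
    abel

theorem finrank_pair_le (x y : ι → F) : Module.finrank F (Submodule.span F ({x, y} : Set (ι → F))) ≤ 2 := by
  rw [← Matrix.range_cons_cons_empty x y ![]]
  exact (finrank_range_le_card (R := F) _).trans (by simp)

omit [Fintype ι] [DecidableEq ι] in
theorem mem_perp_pair {v u x : ι → F} :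
    x ∈ perp Q (Submodule.span F {v, u}) ↔ polar Q x v = 0 ∧ polar Q x u = 0 := by
  rw [mem_perp_span]; simp

/-- The hull lemma: a subspace closed under the moves by root elements fixing `v` contains `v`'s complement. -/
theorem hull [Finite F] (hQ : (polarBilin Q).Nondegenerate) (hn : 7 ≤ Fintype.card ι)
    {v u₀ : ι → F} (huv : u₀ ∉ Submodule.span F {v}) {Z : Submodule F (ι → F)}
    (hstep : ∀ u, (u = u₀ ∨ (u ∈ Z ∧ polar Q v u = 0)) → ∀ d a, Q d = 0 → Q a = 0 → polar Q d a = 0 →
      polar Q v d = 0 → polar Q v a = 0 → polar Q u d = 0 → polar Q u a ≠ 0 → d ∈ Z) :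
    perp Q (Submodule.span F {v}) ≤ Z := by
  have hdim : ∀ x y : ι → F, 2 * Module.finrank F (Submodule.span F ({x, y} : Set (ι → F))) + 3 ≤ Fintype.card ι := by
    intro x y
    have := finrank_pair_le x y
    omega
  have key : ∀ u, (u = u₀ ∨ (u ∈ Z ∧ polar Q v u = 0)) → u ∉ Submodule.span F {v} →
      perp Q (Submodule.span F {v, u}) ≤ Z := by
    intro u hu huv'
    refine perp_le_of_singular hQ (hdim v u) fun d hd hd0 hdU => ?_
    rw [mem_perp_pair] at hd
    obtain ⟨a, ha, ha0, hua⟩ := exists_singular_ne hQ (hdim v d) (not_mem_span_pair huv' hdU)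
    rw [mem_perp_pair] at ha
    exact hstep u hu d a hd0 ha0 (by rw [polar_comm]; exact ha.2) (by rw [polar_comm]; exact hd.1)
      (by rw [polar_comm]; exact ha.1) (by rw [polar_comm]; exact hd.2) hua
  obtain ⟨d, hd, hd0, hdU⟩ := exists_singular_out hQ _ (hdim v u₀)
  have hdv : d ∉ Submodule.span F {v} := fun hc => hdU (Submodule.span_mono (by simp) hc)
  have hdZ : d ∈ Z := key u₀ (Or.inl rfl) huv hd
  have hvd : polar Q v d = 0 := by rw [polar_comm]; exact (mem_perp_pair.1 hd).1
  have h1 := key d (Or.inr ⟨hdZ, hvd⟩) hdv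
  obtain ⟨d', hd', hd'0, hd'U⟩ := exists_singular_out hQ _ (hdim v d)
  have hd'v : d' ∉ Submodule.span F {v} := fun hc => hd'U (Submodule.span_mono (by simp) hc)
  have h2 := key d' (Or.inr ⟨h1 hd', by rw [polar_comm]; exact (mem_perp_pair.1 hd').1⟩) hd'v
  obtain ⟨y, hy, hy1⟩ := exists_polar_eq_one hQ hd'U
  rw [mem_perp_pair] at hy
  intro x hx
  have hxv := mem_perp.1 hx v (Submodule.mem_span_singleton_self v)
  have e1 : polar Q x d' • y ∈ Z := Z.smul_mem _ (h1 (mem_perp_pair.2 hy))
  have e2 : x - polar Q x d' • y ∈ Z := h2 (mem_perp_pair.2 ⟨by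
      rw [polar_sub_left, polar_smul_left, hxv, hy.1, smul_zero, sub_zero],
    by rw [polar_sub_left, polar_smul_left, polar_comm Q y, hy1, smul_eq_mul, mul_one, sub_self]⟩)
  simpa using add_mem e1 e2

/-- A transvection with functional outside its own centre gives all transvections. -/
theorem specialLinear_le_of_tv [Finite F] [Nontrivial ι] (hQ : (polarBilin Q).Nondegenerate)
    (hn : 7 ≤ Fintype.card ι) (hroots : HasRoots Q M) {v u : ι → F} (hv : v ≠ 0) (huv : polar Q u v = 0)
    (hu : u ∉ Submodule.span F {v}) (hM : HasTv M v (polarBilin Q u)) :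
    Cfsg.Geo.specialLinear ι F ≤ M := by
  let Z : Submodule F (ι → F) :=
    { carrier := {z | polar Q z v = 0 ∧ ∀ c : F, HasTv M v (c • polarBilin Q z)}
      add_mem' := fun {a b} ha hb => ⟨by rw [polar_add_left, ha.1, hb.1, add_zero], fun c => by
        rw [map_add, smul_add]
        exact hasTv_add (by simp [ha.1]) (by simp [hb.1]) (ha.2 c) (hb.2 c)⟩
      zero_mem' := ⟨polar_zero_left Q v, fun c => by rw [map_zero, smul_zero]; exact hasTv_zero v⟩
      smul_mem' := fun k z hz => ⟨by rw [polar_smul_left, hz.1, smul_zero], fun c => by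
        rw [map_smul, smul_smul]; exact hz.2 _⟩ }
  have hZ : perp Q (Submodule.span F {v}) ≤ Z := by
    refine hull hQ hn hu ?_
    intro w hw d a hd ha hda hvd hva hwd hwa
    have hwv : polar Q w v = 0 ∧ HasTv M v (polarBilin Q w) := by
      rcases hw with rfl | ⟨hwZ, -⟩
      · exact ⟨huv, hM⟩
      · exact ⟨hwZ.1, by simpa using hwZ.2 1⟩
    refine ⟨by rw [polar_comm]; exact hvd, fun c => ?_⟩
    set k := c / polar Q w a
    have hkd : Q (k • d) = 0 := by rw [QuadraticMap.map_smul, hd, smul_zero]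
    have hkda : polar Q (k • d) a = 0 := by rw [polar_smul_left, hda, smul_zero]
    obtain ⟨s, -, hs, -⟩ := exists_root hkd ha hkda
    have hsv : (s : Matrix ι ι F) *ᵥ v = v := by
      rw [hs, polar_smul_left, polar_comm Q a, hva, polar_comm Q d, hvd]; simp
    have h1 := hasTv_conj (hroots _ _ hkd ha hkda s hs) hwv.2
    rw [hsv] at h1
    have e : (polarBilin Q w).comp (Matrix.toLin' ((s⁻¹ : GL ι F) : Matrix ι ι F)) - polarBilin Q w =
        c • polarBilin Q d := LinearMap.ext fun x => by
      show polar Q w (((s⁻¹ : GL ι F) : Matrix ι ι F) *ᵥ x) - polar Q w x = c * polar Q d x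
      rw [root_formula_inv hkd ha hkda hs, polar_add_right, polar_sub_right, polar_smul_right, polar_smul_right,
        polar_smul_right, polar_smul_left, hwd]
      simp only [smul_eq_mul, k]
      field_simp
      ring
    rw [← e]
    refine hasTv_sub ?_ (by simpa using hwv.1) h1 hwv.2
    show polar Q w (((s⁻¹ : GL ι F) : Matrix ι ι F) *ᵥ v) = 0
    rw [root_formula_inv hkd ha hkda hs, polar_smul_left, polar_comm Q a, hva, polar_comm Q d, hvd]
    simpa using hwv.1
  have hfull : v ∈ fullSub M := by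
    intro φ hφ
    obtain ⟨z, hz⟩ := exists_dual_vec hQ φ
    have hmem : z ∈ Z := hZ (mem_perp_span.2 (by simpa [hz] using hφ))
    rw [show φ = (1 : F) • polarBilin Q z from LinearMap.ext fun x => by simp [hz]]
    exact hmem.2 1
  refine specialLinear_le_of_fullSub (eq_top_iff.2 fun x _ => ?_)
  have hmove : ∀ w ∈ fullSub M, ∀ d a, Q d = 0 → Q a = 0 → polar Q d a = 0 → polar Q w d = 0 →
      polar Q w a ≠ 0 → d ∈ fullSub M := by
    intro w hw d a hd ha hda hwd hwa
    obtain ⟨s, -, hs, -⟩ := exists_root hd ha hda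
    have h1 : (s : Matrix ι ι F) *ᵥ w ∈ fullSub M := full_map (hroots d a hd ha hda s hs) hw
    rw [hs, polar_comm Q d w, hwd, zero_smul, sub_zero] at h1
    have h2 := (fullSub M).sub_mem h1 hw
    rw [add_sub_cancel_left, polar_comm] at h2
    exact ((fullSub M).smul_mem_iff hwa).1 h2
  have htop := hull hQ hn (v := 0) (u₀ := v) (Z := fullSub M)
    (by simpa [Submodule.span_zero_singleton] using hv) (fun w hw d a hd ha hda _ _ hwd hwa =>
      hmove w (hw.elim (fun e => e ▸ hfull) (·.1)) d a hd ha hda hwd hwa)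
  exact htop (mem_perp_span.2 (by simp))

/-- In odd characteristic one transvection is enough. -/
theorem specialLinear_le_of_tv' [Finite F] [Nontrivial ι] (h2 : (2 : F) ≠ 0) (hQ : (polarBilin Q).Nondegenerate)
    (hn : 7 ≤ Fintype.card ι) (hroots : HasRoots Q M) {v u : ι → F} (hv : v ≠ 0) (hu : u ≠ 0)
    (huv : polar Q u v = 0) (hM : HasTv M v (polarBilin Q u)) :
    Cfsg.Geo.specialLinear ι F ≤ M := by
  by_cases hmem : u ∈ Submodule.span F {v}
  swap
  · exact specialLinear_le_of_tv hQ hn hroots hv huv hmem hM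
  obtain ⟨c, rfl⟩ := Submodule.mem_span_singleton.1 hmem
  have hc : c ≠ 0 := fun h => hu (by rw [h, zero_smul])
  have hvv : polar Q v v = 0 := by
    rw [polar_smul_left, smul_eq_mul] at huv
    exact (mul_eq_zero.1 huv).resolve_left hc
  have hv0 : Q v = 0 := by
    rw [polar_self, nsmul_eq_mul, Nat.cast_ofNat] at hvv
    exact (mul_eq_zero.1 hvv).resolve_left h2
  -- move `v` to a singular vector not orthogonal to it
  obtain ⟨d, hd, hd0, hdU⟩ := exists_singular_out hQ (Submodule.span F {v})
    (by rw [finrank_span_singleton hv]; omega)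
  have hvd : polar Q v d = 0 := by rw [polar_comm]; exact mem_perp.1 hd v (Submodule.mem_span_singleton_self v)
  have hd' : d ≠ 0 := fun h => hdU (by rw [h]; exact zero_mem _)
  have hvdn : v ∉ Submodule.span F {d} := fun h => by
    obtain ⟨k, rfl⟩ := Submodule.mem_span_singleton.1 h
    exact hdU (Submodule.mem_span_singleton.2 ⟨k⁻¹, by rw [smul_smul, inv_mul_cancel₀ (fun e => hv (by rw [e, zero_smul])), one_smul]⟩)
  obtain ⟨a, ha, ha0, hva⟩ := exists_singular_ne hQ (by rw [finrank_span_singleton hd']; omega) hvdn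
  have hda : polar Q d a = 0 := by rw [polar_comm]; exact mem_perp.1 ha d (Submodule.mem_span_singleton_self d)
  obtain ⟨s, -, hs, hsQ⟩ := exists_root hd0 ha0 hda
  set v₁ := (s : Matrix ι ι F) *ᵥ v with hv₁
  have e₁ : v₁ = v + polar Q v a • d := by rw [hv₁, hs, polar_comm Q d v, hvd, polar_comm Q a v]; simp
  have hv₁0 : v₁ ≠ 0 := fun h => hdU (Submodule.mem_span_singleton.2 ⟨-(polar Q v a)⁻¹, by
    have h' : polar Q v a • d = -v := eq_neg_of_add_eq_zero_right (e₁ ▸ h)
    rw [neg_smul, ← smul_neg, ← h', smul_smul, inv_mul_cancel₀ hva, one_smul]⟩)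
  have hvv₁ : v ∉ Submodule.span F {v₁} := fun h => by
    obtain ⟨k, hk⟩ := Submodule.mem_span_singleton.1 h
    rw [e₁, smul_add, smul_smul] at hk
    rcases eq_or_ne k 0 with rfl | hk0
    · simp at hk; exact hv hk.symm
    · exact hdU (Submodule.mem_span_singleton.2 ⟨(1 - k) / (k * polar Q v a), by
        rw [div_eq_inv_mul, mul_smul, sub_smul, one_smul]
        conv_lhs => enter [2, 1]; rw [← hk]
        rw [add_sub_cancel_left, smul_smul, inv_mul_cancel₀ (mul_ne_zero hk0 hva), one_smul]⟩)
  obtain ⟨d', hd', hd'0, hvd'⟩ := exists_singular_ne hQ (by rw [finrank_span_singleton hv₁0]; omega) hvv₁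
  have hd'ne : d' ≠ 0 := fun h => hvd' (by rw [h]; exact polar_zero_right Q v)
  have hv₁d' : v₁ ∉ Submodule.span F {d'} := fun h => hvd' (by
    obtain ⟨k, hk⟩ := Submodule.mem_span_singleton.1 h
    have hk0 : k ≠ 0 := fun e => hv₁0 (by rw [← hk, e, zero_smul])
    have h0 : polar Q v v₁ = 0 := by
      rw [e₁, polar_add_right, polar_smul_right, hvv, hvd]; simp
    rw [← hk, polar_smul_right, smul_eq_mul] at h0
    exact (mul_eq_zero.1 h0).resolve_left hk0)
  obtain ⟨a', ha', ha'0, hva'⟩ := exists_singular_ne hQ (by rw [finrank_span_singleton hd'ne]; omega) hv₁d'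
  have hda' : polar Q d' a' = 0 := by rw [polar_comm]; exact mem_perp.1 ha' d' (Submodule.mem_span_singleton_self _)
  obtain ⟨s', -, hs', hs'Q⟩ := exists_root hd'0 ha'0 hda'
  set w := (s' : Matrix ι ι F) *ᵥ v₁ with hw
  have hd'v₁ : polar Q d' v₁ = 0 := mem_perp.1 hd' v₁ (Submodule.mem_span_singleton_self _)
  have hvw : polar Q v w ≠ 0 := by
    rw [hw, hs', hd'v₁, zero_smul, sub_zero, polar_add_right, polar_smul_right, e₁, polar_add_right,
      polar_smul_right, hvv, hvd, smul_zero, add_zero, zero_add, ← e₁, smul_eq_mul]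
    exact mul_ne_zero (by rw [polar_comm]; exact hva') hvd'
  have hmem' : s' * s ∈ M := mul_mem (hroots _ _ hd'0 ha'0 hda' s' hs') (hroots _ _ hd0 ha0 hda s hs)
  have hsw : ((s' * s : GL ι F) : Matrix ι ι F) *ᵥ v = w := by rw [Units.val_mul, ← mulVec_mulVec]
  have hiso : ∀ x y, polar Q (((s' * s : GL ι F) : Matrix ι ι F) *ᵥ x) (((s' * s : GL ι F) : Matrix ι ι F) *ᵥ y) = polar Q x y := by
    intro x y
    simp only [Units.val_mul, ← mulVec_mulVec]
    simp only [QuadraticMap.polar, ← mulVec_add, hsQ, hs'Q]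
  have hMw := hasTv_conj hmem' hM
  rw [hsw] at hMw
  have hw0 : Q w = 0 := by rw [hw, hs'Q, hv₁, hsQ, hv0]
  have efun : (polarBilin Q (c • v)).comp (Matrix.toLin' (((s' * s)⁻¹ : GL ι F) : Matrix ι ι F)) =
      polarBilin Q (c • w) := LinearMap.ext fun x => by
    show polar Q (c • v) ((((s' * s)⁻¹ : GL ι F) : Matrix ι ι F) *ᵥ x) = polar Q (c • w) x
    rw [← hiso, mulVec_smul, hsw, mulVec_inv_cancel]
  rw [efun] at hMw
  -- conjugate the transvection at `w` by the one at `v`
  obtain ⟨t, -, ht⟩ := GeoTransvection.exists_transvection v (polarBilin Q (c • v)) (by simpa using huv)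
  have hMt := hasTv_conj (hM t ht) hMw
  set p := polar Q v w with hp
  have htw : (t : Matrix ι ι F) *ᵥ w = w + (c * p) • v := by rw [ht]; simp [hp]
  rw [htw] at hMt
  have hinv : ∀ x, ((t⁻¹ : GL ι F) : Matrix ι ι F) *ᵥ x = x - (c * polar Q v x) • v := fun x => by
    apply mulVec_injective_of_isUnit t.isUnit
    show (t : Matrix ι ι F) *ᵥ _ = (t : Matrix ι ι F) *ᵥ _
    rw [mulVec_inv_cancel, ht]
    simp [hvv]
  set u' := c • w - (c * c * p) • v with hu'
  have efun' : (polarBilin Q (c • w)).comp (Matrix.toLin' ((t⁻¹ : GL ι F) : Matrix ι ι F)) = polarBilin Q u' :=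
    LinearMap.ext fun x => by
      show polar Q (c • w) (((t⁻¹ : GL ι F) : Matrix ι ι F) *ᵥ x) = polar Q u' x
      rw [hinv, hu', polar_sub_left, polar_sub_right, polar_smul_left, polar_smul_left, polar_smul_left,
        polar_smul_right, polar_comm Q w v]
      simp only [smul_eq_mul, ← hp]
      ring
  rw [efun'] at hMt
  have hww : polar Q w w = 0 := by rw [polar_self, hw0]; simp
  have hp0 : p ≠ 0 := hvw
  refine specialLinear_le_of_tv hQ hn hroots (v := w + (c * p) • v) (u := u') ?_ ?_ ?_ hMt
  · intro h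
    have := congrArg (polar Q v) h
    rw [polar_add_right, polar_smul_right, hvv, smul_zero, add_zero, polar_zero_right] at this
    exact hvw this
  · simp only [hu', polar_add_right, polar_sub_left, polar_smul_left, polar_smul_right, hvv, hww,
      polar_comm Q w v, ← hp, smul_eq_mul]
    ring
  · rw [Submodule.mem_span_singleton]
    rintro ⟨k, hk⟩
    have e1 := congrArg (polar Q v) hk
    have e2 := congrArg (polar Q w) hk
    simp only [hu', polar_add_right, polar_sub_right, polar_smul_right, hvv, hww, polar_comm Q w v, ← hp,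
      smul_eq_mul] at e1 e2
    have hkc : k = c := by
      refine mul_right_cancel₀ hp0 ?_
      linear_combination e1
    rw [hkc] at e2
    have : (2 : F) * (c * c * p * p) = 0 := by linear_combination e2
    exact mul_ne_zero h2 (mul_ne_zero (mul_ne_zero (mul_ne_zero hc hc) hp0) hp0) this

theorem finrank_triple_le (x y z : ι → F) :
    Module.finrank F (Submodule.span F ({x, y, z} : Set (ι → F))) ≤ 3 := by
  rw [Submodule.span_insert]
  refine (Submodule.finrank_add_le_finrank_add_finrank _ _).trans ?_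
  have h1 : Module.finrank F (Submodule.span F {x}) ≤ 1 :=
    (finrank_span_le_card ({x} : Set (ι → F))).trans (by simp)
  have h2 := finrank_pair_le y z
  omega

/-- The commutator of root elements of two forms with different polar forms can be a transvection. -/
theorem exists_tv_of_two_forms [Finite F] {Q' : QuadraticForm F (ι → F)} (hQ : (polarBilin Q).Nondegenerate)
    (hQ' : (polarBilin Q').Nondegenerate) (hn : 13 ≤ Fintype.card ι) (hr : HasRoots Q M) (hr' : HasRoots Q' M)
    (hne : ∀ c : F, ∃ x y, polar Q' x y ≠ c * polar Q x y) :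
    ∃ v u : ι → F, v ≠ 0 ∧ u ≠ 0 ∧ polar Q u v = 0 ∧ HasTv M v (polarBilin Q u) := by
  let S : (ι → F) →ₗ[F] (ι → F) := (LinearMap.BilinForm.toDual (polarBilin Q) hQ).symm.toLinearMap.comp (polarBilin Q')
  have hS : ∀ x y, polar Q (S x) y = polar Q' x y := fun x y =>
    LinearMap.BilinForm.apply_toDual_symm_apply (B := polarBilin Q) (hB := hQ) (polarBilin Q' x) y
  have hSi : Function.Injective S := (injective_iff_map_eq_zero S).2 fun x hx => polar_ext hQ' fun y => by
    rw [← hS, hx]; exact polar_zero_left Q y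
  have hSs : Function.Surjective S := LinearMap.injective_iff_surjective.1 hSi
  have hcard : ∀ {k : ℕ} {U : Submodule F (ι → F)}, Module.finrank F U ≤ k → k ≤ 5 →
      2 * Module.finrank F U + 3 ≤ Fintype.card ι := fun h1 h2 => by omega
  by_contra hnone
  push Not at hnone
  -- otherwise every singular line is invariant under `S`
  have hbad : ∀ d a, Q d = 0 → Q a = 0 → polar Q d a = 0 → d ≠ 0 → S a ∈ Submodule.span F {d, a, S d} := by
    intro d a hd ha hda hd0
    by_contra hout
    obtain ⟨p, hp⟩ := hSs d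
    obtain ⟨q, hq⟩ := hSs a
    have hout' : a ∉ Submodule.span F {p, q, d} := fun hc => hout (by
      have h2 := Submodule.mem_map_of_mem (f := S) hc
      rw [Submodule.map_span] at h2
      simpa [Set.image_insert_eq, hp, hq] using h2)
    obtain ⟨d', hd', hd'0, had'⟩ := exists_singular_ne hQ' (hcard (finrank_triple_le p q d) (by norm_num)) hout'
    rw [mem_perp_span] at hd'
    have hd'ne : d' ≠ 0 := fun h => had' (by rw [h]; exact polar_zero_right Q' a)
    obtain ⟨a', ha', ha'0, ha'U⟩ := exists_singular_out hQ'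
      (Submodule.span F {p, q, d} ⊔ Submodule.span F {d'})
      (hcard (k := 4) ((Submodule.finrank_add_le_finrank_add_finrank _ _).trans
        (add_le_add (finrank_triple_le p q d) (finrank_span_singleton hd'ne).le)) (by norm_num))
    have hd'a' : polar Q' d' a' = 0 := by
      rw [polar_comm]; exact mem_perp.1 ha' d' (Submodule.mem_sup_right (Submodule.mem_span_singleton_self _))
    have ha'3 : ∀ u ∈ ({p, q, d} : Set (ι → F)), polar Q' a' u = 0 := fun u hu =>
      mem_perp.1 ha' u (Submodule.mem_sup_left (Submodule.subset_span hu))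
    have e1 : polar Q d d' = 0 := by rw [← hp, hS, polar_comm]; exact hd' p (by simp)
    have e2 : polar Q a d' = 0 := by rw [← hq, hS, polar_comm]; exact hd' q (by simp)
    have e3 : polar Q d a' = 0 := by rw [← hp, hS, polar_comm]; exact ha'3 p (by simp)
    have e4 : polar Q a a' = 0 := by rw [← hq, hS, polar_comm]; exact ha'3 q (by simp)
    have e5 : polar Q' d' d = 0 := hd' d (by simp)
    have e6 : polar Q' a' d = 0 := ha'3 d (by simp)
    obtain ⟨x, -, hx, -⟩ := exists_root hd ha hda
    obtain ⟨y, -, hy, -⟩ := exists_root hd'0 ha'0 hd'a'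
    set v := polar Q' a' a • d' - polar Q' d' a • a' with hv
    have hdv : polar Q d v = 0 := by simp [hv, e1, e3]
    obtain ⟨t, -, ht⟩ := GeoTransvection.exists_transvection v (polarBilin Q (-d)) (by simp [hdv])
    refine hnone v (-d) ?_ (neg_ne_zero.2 hd0) (by rw [polar_neg_left, hdv, neg_zero]) ?_
    · intro hv0
      rw [hv, sub_eq_zero] at hv0
      refine ha'U (Submodule.mem_sup_right (Submodule.mem_span_singleton.2
        ⟨(polar Q' d' a)⁻¹ * polar Q' a' a, ?_⟩))
      rw [mul_smul, hv0, smul_smul, inv_mul_cancel₀ (by rw [polar_comm]; exact had'), one_smul]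
    · intro g hg
      have hgt : g = t := gl_ext fun z => by rw [hg, ht]
      have he : t * x * y = y * x := gl_ext fun z => by
        simp only [Units.val_mul, ← mulVec_mulVec]
        rw [ht, hx, hx, hy, hy]
        simp only [LinearMap.neg_apply, map_neg, polarBilin_apply_apply, polar_add_right, polar_sub_right,
          polar_smul_right, e1, e2, e3, e4, e5, e6, hda, polar_self Q d, hd, smul_eq_mul]
        simp only [hv]
        simp
        module
      have ht' : t = y * x * y⁻¹ * x⁻¹ := by rw [← he]; group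
      rw [hgt, ht']
      exact mul_mem (mul_mem (mul_mem (hr' _ _ hd'0 ha'0 hd'a' y hy) (hr _ _ hd ha hda x hx))
        (inv_mem (hr' _ _ hd'0 ha'0 hd'a' y hy))) (inv_mem (hr _ _ hd ha hda x hx))
  have hdim1 : ∀ {x : ι → F}, x ≠ 0 → 2 * Module.finrank F (Submodule.span F {x}) + 3 ≤ Fintype.card ι :=
    fun hx => hcard (finrank_span_singleton hx).le (by norm_num)
  have hline : ∀ d a, Q d = 0 → Q a = 0 → polar Q d a = 0 → a ∉ Submodule.span F {d} → d ≠ 0 →
      S d ∈ Submodule.span F {d, a} := by
    intro d a hd ha hda hind hd0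
    by_contra hSd
    obtain ⟨α, β, γ, e⟩ : ∃ α β γ : F, α • d + β • a + γ • S d = S a := by
      have h := hbad d a hd ha hda hd0
      rw [Submodule.mem_span_insert] at h
      obtain ⟨α, w, hw, e⟩ := h
      obtain ⟨β, γ, rfl⟩ := Submodule.mem_span_pair.1 hw
      exact ⟨α, β, γ, by rw [e]; abel⟩
    set b := a - γ • d with hb
    have hb0 : Q b = 0 := by
      rw [hb, CfsgLib.Forms.map_sub', ha, QuadraticMap.map_smul, hd, polar_smul_right, polar_comm, hda]; simp
    have hbd : polar Q b d = 0 := by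
      rw [hb, polar_sub_left, polar_comm Q a, hda, polar_smul_left, polar_self, hd]; simp
    have hbne : b ≠ 0 := fun h => hind (Submodule.mem_span_singleton.2 ⟨γ, (sub_eq_zero.1 (hb ▸ h)).symm⟩)
    have hSb : S b = α • d + β • a := by rw [hb, map_sub, map_smul, ← e, add_sub_cancel_right]
    refine hSd (Submodule.span_le.2 ?_ (hbad b d hb0 hd hbd hbne))
    rintro z (rfl | rfl | rfl)
    · exact Submodule.sub_mem _ (Submodule.subset_span (by simp))
        (Submodule.smul_mem _ _ (Submodule.subset_span (by simp)))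
    · exact Submodule.subset_span (by simp)
    · rw [hSb]
      exact add_mem (Submodule.smul_mem _ _ (Submodule.subset_span (by simp)))
        (Submodule.smul_mem _ _ (Submodule.subset_span (by simp)))
  have hscal : ∀ d, Q d = 0 → d ≠ 0 → ∃ c : F, S d = c • d := by
    intro d hd hd0
    obtain ⟨a₁, ha₁, ha₁0, ha₁U⟩ := exists_singular_out hQ (Submodule.span F {d}) (hdim1 hd0)
    obtain ⟨a₂, ha₂, ha₂0, ha₂U⟩ := exists_singular_out hQ (Submodule.span F {d, a₁})
      (hcard (finrank_pair_le d a₁) (by norm_num))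
    have h1 := hline d a₁ hd ha₁0 (by rw [polar_comm]; exact mem_perp.1 ha₁ d (Submodule.mem_span_singleton_self _))
      ha₁U hd0
    have h2 := hline d a₂ hd ha₂0 (by rw [polar_comm]; exact (mem_perp_pair.1 ha₂).1)
      (fun h => ha₂U (Submodule.span_mono (by simp) h)) hd0
    obtain ⟨i, j, e1⟩ := Submodule.mem_span_pair.1 h1
    obtain ⟨k, l, e2⟩ := Submodule.mem_span_pair.1 h2
    rcases eq_or_ne l 0 with rfl | hl
    · exact ⟨k, by rw [← e2, zero_smul, add_zero]⟩
    · refine absurd ?_ ha₂U
      refine Submodule.mem_span_pair.2 ⟨l⁻¹ * (i - k), l⁻¹ * j, ?_⟩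
      have : l • a₂ = (i - k) • d + j • a₁ := by
        rw [sub_smul]
        linear_combination (norm := module) e2 - e1
      rw [mul_smul, mul_smul, ← smul_add, ← this, smul_smul, inv_mul_cancel₀ hl, one_smul]
  choose! c hc using hscal
  have hpair : ∀ d e, Q d = 0 → d ≠ 0 → Q e = 0 → e ≠ 0 → polar Q d e ≠ 0 → c d = c e := by
    intro d e hd hd0 he he0 hne'
    have h := hS d e
    rw [polar_comm Q' d e, ← hS e d, hc d hd hd0, hc e he he0, polar_smul_left, polar_smul_left,
      polar_comm Q e d] at h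
    exact mul_right_cancel₀ hne' h
  have heq : ∀ d e, Q d = 0 → d ≠ 0 → Q e = 0 → e ≠ 0 → c d = c e := by
    intro d e hd hd0 he he0
    by_cases hne' : polar Q d e = 0
    swap
    · exact hpair d e hd hd0 he he0 hne'
    by_cases hdep : e ∈ Submodule.span F {d}
    · obtain ⟨k, rfl⟩ := Submodule.mem_span_singleton.1 hdep
      have h := hc (k • d) he he0
      rw [map_smul, hc d hd hd0, smul_smul, smul_smul, ← sub_eq_zero, ← sub_smul, smul_eq_zero] at h
      have hk : k ≠ 0 := fun h0 => he0 (by rw [h0, zero_smul])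
      exact mul_left_cancel₀ hk (by linear_combination (h.resolve_right hd0))
    · have hde : Q (d + e) = 0 := by rw [QuadraticMap.map_add (⇑Q), hd, he, hne']; simp
      have hde0 : d + e ≠ 0 := fun h => hdep (by
        rw [eq_neg_of_add_eq_zero_right h]; exact neg_mem (Submodule.mem_span_singleton_self d))
      have h := hc (d + e) hde hde0
      rw [map_add, hc d hd hd0, hc e he he0] at h
      have h' : (c (d + e) - c e) • e + (c (d + e) - c d) • d = 0 := by
        linear_combination (norm := module) -h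
      by_contra hne''
      refine hdep (Submodule.mem_span_singleton.2 ⟨-((c (d + e) - c e)⁻¹ * (c (d + e) - c d)), ?_⟩)
      have h1 : c (d + e) - c e ≠ 0 := by
        intro h1
        rw [h1, zero_smul, zero_add, smul_eq_zero] at h'
        exact hne'' (by linear_combination -(h'.resolve_right hd0) + h1)
      have e' : (c (d + e) - c e) • e = -((c (d + e) - c d) • d) := eq_neg_of_add_eq_zero_left h'
      rw [neg_smul, mul_smul, ← smul_neg, ← e', smul_smul, inv_mul_cancel₀ h1, one_smul]
  obtain ⟨d₀, -, hd₀, hd₀'⟩ := exists_singular_out hQ (⊥ : Submodule F (ι → F)) (by rw [finrank_bot]; omega)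
  have hd₀0 : d₀ ≠ 0 := by simpa using hd₀'
  obtain ⟨x, y, hxy⟩ := hne (c d₀)
  have hle : perp Q (⊥ : Submodule F (ι → F)) ≤ LinearMap.ker (S - c d₀ • LinearMap.id) := by
    refine perp_le_of_singular hQ (by rw [finrank_bot]; omega) fun e _ he heU => ?_
    have he0 : e ≠ 0 := by simpa using heU
    simp [hc e he he0, heq d₀ e hd₀ hd₀0 he he0]
  have := hle (show x ∈ perp Q ⊥ from mem_perp.2 (by simp))
  rw [LinearMap.mem_ker, LinearMap.sub_apply, sub_eq_zero] at this
  apply hxy
  rw [← hS, this]
  simp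

end CfsgLib.GeoOrth
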