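import Mathlib
import Cfsg.Prelude.Def_GeometricClasses

/-!
Coordinates for a tensor decomposition `F^ι ≅ F^(n₁) ⊗ F^(n₂)`: pure tensors and their images.
-/

set_option autoImplicit false

namespace CfsgLib.GeoTensor

open Matrix
open scoped Kronecker

variable {ι : Type} [Fintype ι] [DecidableEq ι] {F : Type*} [Field F] {n₁ n₂ : ℕ}

/-- The pure tensor of `x` and `y` in `F^ι`. -/
def pure (e : ι ≃ Fin n₁ × Fin n₂) (P : GL ι F) (x : Fin n₁ → F) (y : Fin n₂ → F) : ι → F :=
  (P : Matrix ι ι F) *ᵥ (fun i => x (e i).1 * y (e i).2)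

variable {e : ι ≃ Fin n₁ × Fin n₂} {P : GL ι F}

theorem pure_add_left (x x' : Fin n₁ → F) (y : Fin n₂ → F) :
    pure e P (x + x') y = pure e P x y + pure e P x' y := by
  rw [pure, pure, pure, ← mulVec_add]; congr 1; funext i; simp [add_mul]

theorem pure_smul_left (c : F) (x : Fin n₁ → F) (y : Fin n₂ → F) : pure e P (c • x) y = c • pure e P x y := by
  rw [pure, pure, ← mulVec_smul]; congr 1; funext i; simp [mul_assoc]

theorem pure_add_right (x : Fin n₁ → F) (y y' : Fin n₂ → F) :
    pure e P x (y + y') = pure e P x y + pure e P x y' := by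
  rw [pure, pure, pure, ← mulVec_add]; congr 1; funext i; simp [mul_add]

theorem pure_smul_right (c : F) (x : Fin n₁ → F) (y : Fin n₂ → F) : pure e P x (c • y) = c • pure e P x y := by
  rw [pure, pure, ← mulVec_smul]; congr 1; funext i; simp [mul_left_comm]

theorem pure_zero_left (y : Fin n₂ → F) : pure e P 0 y = 0 := by
  simpa using pure_smul_left (e := e) (P := P) (0 : F) 0 y

theorem pure_zero_right (x : Fin n₁ → F) : pure e P x 0 = 0 := by
  simpa using pure_smul_right (e := e) (P := P) (0 : F) x 0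

/-- Equal pure tensors have equal coordinate products. -/
theorem pure_eq {x x' : Fin n₁ → F} {y y' : Fin n₂ → F} (h : pure e P x y = pure e P x' y') (i : Fin n₁) (j : Fin n₂) :
    x i * y j = x' i * y' j := by
  have h' := congrFun (mulVec_injective_of_isUnit P.isUnit h) (e.symm (i, j))
  simpa using h'

theorem pure_ne_zero {x : Fin n₁ → F} {y : Fin n₂ → F} (hx : x ≠ 0) (hy : y ≠ 0) : pure e P x y ≠ 0 := by
  intro h
  obtain ⟨i, hi⟩ := Function.ne_iff.1 hx
  obtain ⟨j, hj⟩ := Function.ne_iff.1 hy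
  rw [← pure_zero_left (e := e) (P := P) y] at h
  exact mul_ne_zero hi hj (by simpa using pure_eq h i j)

/-- An element of the stabiliser maps pure tensors factorwise. -/
theorem exists_factors {g : GL ι F} (hg : g ∈ Cfsg.Geo.tensorProductSubgroup n₁ n₂ e P) :
    ∃ (a : GL (Fin n₁) F) (b : GL (Fin n₂) F), ∀ x y,
      (g : Matrix ι ι F) *ᵥ pure e P x y =
        pure e P ((a : Matrix (Fin n₁) (Fin n₁) F) *ᵥ x) ((b : Matrix (Fin n₂) (Fin n₂) F) *ᵥ y) := by
  obtain ⟨g₁, ⟨k, ⟨a, b, hab⟩, rfl⟩, rfl⟩ := hg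
  refine ⟨a, b, fun x y => ?_⟩
  simp only [MulEquiv.coe_toMonoidHom, MulAut.conj_apply, pure, Units.val_mul, ← mulVec_mulVec]
  rw [mulVec_mulVec (M := ((P⁻¹ : GL ι F) : Matrix ι ι F)), ← Units.val_mul, inv_mul_cancel, Units.val_one,
    one_mulVec]
  congr 1
  show ((k : Matrix (Fin n₁ × Fin n₂) (Fin n₁ × Fin n₂) F).submatrix e e) *ᵥ _ = _
  rw [submatrix_mulVec_equiv, hab]
  funext i
  simp only [Function.comp_apply, mulVec, dotProduct, Fintype.sum_prod_type, kroneckerMap_apply, Finset.sum_mul_sum,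
    Equiv.apply_symm_apply]
  refine Finset.sum_congr rfl fun _ _ => Finset.sum_congr rfl fun _ _ => ?_
  ring

/-- The similar forms on pure tensors. -/
theorem form_pure {σ : F →+* F} {f : (ι → F) → (ι → F) → F} {f₁ : (Fin n₁ → F) → (Fin n₁ → F) → F}
    {f₂ : (Fin n₂ → F) → (Fin n₂ → F) → F}
    (h₁ : ∀ x x', f₁ x x' = ∑ a, ∑ b, x a * f₁ (Pi.single a 1) (Pi.single b 1) * σ (x' b))
    (h₂ : ∀ x x', f₂ x x' = ∑ a, ∑ b, x a * f₂ (Pi.single a 1) (Pi.single b 1) * σ (x' b))
    (hT : Cfsg.Geo.IsTensorFormStructure σ f f₁ f₂ e P) :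
    ∃ c : F, c ≠ 0 ∧ ∀ x y x' y', f (pure e P x y) (pure e P x' y') = c * (f₁ x x' * f₂ y y') := by
  obtain ⟨c, hc, h⟩ := hT
  refine ⟨c, hc, fun x y x' y' => ?_⟩
  refine (h (fun p => x p.1 * y p.2) (fun p => x' p.1 * y' p.2)).trans ?_
  congr 1
  rw [h₁, h₂, Cfsg.Geo.formOfGram]
  simp only [Fintype.sum_prod_type, kronecker_apply, Cfsg.Geo.gramMatrix, map_mul, Finset.sum_mul_sum]
  refine Finset.sum_congr rfl fun i _ => Finset.sum_congr rfl fun j _ => Finset.sum_congr rfl fun k _ =>
    Finset.sum_congr rfl fun l _ => ?_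
  ring

omit [Fintype ι] [DecidableEq ι] in
/-- A sesquilinear form is given by its Gram matrix. -/
theorem eq_gram {n : ℕ} {σ : F →+* F} {f : (Fin n → F) → (Fin n → F) → F}
    (hl : ∀ x y v, f (x + y) v = f x v + f y v) (hls : ∀ (c : F) x v, f (c • x) v = c * f x v)
    (hr : ∀ v x y, f v (x + y) = f v x + f v y) (hrs : ∀ (c : F) v x, f v (c • x) = σ c * f v x) (x x' : Fin n → F) :
    f x x' = ∑ a, ∑ b, x a * f (Pi.single a 1) (Pi.single b 1) * σ (x' b) := by
  let B : (Fin n → F) →ₗ[F] (Fin n → F) →ₛₗ[σ] F :=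
    { toFun := fun u =>
        { toFun := f u, map_add' := hr u, map_smul' := fun c v => by rw [hrs, smul_eq_mul] }
      map_add' := fun u v => LinearMap.ext fun w => hl u v w
      map_smul' := fun c u => LinearMap.ext fun w => hls c u w }
  show B x x' = _
  conv_lhs => rw [pi_eq_sum_univ' x, pi_eq_sum_univ' x']
  simp only [map_sum, LinearMap.sum_apply, LinearMap.map_smulₛₗ, RingHom.id_apply, LinearMap.smul_apply, smul_eq_mul]
  rw [Finset.sum_comm]
  refine Finset.sum_congr rfl fun a _ => ?_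
  rw [Finset.mul_sum]
  refine Finset.sum_congr rfl fun b _ => ?_
  show σ (x' a) * (x b * f (Pi.single b 1) (Pi.single a 1)) = _
  ring

/-- A frame of a two-dimensional hermitian form with values in two elements. -/
theorem exists_frame {σ : F →+* F} (hσ : ∀ a, σ (σ a) = a) (hne : σ ≠ RingHom.id F) (h2 : (2 : F) = 0)
    (hnorm : ∀ c : F, c ≠ 0 → c * σ c = 1) {n : ℕ} (hn : 2 ≤ n) {f : (Fin n → F) → (Fin n → F) → F}
    (hl : ∀ x y v, f (x + y) v = f x v + f y v) (hls : ∀ (c : F) x v, f (c • x) v = c * f x v)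
    (hh : ∀ v w, f v w = σ (f w v)) (hnd : Cfsg.Geo.IsNondegenerateForm f) :
    ∃ a b, f a a = 1 ∧ b ≠ 0 ∧ f a b = 0 ∧ f b a = 0 ∧ (n = 2 → f b b = 1 ∧
      ∀ y, f y y ≠ 0 → (∃ c : F, y = c • a) ∨ ∃ c : F, y = c • b) := by
  have hr : ∀ v x y, f v (x + y) = f v x + f v y := fun v x y => by rw [hh, hl, map_add, ← hh, ← hh]
  have hrs : ∀ (c : F) v x, f v (c • x) = σ c * f v x := fun c v x => by rw [hh, hls, map_mul, ← hh]
  have hself : ∀ x, f x x ≠ 0 → f x x = 1 := fun x hx => by
    have h1 := hnorm _ hx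
    rw [← hh x x] at h1
    have hsq : f x x * f x x = 1 := h1
    rcases mul_self_eq_one_iff.1 hsq with h | h
    · exact h
    · rw [h]; linear_combination (-1 : F) * h2
  obtain ⟨a, haa⟩ : ∃ a, f a a ≠ 0 := by
    by_contra hall
    push Not at hall
    obtain ⟨z, hz⟩ : ∃ z : F, z + σ z ≠ 0 := by
      by_contra h
      push Not at h
      exact hne (RingHom.ext fun z => by
        show σ z = z
        linear_combination h z - z * h2)
    obtain ⟨x, hx⟩ : ∃ x : Fin n → F, x ≠ 0 :=
      ⟨Pi.single ⟨0, by omega⟩ 1, fun h => one_ne_zero (α := F) (by simpa using congrFun h ⟨0, by omega⟩)⟩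
    obtain ⟨-, y, hxy⟩ := hnd x hx
    have := hall (x + σ (z / f x y) • y)
    rw [hl, hr, hr, hls, hls, hrs, hrs, hσ, hall x, hall y, hh y x, div_mul_cancel₀ _ hxy, ← map_mul,
      div_mul_cancel₀ _ hxy] at this
    exact hz (by linear_combination this)
  have ha1 := hself a haa
  have ha0 : a ≠ 0 := fun h => haa (by rw [h]; simpa using hls 0 0 (0 : Fin n → F))
  obtain ⟨b₀, hb₀⟩ : ∃ b₀ : Fin n → F, b₀ ∉ Submodule.span F {a} := by
    by_contra hall
    push Not at hall
    have := Submodule.finrank_mono (show (⊤ : Submodule F (Fin n → F)) ≤ Submodule.span F {a} from fun x _ => hall x)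
    rw [finrank_top, finrank_span_singleton ha0] at this
    simp at this; omega
  set b := b₀ + (-f b₀ a) • a with hb
  have hba : f b a = 0 := by rw [hb, hl, hls, ha1, mul_one, add_neg_cancel]
  have hab : f a b = 0 := by rw [hh, hba, map_zero]
  have hb0 : b ≠ 0 := fun h => hb₀ (Submodule.mem_span_singleton.2 ⟨f b₀ a, by
    linear_combination (norm := module) (-1 : F) • h⟩)
  refine ⟨a, b, ha1, hb0, hab, hba, fun hn2 => ?_⟩
  subst hn2
  have hli : LinearIndependent F ![a, b] := (LinearIndependent.pair_iff' ha0).2 fun c hc => hb0 (by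
    rw [← hc, hls, ha1, mul_one] at hba
    rw [← hc, hba, zero_smul])
  have hspan : Submodule.span F {a, b} = ⊤ := by
    refine Submodule.eq_top_of_finrank_eq ?_
    rw [← Matrix.range_cons_cons_empty a b ![], finrank_span_eq_card hli]
    simp
  have hbb : f b b = 1 := by
    refine hself b fun h => ?_
    obtain ⟨-, y, hby⟩ := hnd b hb0
    have hy : y ∈ Submodule.span F {a, b} := by rw [hspan]; trivial
    obtain ⟨r, s, rfl⟩ := Submodule.mem_span_pair.1 hy
    exact hby (by rw [hr, hrs, hrs, hba, h, mul_zero, mul_zero, add_zero])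
  refine ⟨hbb, fun y hy => ?_⟩
  have hy' : y ∈ Submodule.span F {a, b} := by rw [hspan]; trivial
  obtain ⟨r, s, rfl⟩ := Submodule.mem_span_pair.1 hy'
  rw [hl, hr, hr, hls, hls, hls, hls, hrs, hrs, hrs, hrs, ha1, hbb, hab, hba] at hy
  rcases eq_or_ne s 0 with rfl | hs
  · exact Or.inl ⟨r, by rw [zero_smul, add_zero]⟩
  rcases eq_or_ne r 0 with rfl | hr'
  · exact Or.inr ⟨s, by rw [zero_smul, zero_add]⟩
  exact absurd (by linear_combination hnorm r hr' + hnorm s hs + h2) hy

end CfsgLib.GeoTensor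

namespace CfsgLib.GeoTensor

open Matrix

variable {F : Type*} [Field F]

/-- A three-dimensional symmetric form over three elements has an orthogonal frame of one norm, and its
similitudes permute it up to signs. -/
theorem exists_frame_three [Fintype F] (hq : Fintype.card F = 3) {f : (Fin 3 → F) → (Fin 3 → F) → F}
    (hf : Cfsg.Geo.IsSymmetricForm f) :
    ∃ (δ : F) (w : Fin 3 → Fin 3 → F), δ ≠ 0 ∧ (∀ i j, f (w i) (w j) = if i = j then δ else 0) ∧
      (∀ y, y = ∑ i, (f y (w i) / δ) • w i) ∧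
      ∀ (B : (Fin 3 → F) →ₗ[F] (Fin 3 → F)) (c : F), c ≠ 0 → (∀ y y', f (B y) (B y') = c * f y y') →
        ∀ k, ∃ (j : Fin 3) (r : F), B (w k) = r • w j := by
  obtain ⟨⟨hl, hls, hr, hrs⟩, hsymm, hnd⟩ := hf
  have h3 : (3 : F) = 0 := by
    have h0 : ((Fintype.card F : ℕ) : F) = 0 := FiniteField.cast_card_eq_zero F
    rw [hq] at h0; exact_mod_cast h0
  have hsq : ∀ z : F, z ≠ 0 → z * z = 1 := fun z hz => by
    have := FiniteField.pow_card_sub_one_eq_one z hz
    rw [hq] at this; linear_combination this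
  have h2 : (2 : F) ≠ 0 := fun h => one_ne_zero (α := F) (by linear_combination h3 - h)
  have hneg : ∀ z w : F, z ≠ 0 → w ≠ 0 → z = w ∨ z = -w := fun z w hz hw => by
    have : (z - w) * (z + w) = 0 := by linear_combination hsq z hz - hsq w hw
    rcases mul_eq_zero.1 this with h | h
    · exact Or.inl (sub_eq_zero.1 h)
    · exact Or.inr (eq_neg_of_add_eq_zero_left h)
  have hf0 : ∀ v, f 0 v = 0 := fun v => by simpa using hls 0 0 v
  let L : (Fin 3 → F) → Module.Dual F (Fin 3 → F) := fun v =>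
    { toFun := fun x => f x v, map_add' := fun x y => hl x y v, map_smul' := fun c x => hls c x v }
  -- an anisotropic vector in the complement of a family
  have hperp : ∀ (k : ℕ) (a : Fin k → Fin 3 → F), k < 3 → (∀ i, f (a i) (a i) ≠ 0) →
      (∀ i j, i ≠ j → f (a i) (a j) = 0) → ∃ y, (∀ i, f y (a i) = 0) ∧ f y y ≠ 0 := by
    intro k a hk haa hao
    by_contra hall
    push Not at hall
    let π : (Fin 3 → F) → (Fin 3 → F) := fun z => z + ∑ i, (-(f z (a i) / f (a i) (a i))) • a i
    have hsum : ∀ (u : Fin 3 → F) (cf : Fin k → F), f (∑ i, cf i • a i) u = ∑ i, cf i * f (a i) u := by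
      intro u cf
      show L u (∑ i, cf i • a i) = _
      simp [L]
    have hπ : ∀ z j, f (π z) (a j) = 0 := fun z j => by
      rw [hl, hsum, Finset.sum_eq_single j (fun i _ hi => by rw [hao i j hi, mul_zero])
        (fun h => absurd (Finset.mem_univ j) h)]
      field_simp [haa j]
      ring
    let Λ : (Fin 3 → F) →ₗ[F] (Fin k → F) := LinearMap.pi fun i => L (a i)
    obtain ⟨y, hy, hy0⟩ : ∃ y, Λ y = 0 ∧ y ≠ 0 := by
      have h1 := Λ.finrank_range_add_finrank_ker
      have h2' := Submodule.finrank_le (LinearMap.range Λ)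
      simp at h1 h2'
      obtain ⟨y, hy, hy0⟩ := (LinearMap.ker Λ).exists_mem_ne_zero_of_ne_bot fun h => by
        rw [h, finrank_bot] at h1; omega
      exact ⟨y, hy, hy0⟩
    have hya : ∀ i, f y (a i) = 0 := fun i => congrFun hy i
    obtain ⟨-, z, hz⟩ := hnd y hy0
    have h4 : f y (π z) = f y z := by
      rw [hr, hsymm y (∑ i, _), hsum, Finset.sum_eq_zero fun i _ => by rw [hsymm (a i) y, hya, mul_zero], add_zero]
    have h5 := hall (y + π z) fun i => by rw [hl, hya, hπ, add_zero]
    rw [hl, hr y y (π z), hr (π z) y (π z), hall y hya, hall (π z) (hπ z), hsymm (π z) y, h4] at h5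
    exact hz (by simpa [h2] using show (2 : F) * f y z = 0 by linear_combination h5)
  obtain ⟨u, -, huu⟩ := hperp 0 ![] (by norm_num) (fun i => i.elim0) (fun i => i.elim0)
  obtain ⟨v, hv, hvv⟩ := hperp 1 ![u] (by norm_num) (fun i => by fin_cases i; simpa using huu)
    (fun i j h => absurd (Subsingleton.elim i j) h)
  have hvu : f v u = 0 := hv 0
  have huv : f u v = 0 := by rw [hsymm, hvu]
  obtain ⟨z, hz, hzz⟩ := hperp 2 ![u, v] (by norm_num) (fun i => by fin_cases i <;> simpa)
    (fun i j h => by fin_cases i <;> fin_cases j <;> first | exact absurd rfl h | simpa)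
  have hzu : f z u = 0 := hz 0
  have hzv : f z v = 0 := hz 1
  have huz : f u z = 0 := by rw [hsymm, hzu]
  have hvz : f v z = 0 := by rw [hsymm, hzv]
  -- two of equal norms can be traded for two of the opposite
  have hpair : ∀ a b c : Fin 3 → F, f a a ≠ 0 → f b b = f a a → f c c = -f a a → f a b = 0 → f b c = 0 →
      f a c = 0 → ∃ (δ : F) (w : Fin 3 → Fin 3 → F), δ ≠ 0 ∧ ∀ i j, f (w i) (w j) = if i = j then δ else 0 := by
    intro a b c haa hbb hcc hab hbc hac
    refine ⟨-f a a, ![a + b, a + (2 : F) • b, c], neg_ne_zero.2 haa, fun i j => ?_⟩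
    have hba : f b a = 0 := by rw [hsymm, hab]
    have hcb : f c b = 0 := by rw [hsymm, hbc]
    have hca : f c a = 0 := by rw [hsymm, hac]
    fin_cases i <;> fin_cases j <;>
      simp [hl, hr, hls, hrs, hbb, hcc, hab, hba, hbc, hcb, hac, hca] <;>
      first | linear_combination (f a a) * h3 | linear_combination (2 * f a a) * h3
  obtain ⟨δ, w, hδ, hw⟩ : ∃ (δ : F) (w : Fin 3 → Fin 3 → F), δ ≠ 0 ∧
      ∀ i j, f (w i) (w j) = if i = j then δ else 0 := by
    rcases hneg _ _ hvv huu with h | h <;> rcases hneg _ _ hzz huu with h' | h'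
    · refine ⟨f u u, ![u, v, z], huu, fun i j => ?_⟩
      fin_cases i <;> fin_cases j <;> simp [h, h', huv, hvu, huz, hzu, hvz, hzv]
    · exact hpair u v z huu h h' huv hvz huz
    · exact hpair u z v huu h' h huz hzv huv
    · exact hpair v z u hvv (by rw [h, h']) (by rw [h, neg_neg]) hvz hzu hvu
  have hind : LinearIndependent F w := by
    refine Fintype.linearIndependent_iff.2 fun g hg i => ?_
    have := congrArg (L (w i)) hg
    simp [map_sum, L, hw, hf0] at this
    exact this.resolve_right hδ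
  have hexp : ∀ y, y = ∑ i, (f y (w i) / δ) • w i := by
    intro y
    have htop := hind.span_eq_top_of_card_eq_finrank (by simp)
    have hy : y ∈ Submodule.span F (Set.range w) := by rw [htop]; trivial
    obtain ⟨g, rfl⟩ := Submodule.mem_span_range_iff_exists_fun F |>.1 hy
    refine Finset.sum_congr rfl fun i _ => ?_
    congr 1
    show g i = L (w i) (∑ j, g j • w j) / δ
    simp [map_sum, L, hw, hδ]
  refine ⟨δ, w, hδ, hw, hexp, fun B c hc hB k => ?_⟩
  obtain ⟨C, hC⟩ : ∃ C : Matrix (Fin 3) (Fin 3) F, ∀ i j, C i j = f (B (w j)) (w i) / δ :=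
    ⟨fun i j => f (B (w j)) (w i) / δ, fun _ _ => rfl⟩
  have hCC : ∀ i j, f (B (w i)) (B (w j)) = δ * (Cᵀ * C) i j := by
    intro i j
    rw [Matrix.mul_apply, Finset.mul_sum]
    conv_lhs => rw [hexp (B (w i))]
    show L (B (w j)) (∑ l, _) = _
    simp only [map_sum, map_smul, smul_eq_mul, Matrix.transpose_apply, hC]
    refine Finset.sum_congr rfl fun l _ => ?_
    show _ * f (w l) (B (w j)) = _
    rw [hsymm (w l)]
    field_simp
  have hCm : Cᵀ * C = c • (1 : Matrix (Fin 3) (Fin 3) F) := by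
    refine Matrix.ext fun i j => mul_left_cancel₀ hδ ?_
    rw [← hCC, hB, hw, Matrix.smul_apply, Matrix.one_apply, smul_eq_mul]
    split_ifs <;> ring
  have hc1 : c = 1 := by
    have h := congrArg Matrix.det hCm
    rw [det_mul, det_transpose, det_smul, det_one, mul_one, Fintype.card_fin] at h
    have hd : C.det ≠ 0 := fun h0 => by rw [h0, mul_zero] at h; exact pow_ne_zero 3 hc h.symm
    rw [hsq _ hd] at h
    linear_combination (-c) * hsq c hc - h
  have hk := congrFun (congrFun hCm k) k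
  rw [hc1, one_smul, Matrix.one_apply_eq, Matrix.mul_apply, Fin.sum_univ_three] at hk
  simp only [Matrix.transpose_apply] at hk
  have hex := hexp (B (w k))
  rw [Fin.sum_univ_three] at hex
  rcases eq_or_ne (C 0 k) 0 with h0 | h0 <;> rcases eq_or_ne (C 1 k) 0 with h1 | h1 <;>
    rcases eq_or_ne (C 2 k) 0 with h2' | h2'
  all_goals first
    | (refine absurd (show (1 : F) = 0 from ?_) one_ne_zero; simp only [h0, h1, h2', mul_zero, zero_add, add_zero] at hk; linear_combination -hk)
    | (refine ⟨0, C 0 k, ?_⟩; simp only [hC] at h1 h2' ⊢; rw [h1, h2', zero_smul, zero_smul, add_zero, add_zero] at hex; exact hex)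
    | (refine ⟨1, C 1 k, ?_⟩; simp only [hC] at h0 h2' ⊢; rw [h0, h2', zero_smul, zero_smul, zero_add, add_zero] at hex; exact hex)
    | (refine ⟨2, C 2 k, ?_⟩; simp only [hC] at h0 h1 ⊢; rw [h0, h1, zero_smul, zero_smul, zero_add, zero_add] at hex; exact hex)
    | (refine absurd (show (1 : F) = 0 from ?_) one_ne_zero; simp only [h0, h1, h2', mul_zero, zero_add, add_zero, hsq _ h0, hsq _ h1, hsq _ h2'] at hk; linear_combination hk)
    | (refine absurd (show (1 : F) = 0 from ?_) one_ne_zero; simp only [hsq _ h0, hsq _ h1, hsq _ h2'] at hk; linear_combination h3 - hk)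
    | (refine absurd (show (1 : F) = 0 from ?_) one_ne_zero; simp only [h0, mul_zero, zero_add, hsq _ h1, hsq _ h2'] at hk; linear_combination hk)
    | (refine absurd (show (1 : F) = 0 from ?_) one_ne_zero; simp only [h1, mul_zero, add_zero, hsq _ h0, hsq _ h2'] at hk; linear_combination hk)
    | (refine absurd (show (1 : F) = 0 from ?_) one_ne_zero; simp only [h2', mul_zero, add_zero, hsq _ h0, hsq _ h1] at hk; linear_combination hk)

/-- The union of the members attached to a frame of the second factor. -/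
def InMembers {ι : Type} [Fintype ι] [DecidableEq ι] {n₁ n₂ : ℕ} {κ : Type} (e : ι ≃ Fin n₁ × Fin n₂) (P : GL ι F)
    (w : κ → Fin n₂ → F) (z : ι → F) : Prop :=
  ∃ x k, z = pure e P x (w k)

end CfsgLib.GeoTensor
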