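import Cfsg.Agent.GeoLib.NonMax
import Cfsg.Agent.GeoLib.OmegaParabolic
import Cfsg.Agent.GeoLib.TensorTools

/-!
Orthogonal decompositions whose members carry a frame: the stabiliser is contained in that of the frame vectors.
-/

set_option autoImplicit false

open QuadraticMap

namespace CfsgLib.GeoNonMax

open Matrix CfsgLib.GeoOrth CfsgLib.Forms

variable {ι : Type} [Fintype ι] [DecidableEq ι] {F : Type*} [Field F] {Q : QuadraticForm F (ι → F)}
  {t k : ℕ} {D : Fin t → Submodule F (ι → F)}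

/-- The vectors of norm `κ` lying in a member. -/
def InFrame (Q : QuadraticForm F (ι → F)) (D : Fin t → Submodule F (ι → F)) (κ : F) (z : ι → F) : Prop :=
  ∃ i, z ∈ D i ∧ Q z = κ

/-- The indicator of the frame vectors. -/
noncomputable def frameFun (Q : QuadraticForm F (ι → F)) (D : Fin t → Submodule F (ι → F)) (κ : F) (z : ι → F) : F :=
  open Classical in if InFrame Q D κ z then 1 else 0

theorem frame_of_mem {κ : F} {g : GL ι F} (h : g ∈ fixFun (frameFun Q D κ)) {x : ι → F} (hx : InFrame Q D κ x) :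
    InFrame Q D κ ((g : Matrix ι ι F) *ᵥ x) := by
  classical
  by_contra hc
  have := h x
  simp only [frameFun, if_pos hx, if_neg hc] at this
  exact zero_ne_one this

theorem mem_fix_frame {κ : F} {g : GL ι F} (h : ∀ x, InFrame Q D κ x → InFrame Q D κ ((g : Matrix ι ι F) *ᵥ x))
    (h' : ∀ x, InFrame Q D κ x → InFrame Q D κ (((g⁻¹ : GL ι F) : Matrix ι ι F) *ᵥ x)) :
    g ∈ fixFun (frameFun Q D κ) := fun x => by
  classical
  refine if_congr ⟨fun hx => ?_, h x⟩ rfl rfl
  have := h' _ hx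
  rwa [GeoFull.inv_mulVec_cancel] at this

omit [DecidableEq ι] in
theorem refl_twice (u : ι → F) (hu : Q u ≠ 0) (x : ι → F) : refl Q u hu (refl Q u hu x) = x := by
  conv_lhs => enter [1]; rw [← refl_inv hu]
  exact (refl Q u hu).symm_apply_apply x

/-- Exchanging frame vectors between two members gives an element outside the decomposition stabiliser. -/
theorem stab_lt_frame [Finite F] (hQ : (polarBilin Q).Nondegenerate) (h2 : (2 : F) ≠ 0)
    (hD : Cfsg.Geo.IsNondegenerateMDecomposition (polar ⇑Q) k D) (ht : 4 ≤ t) {κ : F} (hκ : κ ≠ 0)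
    {a b : Fin t → ι → F} (ha : ∀ i, a i ∈ D i) (haQ : ∀ i, Q (a i) = κ) (hb : ∀ i, b i ∈ D i) (hb0 : ∀ i, b i ≠ 0)
    (hab : ∀ i, polar Q (b i) (a i) = 0)
    (hfr : ∀ i, ∀ y ∈ D i, Q y = κ → y = a i ∨ y = -a i ∨ polar Q y (a i) = 0) :
    Cfsg.Geo.decompositionStabilizer D ⊓ Cfsg.Geo.omegaGL ⇑Q <
      fixFun (frameFun Q D κ) ⊓ Cfsg.Geo.omegaGL ⇑Q := by
  refine lt_of_le_not_ge (le_inf (fun g hg => ?_) inf_le_right) fun hle => ?_
  · have key : ∀ g ∈ Cfsg.Geo.decompositionStabilizer D ⊓ Cfsg.Geo.omegaGL ⇑Q, ∀ x, InFrame Q D κ x →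
        InFrame Q D κ ((g : Matrix ι ι F) *ᵥ x) := by
      rintro g ⟨⟨σ, hσ⟩, hgO⟩ x ⟨i, hi, hx⟩
      exact ⟨σ i, by rw [← hσ i]; exact ⟨x, hi, Matrix.toLin'_apply _ _⟩, by rw [(polar_omega hgO).1, hx]⟩
    exact mem_fix_frame (key g hg) (key _ (inv_mem hg))
  obtain ⟨i, j, l, p, hij, hil, hip, hjl, hjp, hlp⟩ : ∃ a b c d : Fin t,
      a ≠ b ∧ a ≠ c ∧ a ≠ d ∧ b ≠ c ∧ b ≠ d ∧ c ≠ d :=
    ⟨⟨0, by omega⟩, ⟨1, by omega⟩, ⟨2, by omega⟩, ⟨3, by omega⟩, by simp, by simp, by simp, by simp, by simp, by simp⟩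
  have horth : ∀ i j, i ≠ j → ∀ x ∈ D i, ∀ y ∈ D j, polar Q x y = 0 := hD.orthogonal
  have hQd : ∀ i j, i ≠ j → Q (a i - a j) = 2 * κ := fun i j h => by
    rw [CfsgLib.Forms.map_sub', haQ, haQ, horth i j h _ (ha i) _ (ha j)]; ring
  have hQ0 : ∀ i j, i ≠ j → Q (a i - a j) ≠ 0 := fun i j h => by rw [hQd i j h]; exact mul_ne_zero h2 hκ
  -- one exchange
  have hr : ∀ i j (h : i ≠ j) x, InFrame Q D κ x → InFrame Q D κ (refl Q (a i - a j) (hQ0 i j h) x) := by
    intro i j h x hx
    obtain ⟨c, hc, hxκ⟩ := hx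
    suffices ∃ c', refl Q (a i - a j) (hQ0 i j h) x ∈ D c' by
      obtain ⟨c', hc'⟩ := this
      exact ⟨c', hc', by rw [refl_apply, CfsgLib.Forms.map_sub', QuadraticMap.map_smul, polar_smul_right, hxκ]
                         simp only [smul_eq_mul]; field_simp; ring⟩
    have hp : ∀ y, polar Q y (a i - a j) = polar Q y (a i) - polar Q y (a j) := fun y => polar_sub_right ..
    have hself : ∀ i, polar Q (a i) (a i) = 2 * κ := fun i => by rw [polar_self, haQ, nsmul_eq_mul]; norm_num
    rw [refl_apply]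
    by_cases hci : c = i
    · subst hci
      rw [hp, horth c j h x hc _ (ha j), sub_zero]
      rcases hfr c x hc hxκ with rfl | rfl | h0
      · refine ⟨j, ?_⟩
        rw [hself, hQd c j h, inv_mul_cancel₀ (mul_ne_zero h2 hκ), one_smul, sub_sub_cancel]
        exact ha j
      · refine ⟨j, ?_⟩
        rw [polar_neg_left, hself, hQd c j h, mul_neg, inv_mul_cancel₀ (mul_ne_zero h2 hκ)]
        simp only [neg_smul, one_smul, sub_neg_eq_add]
        rw [← add_sub_assoc, neg_add_cancel, zero_sub]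
        exact neg_mem (ha j)
      · exact ⟨c, by rw [h0, mul_zero, zero_smul, sub_zero]; exact hc⟩
    by_cases hcj : c = j
    · subst hcj
      rw [hp, horth c i h.symm x hc _ (ha i), zero_sub]
      rcases hfr c x hc hxκ with rfl | rfl | h0
      · refine ⟨i, ?_⟩
        rw [hself, hQd i c h, mul_neg, inv_mul_cancel₀ (mul_ne_zero h2 hκ)]
        simp only [neg_smul, one_smul, sub_neg_eq_add, add_sub_cancel]
        exact ha i
      · refine ⟨i, ?_⟩
        rw [polar_neg_left, hself, hQd i c h, neg_neg, inv_mul_cancel₀ (mul_ne_zero h2 hκ), one_smul, neg_sub_left,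
          sub_add_cancel]
        exact neg_mem (ha i)
      · exact ⟨c, by rw [h0, neg_zero, mul_zero, zero_smul, sub_zero]; exact hc⟩
    exact ⟨c, by rw [hp, horth c i hci x hc _ (ha i), horth c j hcj x hc _ (ha j), sub_zero, mul_zero, zero_smul,
      sub_zero]; exact hc⟩
  obtain ⟨g, hgO, hg⟩ := exists_pair hQ (hQ0 i j hij) (u := a l - a p) (by rw [hQd l p hlp, hQd i j hij])
  have hin : g ∈ fixFun (frameFun Q D κ) := by
    refine mem_fix_frame (fun x hx => ?_) (fun x hx => ?_)
    · rw [hg]; exact hr i j hij _ (hr l p hlp x hx)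
    · have e : ((g⁻¹ : GL ι F) : Matrix ι ι F) *ᵥ x =
          refl Q (a l - a p) (hQ0 l p hlp) (refl Q (a i - a j) (hQ0 i j hij) x) := by
        conv_lhs => rw [← refl_twice (Q := Q) (a i - a j) (hQ0 i j hij) x,
          ← refl_twice (Q := Q) (a l - a p) (hQ0 l p hlp) (refl Q (a i - a j) (hQ0 i j hij) x), ← hg,
          GeoFull.inv_mulVec_cancel]
      rw [e]; exact hr l p hlp _ (hr i j hij x hx)
  obtain ⟨σ, hσ⟩ := (hle ⟨hin, hgO⟩).1
  have hb' : ∀ u v (h : u ≠ v), i ≠ u → i ≠ v → ∀ x ∈ D i, refl Q (a u - a v) (hQ0 u v h) x = x :=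
    fun u v h h1 h2 x hx => by
      rw [refl_apply, polar_sub_right, horth i u h1 x hx _ (ha u), horth i v h2 x hx _ (ha v), sub_zero, mul_zero,
        zero_smul, sub_zero]
  have e1 : b i ∈ D (σ i) := by
    rw [← hσ i]
    refine ⟨b i, hb i, ?_⟩
    rw [Matrix.toLin'_apply, hg, hb' l p hlp hil hip _ (hb i), refl_apply, polar_sub_right, hab,
      horth i j hij _ (hb i) _ (ha j), sub_zero, mul_zero, zero_smul, sub_zero]
  have e2 : a j ∈ D (σ i) := by
    rw [← hσ i]
    refine ⟨a i, ha i, ?_⟩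
    rw [Matrix.toLin'_apply, hg, hb' l p hlp hil hip _ (ha i), refl_apply, polar_sub_right, polar_self, haQ,
      horth i j hij _ (ha i) _ (ha j), sub_zero, hQd i j hij, nsmul_eq_mul, Nat.cast_ofNat,
      inv_mul_cancel₀ (mul_ne_zero h2 hκ), one_smul, sub_sub_cancel]
  have ha0 : a j ≠ 0 := fun h => hκ (by rw [← haQ j, h, QuadraticMap.map_zero])
  by_cases h : σ i = i
  · exact ha0 (GeoDecomp.eq_zero_of_mem hD.decomp hij (h ▸ e2) (ha j))
  · exact hb0 i (GeoDecomp.eq_zero_of_mem hD.decomp h e1 (hb i))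

/-- Over three elements some element of `Ω` moves the frame. -/
theorem frame_lt_three [Fintype F] (hq : Fintype.card F = 3) (hQ : (polarBilin Q).Nondegenerate)
    (hn : 5 ≤ Fintype.card ι) (hD : Cfsg.Geo.IsNondegenerateMDecomposition (polar ⇑Q) k D) (ht : 4 ≤ t)
    {κ : F} (hκ : κ ≠ 0) {a : Fin t → ι → F} (ha : ∀ i, a i ∈ D i) (haQ : ∀ i, Q (a i) = κ) :
    fixFun (frameFun Q D κ) ⊓ Cfsg.Geo.omegaGL ⇑Q < Cfsg.Geo.omegaGL ⇑Q := by
  refine lt_of_le_not_ge inf_le_right fun hle => ?_
  have h3 : (3 : F) = 0 := by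
    have h0 : ((Fintype.card F : ℕ) : F) = 0 := FiniteField.cast_card_eq_zero F
    rw [hq] at h0; exact_mod_cast h0
  have hκ2 : κ * κ = 1 := by
    have := FiniteField.pow_card_sub_one_eq_one κ hκ
    rw [hq] at this; linear_combination this
  obtain ⟨i, j, l, p, hij, hil, hip, hjl, hjp, hlp⟩ : ∃ a b c d : Fin t,
      a ≠ b ∧ a ≠ c ∧ a ≠ d ∧ b ≠ c ∧ b ≠ d ∧ c ≠ d :=
    ⟨⟨0, by omega⟩, ⟨1, by omega⟩, ⟨2, by omega⟩, ⟨3, by omega⟩, by simp, by simp, by simp, by simp, by simp, by simp⟩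
  have horth : ∀ i j, i ≠ j → polar Q (a i) (a j) = 0 := fun i j h => hD.orthogonal i j h _ (ha i) _ (ha j)
  have hd : Q (a i + a j + a l) = 0 := by
    rw [QuadraticMap.map_add (⇑Q), QuadraticMap.map_add (⇑Q), polar_add_left, haQ, haQ, haQ, horth i j hij,
      horth i l hil, horth j l hjl]
    linear_combination κ * h3
  have hda : polar Q (a i + a j + a l) (a p) = 0 := by
    rw [polar_add_left, polar_add_left, horth i p hip, horth j p hjp, horth l p hlp]; ring
  obtain ⟨g, hgO, hg⟩ := exists_isSiegel hQ hn hd hda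
  obtain ⟨c, hc, -⟩ := frame_of_mem (hle hgO).1 ⟨i, ha i, haQ i⟩
  have e : (g : Matrix ι ι F) *ᵥ a i = (2 : F) • a i + (1 : F) • a j + (1 : F) • a l + κ • a p := by
    rw [hg, horth p i hip.symm, polar_add_left, polar_add_left, horth j i hij.symm, horth l i hil.symm, polar_self,
      haQ, haQ, nsmul_eq_mul, Nat.cast_ofNat, add_zero, add_zero]
    match_scalars
    · linear_combination -2 * hκ2 - h3
    · linear_combination -2 * hκ2 - h3
    · linear_combination -2 * hκ2 - h3
    · linear_combination (-κ) * h3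
  rw [e] at hc
  obtain ⟨π, -, -, hπ3, hπ4⟩ := GeoDecomp.exists_proj hD.decomp
  have ha0 : ∀ u, a u ≠ 0 := fun u h => hκ (by rw [← haQ u, h, QuadraticMap.map_zero])
  by_cases hcj : c = j
  · subst hcj
    have h := hπ4 l c hjl.symm _ hc
    rw [map_add, map_add, map_add, map_smul, map_smul, map_smul, map_smul, hπ4 l i hil.symm _ (ha i),
      hπ4 l c hjl.symm _ (ha c), hπ4 l p hlp _ (ha p), hπ3 l _ (ha l)] at h
    simp only [smul_zero, zero_add, add_zero, one_smul] at h
    exact ha0 l h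
  · have h := hπ4 j c (Ne.symm hcj) _ hc
    rw [map_add, map_add, map_add, map_smul, map_smul, map_smul, map_smul, hπ4 j i hij.symm _ (ha i),
      hπ4 j l hjl _ (ha l), hπ4 j p hjp _ (ha p), hπ3 j _ (ha j)] at h
    simp only [smul_zero, zero_add, add_zero, one_smul] at h
    exact ha0 j h

/-- A frame vector in a member of dimension two or three over three elements. -/
theorem exists_frame_vec [Fintype F] (hq : Fintype.card F = 3) (hk : k = 2 ∨ k = 3) {W : Submodule F (ι → F)}
    (hW : Module.finrank F W = k) (hnd : Cfsg.Geo.IsNondegenerateOn (polar ⇑Q) W) :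
    ∃ a ∈ W, Q a ≠ 0 ∧ (∃ b ∈ W, b ≠ 0 ∧ polar Q b a = 0) ∧
      ∀ y ∈ W, Q y = Q a → y = a ∨ y = -a ∨ polar Q y a = 0 := by
  have h3 : (3 : F) = 0 := by
    have h0 : ((Fintype.card F : ℕ) : F) = 0 := FiniteField.cast_card_eq_zero F
    rw [hq] at h0; exact_mod_cast h0
  have hsq : ∀ z : F, z ≠ 0 → z * z = 1 := fun z hz => by
    have := FiniteField.pow_card_sub_one_eq_one z hz
    rw [hq] at this; linear_combination this
  have hpm : ∀ z : F, z ≠ 0 → z = 1 ∨ z = -1 := fun z hz => mul_self_eq_one_iff.1 (hsq z hz)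
  rcases hk with rfl | rfl
  · obtain ⟨a, ha, haQ⟩ : ∃ a ∈ W, Q a ≠ 0 := by
      by_contra hall
      push Not at hall
      obtain ⟨x, hx, hx0⟩ := W.exists_mem_ne_zero_of_ne_bot fun h => by rw [h, finrank_bot] at hW; omega
      obtain ⟨-, y, hy, hxy⟩ := hnd x hx hx0
      exact hxy (by rw [polar, hall _ (add_mem hx hy), hall x hx, hall y hy]; ring)
    have ha0 : a ≠ 0 := fun h => haQ (by rw [h, QuadraticMap.map_zero])
    obtain ⟨b₀, hb₀, hout⟩ : ∃ b ∈ W, b ∉ Submodule.span F {a} := by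
      refine SetLike.not_le_iff_exists.1 fun hle => ?_
      have := Submodule.finrank_mono hle
      rw [hW, finrank_span_singleton ha0] at this
      omega
    have haa : polar Q a a ≠ 0 := by
      rw [polar_self, nsmul_eq_mul, Nat.cast_ofNat]
      exact mul_ne_zero (fun h => one_ne_zero (α := F) (by linear_combination h3 - h)) haQ
    set b := b₀ - (polar Q b₀ a / polar Q a a) • a with hbdef
    have hb : b ∈ W := sub_mem hb₀ (W.smul_mem _ ha)
    have hba : polar Q b a = 0 := by
      rw [hbdef, polar_sub_left, polar_smul_left, smul_eq_mul, div_mul_cancel₀ _ haa, sub_self]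
    have hb0 : b ≠ 0 := fun h => hout (Submodule.mem_span_singleton.2 ⟨_, (sub_eq_zero.1 h).symm⟩)
    have hli : LinearIndependent F ![a, b] := (LinearIndependent.pair_iff' ha0).2 fun c hc => hb0 (by
      rw [← hc, polar_smul_left, smul_eq_mul] at hba
      rw [← hc, (mul_eq_zero.1 hba).resolve_right haa, zero_smul])
    have hspan : Submodule.span F {a, b} = W := Submodule.eq_of_le_of_finrank_le
      (Submodule.span_le.2 (by rintro z (rfl | rfl); exacts [ha, hb]))
      (by rw [hW, ← Matrix.range_cons_cons_empty a b ![], finrank_span_eq_card hli]; simp)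
    have hab : polar Q a b = 0 := by rw [polar_comm, hba]
    refine ⟨a, ha, haQ, ⟨b, hb, hb0, hba⟩, fun y hy hyQ => ?_⟩
    rw [← hspan, Submodule.mem_span_pair] at hy
    obtain ⟨r, s, rfl⟩ := hy
    rcases eq_or_ne r 0 with rfl | hr
    · exact Or.inr (Or.inr (by rw [zero_smul, zero_add, polar_smul_left, hba, smul_zero]))
    rcases eq_or_ne s 0 with rfl | hs
    · rcases hpm r hr with rfl | rfl
      · exact Or.inl (by simp)
      · exact Or.inr (Or.inl (by simp))
    rw [QuadraticMap.map_add (⇑Q), QuadraticMap.map_smul, QuadraticMap.map_smul, polar_smul_left, polar_smul_right,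
      hab, hsq r hr, hsq s hs] at hyQ
    have hbQ : Q b = 0 := by simpa using hyQ
    obtain ⟨-, x, hx, hbx⟩ := hnd b hb hb0
    rw [← hspan, Submodule.mem_span_pair] at hx
    obtain ⟨r', s', rfl⟩ := hx
    exact absurd (by rw [polar_add_right, polar_smul_right, polar_smul_right, hba, polar_self, hbQ]; simp) hbx
  · let L : (Fin 3 → F) ≃ₗ[F] W := (Module.finBasisOfFinrankEq F W hW).equivFun.symm
    obtain ⟨δ, w, hδ, hw, hexp, -⟩ := GeoTensor.exists_frame_three hq
      (f := fun y y' => polar Q (L y : ι → F) (L y' : ι → F))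
      { bilinear :=
          { add_left := fun x y v => by simp [polar_add_left]
            smul_left := fun c x v => by simp [polar_smul_left]
            add_right := fun v x y => by simp [polar_add_right]
            smul_right := fun c v x => by simp [polar_smul_right] }
        symm := fun u v => polar_comm _ _ _
        nondegenerate := fun v hv => by
          have hv' : (L v : ι → F) ≠ 0 := fun h => hv (by simpa using h)
          obtain ⟨⟨x, hx, h1⟩, y, hy, h2⟩ := hnd (L v : ι → F) (L v).2 hv'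
          exact ⟨⟨L.symm ⟨x, hx⟩, by simpa using h1⟩, L.symm ⟨y, hy⟩, by simpa using h2⟩ }
    set a : ι → F := (L (w 0) : ι → F) with ha
    have hQw : ∀ i, 2 * Q (L (w i) : ι → F) = δ := fun i => by
      have := hw i i
      rwa [if_pos rfl, polar_self, nsmul_eq_mul, Nat.cast_ofNat] at this
    have hbne : (L (w 1) : ι → F) ≠ 0 := fun h => hδ (by rw [← hQw 1, h, QuadraticMap.map_zero, mul_zero])
    refine ⟨a, (L (w 0)).2, fun h => hδ (by rw [← hQw 0, ← ha, h, mul_zero]),
      ⟨L (w 1), (L (w 1)).2, hbne, by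
        have := hw 1 0
        rwa [if_neg (by decide)] at this⟩, fun y hy hyQ => ?_⟩
    set z := L.symm ⟨y, hy⟩
    have hz : y = (L z : ι → F) := by simp [z]
    set C : Fin 3 → F := fun i => polar Q (L z : ι → F) (L (w i) : ι → F) / δ with hC
    have hzC : (L z : ι → F) = C 0 • (L (w 0) : ι → F) + C 1 • (L (w 1) : ι → F) + C 2 • (L (w 2) : ι → F) := by
      have := congrArg (fun v => (L v : ι → F)) (hexp z)
      rw [Fin.sum_univ_three] at this
      simpa [hC] using this
    have hp : ∀ i, polar Q (L z : ι → F) (L (w i) : ι → F) = C i * δ := fun i => by rw [hC]; field_simp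
    have hsum : C 0 * C 0 + C 1 * C 1 + C 2 * C 2 = 1 := by
      have h1 : polar Q (L z : ι → F) (L z : ι → F) = δ := by
        rw [polar_self, ← hz, hyQ, nsmul_eq_mul, Nat.cast_ofNat, ha, hQw 0]
      conv at h1 => lhs; arg 3; rw [hzC]
      simp only [polar_add_right, polar_smul_right, hp, smul_eq_mul] at h1
      exact mul_right_cancel₀ hδ (by linear_combination h1)
    rcases eq_or_ne (C 0) 0 with h0 | h0
    · exact Or.inr (Or.inr (by rw [hz, ha, hp, h0, zero_mul]))
    rw [hsq _ h0] at hsum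
    obtain ⟨h1, h2⟩ : C 1 = 0 ∧ C 2 = 0 := by
      rcases eq_or_ne (C 1) 0 with h1 | h1 <;> rcases eq_or_ne (C 2) 0 with h2 | h2
      · exact ⟨h1, h2⟩
      · rw [h1, hsq _ h2] at hsum; exact absurd (show (1 : F) = 0 by linear_combination hsum) one_ne_zero
      · rw [h2, hsq _ h1] at hsum; exact absurd (show (1 : F) = 0 by linear_combination hsum) one_ne_zero
      · rw [hsq _ h1, hsq _ h2] at hsum; exact absurd (show (1 : F) = 0 by linear_combination h3 - hsum) one_ne_zero
    rw [h1, h2, zero_smul, zero_smul, add_zero, add_zero] at hzC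
    rcases hpm _ h0 with h | h
    · exact Or.inl (by rw [hz, hzC, h, one_smul])
    · exact Or.inr (Or.inl (by rw [hz, hzC, h, neg_smul, one_smul]))

/-- Over three elements the stabiliser of an orthogonal decomposition into planes or three-spaces is not maximal. -/
theorem not_maximal_three [Fintype F] (hq : Fintype.card F = 3) (hQ : (polarBilin Q).Nondegenerate)
    (hn : 13 ≤ Fintype.card ι) (hk : k = 2 ∨ k = 3) (hD : Cfsg.Geo.IsOrthogonalMDecomposition (⇑Q) k D) :
    ∃ K : Subgroup (GL ι F), Cfsg.Geo.decompositionStabilizer D ⊓ Cfsg.Geo.omegaGL ⇑Q < K ∧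
      K < Cfsg.Geo.omegaGL ⇑Q := by
  have h2 : (2 : F) ≠ 0 := by
    intro h
    have h0 : ((Fintype.card F : ℕ) : F) = 0 := FiniteField.cast_card_eq_zero F
    rw [hq] at h0
    exact one_ne_zero (α := F) (by norm_num at h0; linear_combination h0 - h)
  have hcard : Fintype.card ι = t * k := by
    have hint : DirectSum.IsInternal D :=
      DirectSum.isInternal_submodule_of_iSupIndep_of_iSup_eq_top hD.decomp.decomp.indep hD.decomp.decomp.iSup_eq_top
    have h1 : Module.finrank F (ι → F) = ∑ i, Module.finrank F (D i) := by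
      rw [← Module.finrank_directSum]
      exact (LinearEquiv.ofBijective (DirectSum.coeLinearMap D) hint).finrank_eq.symm
    simpa [hD.decomp.decomp.finrank_eq] using h1
  have ht : 4 ≤ t := by rcases hk with rfl | rfl <;> omega
  obtain ⟨a₀, ha₀, hκ, ⟨b₀, hb₀, hb₀0, hba⟩, hfr⟩ :=
    exists_frame_vec hq hk (hD.decomp.decomp.finrank_eq ⟨0, by omega⟩) (hD.decomp.nondegenerate _)
  choose E hE using fun i => hD.isometric ⟨0, by omega⟩ i
  have hEp : ∀ i (x y : D ⟨0, by omega⟩), polar Q (E i x : ι → F) (E i y : ι → F) = polar Q (x : ι → F) y := by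
    intro i x y
    simp only [polar, ← Submodule.coe_add, ← map_add, hE]
  refine ⟨fixFun (frameFun Q D (Q a₀)) ⊓ Cfsg.Geo.omegaGL ⇑Q, ?_, ?_⟩
  · refine stab_lt_frame hQ h2 hD.decomp ht hκ (a := fun i => (E i ⟨a₀, ha₀⟩ : ι → F))
      (b := fun i => (E i ⟨b₀, hb₀⟩ : ι → F)) (fun i => (E i _).2) (fun i => hE i _) (fun i => (E i _).2)
      (fun i h => hb₀0 (by simpa using h)) (fun i => by rw [hEp]; exact hba) fun i y hy hyQ => ?_
    obtain ⟨x, hx⟩ := (E i).surjective ⟨y, hy⟩
    have hxy : (E i x : ι → F) = y := congrArg Subtype.val hx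
    rw [← hxy] at hyQ ⊢
    rw [hE] at hyQ
    rcases hfr x x.2 hyQ with h | h | h
    · exact Or.inl (by rw [show x = ⟨a₀, ha₀⟩ from Subtype.ext h])
    · exact Or.inr (Or.inl (by rw [show x = -⟨a₀, ha₀⟩ from Subtype.ext h, map_neg, Submodule.coe_neg]))
    · exact Or.inr (Or.inr (by rw [hEp]; exact h))
  · exact frame_lt_three hq hQ (by omega) hD.decomp ht hκ (a := fun i => (E i ⟨a₀, ha₀⟩ : ι → F))
      (fun i => (E i _).2) (fun i => hE i _)

end CfsgLib.GeoNonMax
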