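import Cfsg.Agent.GeoLib.Transvection
import Cfsg.Agent.SLn.Basic

/-!
A subgroup containing the transvections fixing a subspace `W`, and an element moving `W`,
contains all transvections; maximality of parabolic subgroups.
-/

set_option autoImplicit false

namespace CfsgLib.GeoParabolic

open Matrix

variable {ι : Type} [Fintype ι] [DecidableEq ι] {F : Type*} [Field F]

/-- `M` contains the transvection with centre `v` and functional `φ`. -/
def HasTv (M : Subgroup (GL ι F)) (v : ι → F) (φ : Module.Dual F (ι → F)) : Prop :=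
  ∀ g : GL ι F, (∀ x, (g : Matrix ι ι F) *ᵥ x = x + φ x • v) → g ∈ M

theorem hasTv_conj {M : Subgroup (GL ι F)} {g : GL ι F} (hg : g ∈ M) {v : ι → F}
    {φ : Module.Dual F (ι → F)} (h : HasTv M v φ) :
    HasTv M ((g : Matrix ι ι F) *ᵥ v) (φ.comp (Matrix.toLin' ((g⁻¹ : GL ι F) : Matrix ι ι F))) := by
  intro t ht
  have hmem : g⁻¹ * t * g ∈ M := h _ fun x => by
    rw [Units.val_mul, Units.val_mul, ← mulVec_mulVec, ← mulVec_mulVec, ht, mulVec_add, mulVec_smul,
      mulVec_mulVec, mulVec_mulVec, ← Units.val_mul, inv_mul_cancel, Units.val_one, one_mulVec, one_mulVec,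
      LinearMap.comp_apply, Matrix.toLin'_apply, mulVec_mulVec, ← Units.val_mul, inv_mul_cancel,
      Units.val_one, one_mulVec]
  have : t = g * (g⁻¹ * t * g) * g⁻¹ := by group
  rw [this]
  exact mul_mem (mul_mem hg hmem) (inv_mem hg)

/-- Every transvection centred at `v` is in `M`. -/
def Full (M : Subgroup (GL ι F)) (v : ι → F) : Prop :=
  ∀ φ : Module.Dual F (ι → F), φ v = 0 → HasTv M v φ

theorem full_smul {M : Subgroup (GL ι F)} {v : ι → F} (h : Full M v) (c : F) : Full M (c • v) := by
  intro φ hφ g hg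
  rcases eq_or_ne c 0 with rfl | hc
  · have : g = 1 := Units.ext (Matrix.ext_iff_mulVec.2 fun x => by simp [hg x])
    rw [this]; exact one_mem M
  refine h (c • φ) ?_ g fun x => by rw [hg, LinearMap.smul_apply, smul_smul, smul_eq_mul, mul_comm]
  rw [map_smul, smul_eq_mul, mul_eq_zero] at hφ
  simp [hφ.resolve_left hc]

theorem full_map {M : Subgroup (GL ι F)} {g : GL ι F} (hg : g ∈ M) {v : ι → F} (h : Full M v) :
    Full M ((g : Matrix ι ι F) *ᵥ v) := by
  intro φ hφ t ht
  have h0 := h (φ.comp (Matrix.toLin' (g : Matrix ι ι F))) (by simpa using hφ)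
  refine hasTv_conj hg h0 t fun x => ?_
  rw [ht, LinearMap.comp_apply, LinearMap.comp_apply, Matrix.toLin'_apply, Matrix.toLin'_apply, mulVec_mulVec,
    ← Units.val_mul, mul_inv_cancel, Units.val_one, one_mulVec]

/-- The transvections fixing `W` and one element moving it give all transvections. -/
theorem full_of_moving (M : Subgroup (GL ι F)) (W : Submodule F (ι → F))
    (h1 : ∀ v φ, φ v = 0 → (v ∈ W ∨ ∀ x ∈ W, φ x = 0) → HasTv M v φ) {g : GL ι F} (hg : g ∈ M)
    (hgW : g ∉ Cfsg.Geo.subspaceStabilizer W) : ∀ v, Full M v := by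
  have hW : ∀ v ∈ W, Full M v := fun v hv φ hφ => h1 v φ hφ (Or.inl hv)
  obtain ⟨w, hw, hgw⟩ : ∃ w ∈ W, (g : Matrix ι ι F) *ᵥ w ∉ W := by
    by_contra hall
    push Not at hall
    refine hgW ((GeoTransvection.mem_subspaceStabilizer_iff W g).2 fun x => ⟨hall x, fun hx => ?_⟩)
    have hmap : W.map (Matrix.toLin' (g : Matrix ι ι F)) = W := by
      refine Submodule.eq_of_le_of_finrank_le ?_ ?_
      · rintro _ ⟨y, hy, rfl⟩; simpa using hall y hy
      · have hinj : Function.Injective (Matrix.toLin' (g : Matrix ι ι F)) := fun a b h =>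
          mulVec_injective_of_isUnit g.isUnit (by simpa using h)
        exact ((Submodule.equivMapOfInjective _ hinj W).finrank_eq).le
    rw [← hmap] at hx
    obtain ⟨y, hy, e⟩ := hx
    rw [Matrix.toLin'_apply] at e
    exact mulVec_injective_of_isUnit g.isUnit e ▸ hy
  have hstart := full_map hg (hW w hw)
  set v₀ := (g : Matrix ι ι F) *ᵥ w
  -- translations by vectors transverse to the centre
  have hstep : ∀ v v' : ι → F, v ∉ W ⊔ Submodule.span F {v' - v} → Full M v → Full M v' := by
    intro v v' hout hv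
    obtain ⟨φ, hφv, hφ⟩ := Submodule.exists_dual_map_eq_bot_of_notMem hout inferInstance
    have h0 : ∀ x ∈ W ⊔ Submodule.span F {v' - v}, φ x = 0 := fun x hx =>
      (Submodule.mem_bot F).mp (hφ ▸ Submodule.mem_map_of_mem hx)
    have hψd : ((φ v)⁻¹ • φ) (v' - v) = 0 := by
      rw [LinearMap.smul_apply, h0 _ (Submodule.mem_sup_right (Submodule.mem_span_singleton_self _)), smul_zero]
    obtain ⟨t, -, ht⟩ := GeoTransvection.exists_transvection (v' - v) _ hψd
    have htM : t ∈ M := h1 _ _ hψd (Or.inr fun x hx => by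
      rw [LinearMap.smul_apply, h0 x (Submodule.mem_sup_left hx), smul_zero]) t ht
    have := full_map htM hv
    rwa [ht, LinearMap.smul_apply, smul_eq_mul, inv_mul_cancel₀ hφv, one_smul, add_sub_cancel] at this
  intro v'
  by_cases hv' : v' ∈ W
  · exact hW v' hv'
  by_cases hout : v₀ ∉ W ⊔ Submodule.span F {v' - v₀}
  · exact hstep v₀ v' hout hstart
  push Not at hout
  obtain ⟨a, ha, b, hb, hab⟩ := Submodule.mem_sup.1 hout
  obtain ⟨c, rfl⟩ := Submodule.mem_span_singleton.1 hb
  have hc : c ≠ 0 := fun h => hgw (by rw [← hab, h, zero_smul, add_zero]; exact ha)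
  -- `v'` is a scalar multiple of a translate of `v₀` by an element of `W`
  have hv : v' = c⁻¹ • ((1 + c) • v₀ - a) := by
    have e : c • v' = (1 + c) • v₀ - a := by
      rw [add_smul, one_smul]
      conv_rhs => enter [1, 1]; rw [← hab]
      rw [smul_sub]; abel
    rw [← e, smul_smul, inv_mul_cancel₀ hc, one_smul]
  have h1c : 1 + c ≠ 0 := fun h => hv' (by
    rw [hv, h, zero_smul, zero_sub]
    exact W.smul_mem _ (W.neg_mem ha))
  have hv2 : v' = (c⁻¹ * (1 + c)) • (v₀ + (-(1 + c)⁻¹) • a) := by
    rw [hv]; match_scalars <;> field_simp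
  rw [hv2]
  refine full_smul (hstep v₀ _ (fun hmem => hgw ?_) hstart) _
  rw [add_sub_cancel_left] at hmem
  have hle : Submodule.span F {(-(1 + c)⁻¹) • a} ≤ W :=
    (Submodule.span_singleton_le_iff_mem _ _).2 (W.smul_mem _ ha)
  rwa [sup_eq_left.2 hle] at hmem

/-- A subgroup with all transvections contains the special linear group. -/
theorem specialLinear_le [Nontrivial ι] (M : Subgroup (GL ι F)) (h : ∀ v, Full M v) :
    Cfsg.Geo.specialLinear ι F ≤ M := by
  intro g hg
  rw [Cfsg.Geo.specialLinear, MonoidHom.mem_ker] at hg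
  have hd : (g : Matrix ι ι F).det = 1 := congrArg Units.val hg
  have htop := CfsgLib.SLn.eq_top_of_transvection
    (M.comap (Matrix.SpecialLinearGroup.toGL : Matrix.SpecialLinearGroup ι F →* GL ι F)) fun i j hij c => by
    rw [Subgroup.mem_comap]
    refine h (Pi.single i c) (LinearMap.proj j) (by simp [hij.symm]) _ fun x => ?_
    funext k
    show (Matrix.transvection i j c *ᵥ x) k = _
    by_cases hk : k = i
    · subst hk
      simp [Matrix.transvection, Matrix.single, mulVec, dotProduct, add_mul, Finset.sum_add_distrib, Matrix.one_apply, ite_and, mul_comm, mul_add, mul_ite]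
    · simp [Matrix.transvection, Matrix.single, mulVec, dotProduct, add_mul, Finset.sum_add_distrib, Matrix.one_apply, ite_and, hk, Ne.symm hk]
  have hmem : (⟨(g : Matrix ι ι F), hd⟩ : Matrix.SpecialLinearGroup ι F) ∈
      M.comap (Matrix.SpecialLinearGroup.toGL : Matrix.SpecialLinearGroup ι F →* GL ι F) := by
    rw [htop]; trivial
  have hmem' : Matrix.SpecialLinearGroup.toGL (⟨(g : Matrix ι ι F), hd⟩ : Matrix.SpecialLinearGroup ι F) ∈ M := hmem
  convert hmem' using 1
  exact Units.ext rfl

/-- The subspace stabiliser is maximal among subgroups containing `SL`-intersection. -/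
theorem specialLinear_le_of_lt [Nontrivial ι] (W : Submodule F (ι → F)) (M : Subgroup (GL ι F))
    (hle : Cfsg.Geo.subspaceStabilizer W ⊓ Cfsg.Geo.specialLinear ι F ≤ M) {g : GL ι F} (hg : g ∈ M)
    (hgW : g ∉ Cfsg.Geo.subspaceStabilizer W) : Cfsg.Geo.specialLinear ι F ≤ M := by
  refine specialLinear_le M (full_of_moving M W (fun v φ hφ hor t ht => hle ⟨?_, ?_⟩) hg hgW)
  · refine (GeoTransvection.mem_subspaceStabilizer_iff W t).2 fun x => ?_
    rcases hor with hv | hW0
    · rw [ht]; exact (W.add_mem_iff_left (W.smul_mem _ hv)).symm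
    · constructor
      · intro hx; rw [ht, hW0 x hx, zero_smul, add_zero]; exact hx
      · intro hx
        have h0 := hW0 _ hx
        rw [ht, map_add, map_smul, hφ, smul_zero, add_zero] at h0
        rwa [ht, h0, zero_smul, add_zero] at hx
  · obtain ⟨s, hs, hs'⟩ := GeoTransvection.exists_transvection v φ hφ
    rwa [show t = s from Units.ext (Matrix.ext_iff_mulVec.2 fun x => by rw [ht, hs'])]

end CfsgLib.GeoParabolic
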