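import Cfsg.Agent.GeoLib.HermFull
import Cfsg.Agent.UGeom.Simple

/-!
Unitary transvections inside a subgroup of GL: the closure properties of their centres, and generation.
-/

set_option autoImplicit false

namespace CfsgLib.GeoSU

open Matrix CfsgLib.GeoParabolic CfsgLib.GeoFull CfsgLib.GeoHerm

variable {F : Type*} [Field F] [Fintype F] {q n : ℕ}

/-- The standard form, linear in the second argument. -/
def stdHerm (C : UGeom.Conj F q) (n : ℕ) : Herm (Fin n) F where
  σ := C.σ
  ne_id := C.ne_id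
  invol := C.invol
  B :=
    { toFun := fun v =>
        { toFun := fun x => Cfsg.hermForm n F q x v
          map_add' := fun x y => UGeom.form_add_left x y v
          map_smul' := fun c x => by rw [RingHom.id_apply, smul_eq_mul]; exact UGeom.form_smul_left c x v }
      map_add' := fun u v => LinearMap.ext fun x => UGeom.form_add_right C x u v
      map_smul' := fun c v => LinearMap.ext fun x => UGeom.form_smul_right C c x v }
  symm := fun u v => UGeom.form_conj C v u
  inj := fun u v h => UGeom.ext_form C fun x => by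
    have := LinearMap.congr_fun h x
    simp only [LinearMap.coe_mk, AddHom.coe_mk] at this
    rw [← UGeom.form_conj C x u, ← UGeom.form_conj C x v]
    exact congrArg C.σ this

theorem stdHerm_apply (C : UGeom.Conj F q) (u v : Fin n → F) :
    (stdHerm C n).B u v = Cfsg.hermForm n F q v u := rfl

theorem mem_GU {g : GL (Fin n) F} : g ∈ Cfsg.GU n F q ↔ ∀ u v,
    Cfsg.hermForm n F q ((g : Matrix (Fin n) (Fin n) F) *ᵥ u) ((g : Matrix (Fin n) (Fin n) F) *ᵥ v) =
      Cfsg.hermForm n F q u v := Iff.rfl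

/-- `w` is an isotropic centre all of whose unitary transvections lie in `M`. -/
def Cent (C : UGeom.Conj F q) (M : Subgroup (GL (Fin n) F)) (w : Fin n → F) : Prop :=
  Cfsg.hermForm n F q w w = 0 ∧ ∀ c : F, c + C.σ c = 0 → HasTv M w (c • (stdHerm C n).B w)

variable (C : UGeom.Conj F q) {M : Subgroup (GL (Fin n) F)}

theorem utv_mem_GU {w : Fin n → F} (hw : Cfsg.hermForm n F q w w = 0) {c : F} (hc : c + C.σ c = 0)
    {g : GL (Fin n) F}
    (hg : ∀ x, (g : Matrix (Fin n) (Fin n) F) *ᵥ x = x + (c • (stdHerm C n).B w) x • w) :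
    g ∈ Cfsg.GU n F q ⊓ Cfsg.Geo.specialLinear (Fin n) F := by
  refine ⟨mem_GU.2 fun x y => ?_, ?_⟩
  · rw [hg, hg]
    simp only [LinearMap.smul_apply, stdHerm_apply, smul_eq_mul, UGeom.form_add_left, UGeom.form_add_right C,
      UGeom.form_smul_left, UGeom.form_smul_right C, hw, map_mul, UGeom.form_conj C]
    linear_combination (Cfsg.hermForm n F q x w * Cfsg.hermForm n F q w y) * hc
  · obtain ⟨s, hs, hs'⟩ := GeoTransvection.exists_transvection w (c • (stdHerm C n).B w) (by
      simp [stdHerm_apply, hw])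
    rwa [show g = s from gl_ext fun x => by rw [hg, hs']]

theorem cent_map {g : GL (Fin n) F} (hg : g ∈ M) (hgU : g ∈ Cfsg.GU n F q) {w : Fin n → F} (h : Cent C M w) :
    Cent C M ((g : Matrix (Fin n) (Fin n) F) *ᵥ w) := by
  refine ⟨by rw [mem_GU.1 hgU, h.1], fun c hc => ?_⟩
  have e : (c • (stdHerm C n).B w).comp (Matrix.toLin' ((g⁻¹ : GL (Fin n) F) : Matrix (Fin n) (Fin n) F)) =
      c • (stdHerm C n).B ((g : Matrix (Fin n) (Fin n) F) *ᵥ w) := LinearMap.ext fun x => by
    show c * Cfsg.hermForm n F q _ w = c * Cfsg.hermForm n F q x _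
    rw [Matrix.toLin'_apply, ← mem_GU.1 hgU, mulVec_inv_cancel]
  rw [← e]
  exact hasTv_conj hg (h.2 c hc)

theorem cent_smul (a : F) {w : Fin n → F} (h : Cent C M w) : Cent C M (a • w) := by
  refine ⟨by rw [UGeom.form_smul_left, UGeom.form_smul_right C, h.1, mul_zero, mul_zero], fun c hc g hg => ?_⟩
  refine h.2 (c * (C.σ a * a)) ?_ g fun x => ?_
  · rw [map_mul, map_mul, C.invol]; linear_combination (C.σ a * a) * hc
  · rw [hg]
    simp only [LinearMap.smul_apply, stdHerm_apply, UGeom.form_smul_right C, smul_eq_mul, smul_smul]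
    congr 2
    ring

theorem cent_add (hM : M ≤ Cfsg.GU n F q) {v w : Fin n → F} (hv : Cent C M v) (hw : Cent C M w) {c : F}
    (hc : c + C.σ c = 0) : Cent C M (v + (c * Cfsg.hermForm n F q v w) • w) := by
  obtain ⟨t, -, ht⟩ := GeoTransvection.exists_transvection w (c • (stdHerm C n).B w) (by
    simp [stdHerm_apply, hw.1])
  have htM : t ∈ M := hw.2 c hc t ht
  have := cent_map C htM (hM htM) hv
  rwa [ht] at this

/-- A subgroup with all unitary transvections contains `SU`. -/
theorem le_of_cent (hn : 4 ≤ n) (h : ∀ w, Cfsg.hermForm n F q w w = 0 → Cent C M w) :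
    Cfsg.GU n F q ⊓ Cfsg.Geo.specialLinear (Fin n) F ≤ M := by
  intro g hg
  have hd : (g : Matrix (Fin n) (Fin n) F).det = 1 := congrArg Units.val (MonoidHom.mem_ker.1 hg.2)
  let ψ : Cfsg.SU n F q →* GL (Fin n) F := Matrix.SpecialLinearGroup.toGL.comp (Cfsg.SU n F q).subtype
  have htop := UGeom.eq_top_of_utv C (by omega) (by omega) (M.comap ψ) fun v c hv hc =>
    (h v hv).2 c hc _ fun x => UGeom.utv_mulVec C v c hv hc x
  have hA : (⟨(g : Matrix (Fin n) (Fin n) F), hd⟩ : Matrix.SpecialLinearGroup (Fin n) F) ∈ Cfsg.SU n F q :=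
    fun x y => mem_GU.1 hg.1 x y
  have hmem : (⟨_, hA⟩ : Cfsg.SU n F q) ∈ M.comap ψ := by rw [htop]; trivial
  rwa [show g = ψ ⟨_, hA⟩ from Units.ext rfl]

end CfsgLib.GeoSU
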