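import Cfsg.Agent.GeoLib.SUGL
import Cfsg.Agent.UGeom.Count

/-!
Unitary maps moving vectors inside a subspace, with prescribed determinant; Eichler moves.
-/

set_option autoImplicit false

namespace CfsgLib.GeoSU

open Matrix CfsgLib.GeoFull CfsgLib.GeoHerm

variable {F : Type*} [Field F] [Fintype F] {q n : ℕ}

local notation "h[" u "," v "]" => Cfsg.hermForm n F q u v

/-- `g` moves vectors only along `S` and fixes what is orthogonal to `S`. -/
def Loc (q : ℕ) (S : Submodule F (Fin n → F)) (g : GL (Fin n) F) : Prop :=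
  g ∈ Cfsg.GU n F q ∧ (∀ x, (g : Matrix (Fin n) (Fin n) F) *ᵥ x - x ∈ S) ∧
    ∀ x, (∀ s ∈ S, Cfsg.hermForm n F q x s = 0) → (g : Matrix (Fin n) (Fin n) F) *ᵥ x = x

theorem loc_mul {S : Submodule F (Fin n → F)} {g g' : GL (Fin n) F} (h : Loc q S g) (h' : Loc q S g') :
    Loc q S (g * g') := by
  refine ⟨mul_mem h.1 h'.1, fun x => ?_, fun x hx => ?_⟩
  · have := add_mem (h.2.1 ((g' : Matrix (Fin n) (Fin n) F) *ᵥ x)) (h'.2.1 x)
    rwa [sub_add_sub_cancel, mulVec_mulVec, ← Units.val_mul] at this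
  · rw [Units.val_mul, ← mulVec_mulVec, h'.2.2 x hx, h.2.2 x hx]

theorem loc_mono {S T : Submodule F (Fin n → F)} (hST : S ≤ T) {g : GL (Fin n) F} (h : Loc q S g) : Loc q T g :=
  ⟨h.1, fun x => hST (h.2.1 x), fun x hx => h.2.2 x fun s hs => hx s (hST hs)⟩

theorem loc_mapsTo {S : Submodule F (Fin n → F)} {g : GL (Fin n) F} (h : Loc q S g) {x : Fin n → F}
    (hx : x ∈ S) : (g : Matrix (Fin n) (Fin n) F) *ᵥ x ∈ S := by
  have := add_mem (h.2.1 x) hx
  rwa [sub_add_cancel] at this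

variable (C : UGeom.Conj F q)
include C

theorem loc_qrefl {S : Submodule F (Fin n → F)} {w : Fin n → F} (hw : w ∈ S) {k : F}
    (hk : k + C.σ k + k * C.σ k * h[w, w] = 0) : Loc q S (UGeom.qreflGU C w k hk).1 := by
  refine ⟨(UGeom.qreflGU C w k hk).2, fun x => ?_, fun x hx => ?_⟩
  · show UGeom.qrefl n q w k *ᵥ x - x ∈ S
    rw [UGeom.qrefl_mulVec, add_sub_cancel_left]
    exact S.smul_mem _ hw
  · show UGeom.qrefl n q w k *ᵥ x = x
    rw [UGeom.qrefl_mulVec, hx w hw, mul_zero, zero_smul, add_zero]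

/-- Local maps are transitive on the non-zero vectors of each norm of a non-degenerate subspace. -/
theorem exists_loc_move {S : Submodule F (Fin n → F)} (hS : ∀ u ∈ S, u ≠ 0 → ∃ y ∈ S, h[u, y] ≠ 0)
    {u v : Fin n → F} (hu : u ∈ S) (hv : v ∈ S) (hu0 : u ≠ 0) (hv0 : v ≠ 0) (hN : h[u, u] = h[v, v]) :
    ∃ g, Loc q S g ∧ (g : Matrix (Fin n) (Fin n) F) *ᵥ u = v := by
  have main : ∀ a b : Fin n → F, a ∈ S → b ∈ S → h[a, a] = h[b, b] → h[a, b] ≠ h[a, a] →
      ∃ g, Loc q S g ∧ (g : Matrix (Fin n) (Fin n) F) *ᵥ a = b := by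
    intro a b ha hb h1 h2
    obtain ⟨k, hk, hkv⟩ := UGeom.exists_qrefl C h1 h2
    exact ⟨(UGeom.qreflGU C _ k hk).1, loc_qrefl C (sub_mem ha hb) hk, hkv⟩
  by_cases hne : h[u, v] = h[u, u]
  swap
  · exact main u v hu hv hN hne
  suffices h : ∃ y ∈ S, h[y, y] = h[u, u] ∧ h[u, y] ≠ h[u, u] ∧ h[y, v] ≠ h[u, u] by
    obtain ⟨y, hy, hyy, h1, h2⟩ := h
    obtain ⟨g₁, hg₁, e₁⟩ := main u y hu hy hyy.symm h1
    obtain ⟨g₂, hg₂, e₂⟩ := main y v hy hv (hyy.trans hN) (by rwa [hyy])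
    exact ⟨g₂ * g₁, loc_mul hg₂ hg₁, by rw [Units.val_mul, ← mulVec_mulVec, e₁, e₂]⟩
  by_cases h0 : h[u, u] = 0
  · rw [h0] at hne ⊢
    obtain ⟨a, ha, hua⟩ := hS u hu hu0
    obtain ⟨b, hb, hvb⟩ := hS v hv hv0
    obtain ⟨z, hz, hz1, hz2⟩ : ∃ z ∈ S, h[u, z] ≠ 0 ∧ h[v, z] ≠ 0 := by
      by_cases h1 : h[v, a] = 0
      · by_cases h2 : h[u, b] = 0
        · exact ⟨a + b, add_mem ha hb, by rwa [UGeom.form_add_right C, h2, add_zero],
            by rwa [UGeom.form_add_right C, h1, zero_add]⟩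
        · exact ⟨b, hb, h2, hvb⟩
      · exact ⟨a, ha, hua, h1⟩
    have hzu : h[z, u] ≠ 0 := fun h => hz1 (by rw [← UGeom.form_conj C, h, map_zero])
    obtain ⟨t, ht⟩ := exists_trace (stdHerm C n) (-h[z, z]) (by
      show C.σ (-h[z, z]) = -h[z, z]
      rw [map_neg, UGeom.form_conj C])
    change t + C.σ t = -h[z, z] at ht
    set k := t / h[u, z]
    refine ⟨z + k • u, add_mem hz (S.smul_mem _ hu), ?_, ?_, ?_⟩
    · simp only [UGeom.form_add_left, UGeom.form_add_right C, UGeom.form_smul_left, UGeom.form_smul_right C, h0,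
        ← UGeom.form_conj C u z, k, map_div₀]
      rw [mul_zero, add_zero, div_mul_cancel₀ _ hz1, div_mul_cancel₀ _ ((map_ne_zero C.σ).2 hz1)]
      linear_combination ht
    · rwa [UGeom.form_add_right C, UGeom.form_smul_right C, h0, mul_zero, add_zero]
    · rw [UGeom.form_add_left, UGeom.form_smul_left, hne, mul_zero, add_zero]
      exact fun h => hz2 (by rw [← UGeom.form_conj C, h, map_zero])
  · obtain ⟨l, hl, hl1⟩ := UGeom.exists_norm_one_ne C
    refine ⟨l • u, S.smul_mem _ hu, ?_, ?_, ?_⟩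
    · rw [UGeom.form_smul_left, UGeom.form_smul_right C, ← mul_assoc, hl, one_mul]
    · rw [UGeom.form_smul_right C]
      intro e
      exact hl1 (C.σ.injective ((mul_right_cancel₀ h0 (e.trans (one_mul _).symm)).trans (map_one _).symm))
    · rw [UGeom.form_smul_left, hne]
      intro e
      exact hl1 (mul_right_cancel₀ h0 (e.trans (one_mul _).symm))

/-- Any unitary determinant is reached by a quasi-reflection at a prescribed anisotropic vector. -/
theorem exists_loc_det {S : Submodule F (Fin n → F)} {w : Fin n → F} (hw : w ∈ S) (hww : h[w, w] ≠ 0)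
    {g : GL (Fin n) F} (hg : g ∈ Cfsg.GU n F q) :
    ∃ r, Loc q (Submodule.span F {w}) r ∧ Loc q S r ∧ r * g ∈ Cfsg.GU n F q ⊓ Cfsg.Geo.specialLinear (Fin n) F := by
  set d := (g : Matrix (Fin n) (Fin n) F).det with hd
  have hd0 : d ≠ 0 := (g.isUnit.map Matrix.detMonoidHom).ne_zero
  have hdd : d * C.σ d = 1 := by
    have h := congrArg Units.val (UGeom.det_pow C ⟨g, hg⟩)
    rw [Units.val_pow_eq_pow_val, Units.val_one] at h
    rw [C.pow, ← pow_succ']
    exact h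
  set k := (d⁻¹ - 1) / h[w, w] with hk
  have hσd : C.σ d = d⁻¹ := eq_inv_of_mul_eq_one_right hdd
  have hcond : k + C.σ k + k * C.σ k * h[w, w] = 0 := by
    simp only [hk, map_div₀, map_sub, map_inv₀, hσd, inv_inv, map_one, UGeom.form_conj C]
    field_simp
    ring
  refine ⟨(UGeom.qreflGU C w k hcond).1, loc_qrefl C (Submodule.mem_span_singleton_self w) hcond,
    loc_qrefl C hw hcond, mul_mem (UGeom.qreflGU C w k hcond).2 hg, MonoidHom.mem_ker.2 (Units.ext ?_)⟩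
  show ((UGeom.qrefl n q w k) * (g : Matrix (Fin n) (Fin n) F)).det = 1
  rw [det_mul, UGeom.qrefl_det, hk, div_mul_cancel₀ _ hww, add_sub_cancel, ← hd, inv_mul_cancel₀ hd0]

/-- The Eichler element moving `v` to `x` along an isotropic `d`. -/
theorem exists_eich_move {d v x : Fin n → F} (hd : h[d, d] = 0) (hvx : h[v, d] = h[x, d]) (hv : h[v, d] ≠ 0)
    (hN : h[v, v] = h[x, x]) :
    ∃ g ∈ Cfsg.GU n F q ⊓ Cfsg.Geo.specialLinear (Fin n) F, (g : Matrix (Fin n) (Fin n) F) *ᵥ v = x ∧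
      ∀ y, ∃ s t : F, (g : Matrix (Fin n) (Fin n) F) *ᵥ y = y + (s * h[y, d]) • (x - v) + t • d ∧
        (h[y, d] = 0 → h[y, x - v] = 0 → t = 0) := by
  set e := x - v with he
  have hed : h[e, d] = 0 := by rw [he, UGeom.form_sub_left, ← hvx, sub_self]
  set k := h[v, d] with hk
  set z := k⁻¹ • e with hz
  have hzd : h[z, d] = 0 := by rw [hz, UGeom.form_smul_left, hed, mul_zero]
  set a := h[v, z] / k with ha
  have hx : x = v + e := by rw [he]; abel
  have hee : h[v, e] + h[e, v] + h[e, e] = 0 := by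
    rw [hx] at hN
    simp only [UGeom.form_add_left, UGeom.form_add_right C] at hN
    linear_combination -hN
  have hcond : a + C.σ a + h[z, z] = 0 := by
    simp only [ha, hz, UGeom.form_smul_left, UGeom.form_smul_right C, map_div₀, map_mul, map_inv₀, C.invol,
      UGeom.form_conj C]
    have hσk : C.σ k ≠ 0 := (map_ne_zero C.σ).2 hv
    field_simp
    linear_combination hee
  let A := UGeom.eich C d z a hd hzd hcond
  refine ⟨Matrix.SpecialLinearGroup.toGL A.1, ⟨fun u w => A.2 u w, MonoidHom.mem_ker.2 (Units.ext A.1.2)⟩, ?_,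
    fun y => ⟨k⁻¹, a * h[y, d] - h[y, z], ?_, fun h1 h2 => ?_⟩⟩
  · show (A.1 : Matrix (Fin n) (Fin n) F) *ᵥ v = x
    rw [UGeom.eich_mulVec, ← hk, hz, smul_smul, mul_inv_cancel₀ hv, one_smul, ha, div_mul_cancel₀ _ hv]
    simp [hx, hz]
  · show (A.1 : Matrix (Fin n) (Fin n) F) *ᵥ y = _
    rw [UGeom.eich_mulVec, hz, smul_smul, mul_comm h[y, d]]
  · rw [hz, UGeom.form_smul_right C, h1, h2]; ring

end CfsgLib.GeoSU
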