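import Cfsg.Agent.GeoLib.SpGL

/-!
The centres all of whose symplectic transvections lie in a subgroup; short root elements of `spGL`.
-/

set_option autoImplicit false

namespace CfsgLib.GeoSp

open Matrix

variable {F : Type*} [Field F] {m : ℕ}

local notation "V" => (Fin m ⊕ Fin m → F)
local notation "G" => GL (Fin m ⊕ Fin m) F
local notation "f" => Cfsg.sympForm m F

/-- Every transvection with centre `w` is in `M`. -/
def Cen (M : Subgroup G) (w : V) : Prop := ∀ c : F, tvGL w c ∈ M

variable {M : Subgroup (GL (Fin m ⊕ Fin m) F)}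

theorem cen_map {g : G} (hg : g ∈ M) (hgS : g ∈ Cfsg.spGL m F) {w : V} (h : Cen M w) :
    Cen M ((g : Matrix (Fin m ⊕ Fin m) (Fin m ⊕ Fin m) F) *ᵥ w) := fun c => by
  rw [← tvGL_conj hgS]; exact mul_mem (mul_mem hg (h c)) (inv_mem hg)

theorem cen_smul (a : F) {w : V} (h : Cen M w) : Cen M (a • w) := fun c => by rw [tvGL_smul]; exact h _

theorem cen_add {v w : V} (hv : Cen M v) (hw : Cen M w) (hvw : f v w ≠ 0) (c : F) : Cen M (v + c • w) := by
  have := cen_map (hw (c / f v w)) (tvGL_mem w _) hv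
  rwa [tvGL_mulVec, div_mul_cancel₀ _ hvw] at this

theorem cen_add' {v w : V} (hv : Cen M v) (hw : Cen M w) (hvw : f v w ≠ 0) : Cen M (v + w) := by
  simpa using cen_add hv hw hvw 1

/-- A change of one of two orthogonal components: any non-zero value is reached. -/
theorem cen_change {S : Submodule F V} (hS : ∀ u ∈ S, u ≠ 0 → ∃ y ∈ S, f u y ≠ 0) (hC : ∀ v ∈ S, Cen M v)
    {a b : V} (ha : a ∈ S) (ha0 : a ≠ 0) (hb : ∀ v ∈ S, f b v = 0) (h : Cen M (a + b)) {u : V} (hu : u ∈ S)
    (hu0 : u ≠ 0) : Cen M (u + b) := by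
  have step : ∀ a u : V, a ∈ S → u ∈ S → f a u ≠ 0 → Cen M (a + b) → Cen M (u + b) := by
    intro a u ha hu hau h
    have := cen_add' h (hC (u - a) (sub_mem hu ha)) (by
      rw [SpGeom.form_add_left, hb _ (sub_mem hu ha), add_zero, SpGeom.form_sub_right, SpGeom.form_self, sub_zero]
      exact hau)
    rwa [show a + b + (u - a) = u + b by abel] at this
  obtain ⟨y, hy, hay⟩ := hS a ha ha0
  obtain ⟨z, hz, huz⟩ := hS u hu hu0
  obtain ⟨x, hx, hax, hxu⟩ : ∃ x ∈ S, f a x ≠ 0 ∧ f u x ≠ 0 := by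
    by_cases hy' : f u y = 0
    · by_cases hz' : f a z = 0
      · exact ⟨y + z, add_mem hy hz, by rwa [SpGeom.form_add_right, hz', add_zero],
          by rwa [SpGeom.form_add_right, hy', zero_add]⟩
      · exact ⟨z, hz, hz', huz⟩
    · exact ⟨y, hy, hay, hy'⟩
  exact step x u hx hu (by rw [SpGeom.form_skew]; exact neg_ne_zero.2 hxu) (step a x ha hx hax h)

/-- The short root element of an orthogonal pair. -/
theorem exists_short {x y : V} (hxy : f x y = 0) :
    ∃ g ∈ Cfsg.spGL m F, ∀ z, (g : Matrix (Fin m ⊕ Fin m) (Fin m ⊕ Fin m) F) *ᵥ z = z + f z y • x + f z x • y := by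
  have hyx : f y x = 0 := by rw [SpGeom.form_skew, hxy, neg_zero]
  let Fy : Module.Dual F V :=
    { toFun := fun z => f z y, map_add' := fun a b => SpGeom.form_add_left a b y,
      map_smul' := fun c a => SpGeom.form_smul_left c a y }
  let Fx : Module.Dual F V :=
    { toFun := fun z => f z x, map_add' := fun a b => SpGeom.form_add_left a b x,
      map_smul' := fun c a => SpGeom.form_smul_left c a x }
  obtain ⟨s, -, hs⟩ := GeoTransvection.exists_transvection x Fy hxy
  obtain ⟨t, -, ht⟩ := GeoTransvection.exists_transvection y Fx hyx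
  have e : ∀ z, ((s * t : G) : Matrix (Fin m ⊕ Fin m) (Fin m ⊕ Fin m) F) *ᵥ z = z + f z y • x + f z x • y := by
    intro z
    rw [Units.val_mul, ← mulVec_mulVec, hs, ht]
    show z + f z x • y + f (z + f z x • y) y • x = _
    rw [SpGeom.form_add_left, SpGeom.form_smul_left, SpGeom.form_self, mul_zero, add_zero]
    abel
  refine ⟨s * t, mem_spGL.2 fun u v => ?_, e⟩
  rw [e, e]
  simp only [SpGeom.form_add_left, SpGeom.form_add_right, SpGeom.form_smul_left, SpGeom.form_smul_right,
    SpGeom.form_self, hxy, hyx]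
  rw [SpGeom.form_skew v x, SpGeom.form_skew v y]
  ring

end CfsgLib.GeoSp
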