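import Cfsg.Agent.SpGeom.Basic
import Cfsg.Agent.GeoLib.FullSL

/-!
The symplectic transvections as elements of `Cfsg.spGL`; a subgroup with all of them contains `spGL`.
-/

set_option autoImplicit false

namespace CfsgLib.GeoSp

open Matrix

variable {F : Type*} [Field F] {m : ℕ}

local notation "V" => (Fin m ⊕ Fin m → F)
local notation "G" => GL (Fin m ⊕ Fin m) F
local notation "f" => Cfsg.sympForm m F

/-- `Sp` inside GL. -/
def toG : Matrix.symplecticGroup (Fin m) F →* G :=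
  MonoidHom.toHomUnits (Matrix.symplecticGroup (Fin m) F).subtype

/-- The transvection `x ↦ x + c f(x,v) v`. -/
def tvGL (v : V) (c : F) : G := toG (SpGeom.tv v c)

theorem tvGL_mulVec (v : V) (c : F) (x : V) :
    (tvGL v c : Matrix (Fin m ⊕ Fin m) (Fin m ⊕ Fin m) F) *ᵥ x = x + (c * f x v) • v :=
  SpGeom.tv_mulVec v c x

theorem mem_spGL {g : G} : g ∈ Cfsg.spGL m F ↔
    ∀ u v, f ((g : Matrix (Fin m ⊕ Fin m) (Fin m ⊕ Fin m) F) *ᵥ u)
      ((g : Matrix (Fin m ⊕ Fin m) (Fin m ⊕ Fin m) F) *ᵥ v) = f u v := Iff.rfl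

theorem toG_mem (A : Matrix.symplecticGroup (Fin m) F) : toG A ∈ Cfsg.spGL m F :=
  mem_spGL.2 (SpGeom.form_mulVec A)

theorem tvGL_mem (v : V) (c : F) : tvGL v c ∈ Cfsg.spGL m F := toG_mem _

theorem tvGL_mul (v : V) (c d : F) : tvGL v c * tvGL v d = tvGL v (c + d) := by
  rw [tvGL, tvGL, tvGL, ← map_mul, SpGeom.tv_mul]

theorem tvGL_zero (v : V) : tvGL v (0 : F) = 1 := by rw [tvGL, SpGeom.tv_zero, map_one]

theorem tvGL_inv (v : V) (c : F) : (tvGL v c)⁻¹ = tvGL v (-c) := by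
  rw [tvGL, tvGL, ← map_inv, SpGeom.tv_inv]

theorem tvGL_smul (a : F) (v : V) (c : F) : tvGL (a • v) c = tvGL v (a ^ 2 * c) := by
  rw [tvGL, tvGL, SpGeom.tv_smul]

theorem tvGL_conj {g : G} (hg : g ∈ Cfsg.spGL m F) (v : V) (c : F) :
    g * tvGL v c * g⁻¹ = tvGL ((g : Matrix (Fin m ⊕ Fin m) (Fin m ⊕ Fin m) F) *ᵥ v) c := by
  refine GeoFull.gl_ext fun x => ?_
  rw [Units.val_mul, Units.val_mul, ← mulVec_mulVec, ← mulVec_mulVec, tvGL_mulVec, tvGL_mulVec,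
    mulVec_add, mulVec_smul, GeoFull.mulVec_inv_cancel]
  congr 3
  rw [← mem_spGL.1 hg, GeoFull.mulVec_inv_cancel]

/-- A subgroup with all symplectic transvections contains `spGL`. -/
theorem spGL_le_of_tv (M : Subgroup G) (h : ∀ (v : V) (c : F), tvGL v c ∈ M) : Cfsg.spGL m F ≤ M := by
  intro g hg
  have htop := SpGeom.eq_top_of_tv (M.comap toG) fun v c => h v c
  have hA : (g : Matrix (Fin m ⊕ Fin m) (Fin m ⊕ Fin m) F) ∈ Matrix.symplecticGroup (Fin m) F :=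
    SpGeom.mem_of_form (mem_spGL.1 hg)
  have hmem : (⟨_, hA⟩ : Matrix.symplecticGroup (Fin m) F) ∈ M.comap toG := by rw [htop]; trivial
  rwa [show g = toG ⟨_, hA⟩ from Units.ext rfl]

end CfsgLib.GeoSp
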