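import Cfsg.Agent.GeoLib.SpCen
import Cfsg.Agent.GeoLib.OrthFull

/-!
The unitary extension-field groups of `spGL`: a skew `jK` with `jK² = δ`, `δ` a non-square.
-/

set_option autoImplicit false

namespace CfsgLib.GeoSp

open Matrix

variable {F : Type*} [Field F] {m : ℕ}

local notation "V" => (Fin m ⊕ Fin m → F)
local notation "Mat" => Matrix (Fin m ⊕ Fin m) (Fin m ⊕ Fin m) F
local notation "G" => GL (Fin m ⊕ Fin m) F
local notation "f" => Cfsg.sympForm m F

/-- A skew square root of a non-square. -/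
structure SkewRoot (jK : Mat) (δ : F) : Prop where
  skew : ∀ x y, f (jK *ᵥ x) y = - f x (jK *ᵥ y)
  sq : ∀ x, jK *ᵥ (jK *ᵥ x) = δ • x
  nonsq : ∀ s : F, s * s ≠ δ

namespace SkewRoot

variable {jK : Matrix (Fin m ⊕ Fin m) (Fin m ⊕ Fin m) F} {δ : F}

theorem ne_zero (hJ : SkewRoot jK δ) : δ ≠ 0 := fun h => hJ.nonsq 0 (by rw [h, mul_zero])

theorem jj (hJ : SkewRoot jK δ) (x y : V) : f (jK *ᵥ x) (jK *ᵥ y) = -(δ * f x y) := by
  rw [hJ.skew, hJ.sq, SpGeom.form_smul_right]

/-- The `K`-span. -/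
def kline (jK : Mat) (a b : V) : Submodule F V := Submodule.span F {a, jK *ᵥ a, b, jK *ᵥ b}

theorem left_mem (a b : V) : a ∈ kline jK a b := Submodule.subset_span (by simp)
theorem left_mem' (a b : V) : jK *ᵥ a ∈ kline jK a b := Submodule.subset_span (by simp)
theorem right_mem (a b : V) : b ∈ kline jK a b := Submodule.subset_span (by simp)
theorem right_mem' (a b : V) : jK *ᵥ b ∈ kline jK a b := Submodule.subset_span (by simp)

theorem kline_stable (hJ : SkewRoot jK δ) (a b : V) : ∀ x ∈ kline jK a b, jK *ᵥ x ∈ kline jK a b := by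
  intro x hx
  rw [kline] at hx ⊢
  induction hx using Submodule.span_induction with
  | mem y hy =>
    simp only [Set.mem_insert_iff, Set.mem_singleton_iff] at hy
    rcases hy with rfl | rfl | rfl | rfl
    · exact left_mem' _ _
    · rw [hJ.sq]; exact Submodule.smul_mem _ _ (left_mem _ _)
    · exact right_mem' _ _
    · rw [hJ.sq]; exact Submodule.smul_mem _ _ (right_mem _ _)
  | zero => rw [mulVec_zero]; exact zero_mem _
  | add y z _ _ hy hz => rw [mulVec_add]; exact add_mem hy hz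
  | smul c y _ hy => rw [mulVec_smul]; exact Submodule.smul_mem _ _ hy

theorem bot_stable : ∀ x ∈ (⊥ : Submodule F V), jK *ᵥ x ∈ (⊥ : Submodule F V) := by
  intro x hx; rw [Submodule.mem_bot] at hx ⊢; rw [hx, mulVec_zero]

/-- A `jK`-stable subspace is a `K`-subspace. -/
theorem coeff_eq_zero (hJ : SkewRoot jK δ) {W : Submodule F V} (hW : ∀ x ∈ W, jK *ᵥ x ∈ W) {b : V} (hb : b ∉ W)
    {u w : F} (h : u • b + w • (jK *ᵥ b) ∈ W) : u = 0 ∧ w = 0 := by
  have key : (u * u - w * w * δ) • b ∈ W := by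
    have := sub_mem (Submodule.smul_mem _ u h) (Submodule.smul_mem _ w (hW _ h))
    rw [mulVec_add, mulVec_smul, mulVec_smul, hJ.sq] at this
    convert this using 1
    module
  have hz : u * u - w * w * δ = 0 := by
    by_contra hne
    exact hb ((Submodule.smul_mem_iff _ hne).1 key)
  have hw : w = 0 := by
    by_contra hw
    exact hJ.nonsq (u / w) (by field_simp; linear_combination hz)
  exact ⟨by subst hw; simpa using hz, hw⟩

/-- The two vectors are orthogonal over `K`. -/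
def Orth (jK : Mat) (a b : V) : Prop := f a b = 0 ∧ f a (jK *ᵥ b) = 0

theorem Orth.symm (hJ : SkewRoot jK δ) {a b : V} (h : Orth jK a b) : Orth jK b a :=
  ⟨by rw [SpGeom.form_skew, h.1, neg_zero], by rw [SpGeom.form_skew, hJ.skew, h.2, neg_zero, neg_zero]⟩

/-- The quadratic form `x ↦ f (jK x) x`. -/
noncomputable def quad (jK : Mat) : QuadraticForm F V :=
  LinearMap.BilinMap.toQuadraticMap (LinearMap.mk₂ F (fun x y => f (jK *ᵥ x) y)
    (fun a b y => by rw [mulVec_add, SpGeom.form_add_left])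
    (fun c a y => by rw [mulVec_smul, SpGeom.form_smul_left]; rfl)
    (fun x a b => by rw [SpGeom.form_add_right])
    (fun c x a => by rw [SpGeom.form_smul_right]; rfl))

theorem quad_apply (x : V) : quad jK x = f (jK *ᵥ x) x := rfl

theorem polar_quad (hJ : SkewRoot jK δ) (x y : V) :
    QuadraticMap.polar (quad jK) x y = 2 * f (jK *ᵥ x) y := by
  rw [quad, LinearMap.BilinMap.polar_toQuadraticMap]
  simp only [LinearMap.mk₂_apply]
  rw [hJ.skew y x, SpGeom.form_skew y (jK *ᵥ x)]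
  ring

theorem polar_quad' (hJ : SkewRoot jK δ) (x y : V) :
    QuadraticMap.polar (quad jK) x (jK *ᵥ y) = -(2 * δ * f x y) := by
  rw [hJ.polar_quad, hJ.jj]; ring

theorem quad_nondegenerate (hJ : SkewRoot jK δ) (h2 : (2 : F) ≠ 0) :
    (QuadraticMap.polarBilin (quad jK)).Nondegenerate := by
  have hsep : ∀ x, (∀ y, QuadraticMap.polar (quad jK) x y = 0) → x = 0 := by
    intro x hx
    by_contra hx0
    obtain ⟨y, hy⟩ := SpGeom.exists_form_ne_zero (F := F) (v := x) hx0
    have := hx (jK *ᵥ y)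
    rw [hJ.polar_quad'] at this
    exact hy (by simpa [h2, hJ.ne_zero] using this)
  exact ⟨fun x hx => hsep x hx, fun y hy => hsep y fun x => by rw [QuadraticMap.polar_comm]; exact hy x⟩

theorem orth_of_polar (hJ : SkewRoot jK δ) (h2 : (2 : F) ≠ 0) {x v : V}
    (h : QuadraticMap.polar (quad jK) x v = 0) (h' : QuadraticMap.polar (quad jK) x (jK *ᵥ v) = 0) :
    Orth jK x v := by
  rw [hJ.polar_quad, hJ.skew] at h
  rw [hJ.polar_quad'] at h'
  exact ⟨by simpa [h2, hJ.ne_zero] using h', by simpa [h2] using h⟩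

variable [Fintype F]

theorem finrank_kline_le (a b : V) : Module.finrank F (kline jK a b) ≤ 4 := by
  rw [kline, Submodule.span_insert]
  refine (Submodule.finrank_add_le_finrank_add_finrank _ _).trans ?_
  have h1 : Module.finrank F (Submodule.span F {a}) ≤ 1 :=
    (finrank_span_le_card ({a} : Set V)).trans (by simp)
  have h2 := GeoOrth.finrank_triple_le (F := F) (jK *ᵥ a) b (jK *ᵥ b)
  omega

theorem exists_isotropic_out (hJ : SkewRoot jK δ) (h2 : (2 : F) ≠ 0) (hm : 7 ≤ m) (a b : V) :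
    ∃ z, quad jK z = 0 ∧ Orth jK z a ∧ Orth jK z b ∧ z ∉ kline jK a b := by
  obtain ⟨z, hz, hzQ, hzU⟩ := GeoOrth.exists_singular_out (hJ.quad_nondegenerate h2) (kline jK a b) (by
    have := finrank_kline_le (jK := jK) a b
    simp; omega)
  have := Forms.mem_perp.1 hz
  exact ⟨z, hzQ, hJ.orth_of_polar h2 (this _ (left_mem _ _)) (this _ (left_mem' _ _)),
    hJ.orth_of_polar h2 (this _ (right_mem _ _)) (this _ (right_mem' _ _)), hzU⟩

/-- The elements commuting with `jK` move `d` by an orthogonal isotropic vector, fixing `s`. -/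
theorem exists_move (hJ : SkewRoot jK δ) (h2 : (2 : F) ≠ 0) (hm : 7 ≤ m) {d z s : V} (hz : quad jK z = 0)
    (hzd : Orth jK z d) (hzs : Orth jK z s) (hd : d ∉ kline jK z s) :
    ∃ h ∈ Cfsg.spGL m F, (∀ x, (h : Mat) *ᵥ (jK *ᵥ x) = jK *ᵥ ((h : Mat) *ᵥ x)) ∧
      (h : Mat) *ᵥ d = d + z ∧ (h : Mat) *ᵥ s = s := by
  set U := kline jK z s ⊔ Submodule.span F {d}
  have hU : Module.finrank F U ≤ 5 := by
    refine (Submodule.finrank_add_le_finrank_add_finrank _ _).trans ?_
    have h1 : Module.finrank F (Submodule.span F {d}) ≤ 1 :=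
      (finrank_span_le_card ({d} : Set V)).trans (by simp)
    have := finrank_kline_le (jK := jK) z s
    omega
  have hJd : jK *ᵥ d ∉ U := by
    intro h
    obtain ⟨p, hp, q, hq, e⟩ := Submodule.mem_sup.1 h
    obtain ⟨t, rfl⟩ := Submodule.mem_span_singleton.1 hq
    have : (-t) • d + (1 : F) • (jK *ᵥ d) ∈ kline jK z s := by
      convert hp using 1; rw [← e]; module
    exact one_ne_zero (hJ.coeff_eq_zero (hJ.kline_stable z s) hd this).2
  obtain ⟨w₀, hw, hw0, hwd⟩ := GeoOrth.exists_singular_ne (hJ.quad_nondegenerate h2) (U := U)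
    (by simp; omega) hJd
  rw [QuadraticMap.polar_comm, hJ.polar_quad'] at hwd
  have hw' := Forms.mem_perp.1 hw
  have hl : ∀ {x}, x ∈ kline jK z s → x ∈ U := fun h => Submodule.mem_sup_left h
  have hwd0 : f d w₀ ≠ 0 := fun h => hwd (by rw [SpGeom.form_skew d w₀, h]; simp)
  set a := (f d w₀)⁻¹
  obtain ⟨w, hwdef⟩ : ∃ w, w = a • w₀ := ⟨_, rfl⟩
  have ha : f d w = 1 := by rw [hwdef, SpGeom.form_smul_right, inv_mul_cancel₀ hwd0]
  have hwU : ∀ x ∈ U, QuadraticMap.polar (quad jK) w x = 0 := fun x hx => by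
    rw [hwdef, QuadraticMap.polar_smul_left, hw' x hx, smul_zero]
  have hwQ : f (jK *ᵥ w) w = 0 := by
    rw [← quad_apply, hwdef, QuadraticMap.map_smul, hw0, smul_zero]
  have hwz : Orth jK w z := hJ.orth_of_polar h2 (hwU _ (hl (left_mem _ _))) (hwU _ (hl (left_mem' _ _)))
  have hws : Orth jK w s := hJ.orth_of_polar h2 (hwU _ (hl (right_mem _ _))) (hwU _ (hl (right_mem' _ _)))
  have hdw : f d (jK *ᵥ w) = 0 := by
    have h := hwU d (Submodule.mem_sup_right (Submodule.mem_span_singleton_self d))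
    rw [hJ.polar_quad, mul_eq_zero] at h
    rw [SpGeom.form_skew, h.resolve_left h2, neg_zero]
  rw [quad_apply] at hz
  have hzw := hwz.symm hJ
  obtain ⟨h₁, h₁S, e₁⟩ := exists_short hzw.1
  obtain ⟨h₂, h₂S, e₂⟩ := exists_short (x := jK *ᵥ z) (y := (-δ⁻¹) • (jK *ᵥ w))
    (by rw [SpGeom.form_smul_right, hJ.jj, hzw.1]; ring)
  have e : ∀ x, ((h₁ * h₂ : G) : Mat) *ᵥ x = x + f x w • z + f x z • w
      + (-δ⁻¹ * f x (jK *ᵥ w)) • (jK *ᵥ z) + (-δ⁻¹ * f x (jK *ᵥ z)) • (jK *ᵥ w) := by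
    intro x
    rw [Units.val_mul, ← mulVec_mulVec, e₂, mulVec_add, mulVec_add, e₁ x, mulVec_smul, mulVec_smul, mulVec_smul,
      e₁ (jK *ᵥ z), e₁ (jK *ᵥ w), SpGeom.form_smul_right]
    simp only [hz, hwQ, hJ.skew z w, hJ.skew w z, hwz.2, hzw.2, neg_zero, zero_smul, add_zero]
    module
  refine ⟨h₁ * h₂, mul_mem h₁S h₂S, fun x => ?_, ?_, ?_⟩
  · rw [e, e]
    simp only [mulVec_add, mulVec_smul, hJ.sq, hJ.skew x w, hJ.skew x z, hJ.jj]
    match_scalars <;> field_simp [hJ.ne_zero]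
  · rw [e, ha, (hzd.symm hJ).1, hdw, (hzd.symm hJ).2]
    module
  · rw [e, (hws.symm hJ).1, (hzs.symm hJ).1, (hws.symm hJ).2, (hzs.symm hJ).2]
    module

/-- A product of two transvections commuting with `jK`. -/
theorem tv_pair_comm (hJ : SkewRoot jK δ) {v : V} (hv : quad jK v = 0) (x : V) :
    ((tvGL v 1 * tvGL (jK *ᵥ v) (-δ⁻¹) : G) : Mat) *ᵥ (jK *ᵥ x) =
      jK *ᵥ (((tvGL v 1 * tvGL (jK *ᵥ v) (-δ⁻¹) : G) : Mat) *ᵥ x) := by
  rw [quad_apply] at hv
  have e : ∀ y, ((tvGL v 1 * tvGL (jK *ᵥ v) (-δ⁻¹) : G) : Mat) *ᵥ y =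
      y + f y v • v + (-δ⁻¹ * f y (jK *ᵥ v)) • (jK *ᵥ v) := by
    intro y
    rw [Units.val_mul, ← mulVec_mulVec, tvGL_mulVec, tvGL_mulVec]
    simp only [SpGeom.form_add_left, SpGeom.form_smul_left, hv]
    module
  rw [e, e]
  simp only [mulVec_add, mulVec_smul, hJ.sq, hJ.skew x v, hJ.jj]
  match_scalars <;> field_simp [hJ.ne_zero]

/-- The transvection of an isotropic vector leaves every kline stabiliser. -/
theorem tv_not_norm (hJ : SkewRoot jK δ) (h2 : (2 : F) ≠ 0) (hm : 7 ≤ m) :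
    ∃ T ∈ Cfsg.spGL m F, ∀ α β : F, ∃ x, (T : Mat) *ᵥ (jK *ᵥ x) ≠
      α • ((T : Mat) *ᵥ x) + β • (jK *ᵥ ((T : Mat) *ᵥ x)) := by
  obtain ⟨v, hvQ, -, -, hv⟩ := hJ.exists_isotropic_out h2 hm 0 0
  have hv0 : v ≠ 0 := fun h => hv (by rw [h]; exact zero_mem _)
  refine ⟨tvGL v 1, tvGL_mem _ _, fun α β => ?_⟩
  by_contra! hcon
  obtain ⟨y, hy, hyv, -, hy'⟩ := hJ.exists_isotropic_out h2 hm v v
  have hy0 : y ≠ 0 := fun h => hy' (by rw [h]; exact zero_mem _)
  have h := hcon y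
  rw [tvGL_mulVec, tvGL_mulVec, hJ.skew, hyv.1, hyv.2] at h
  simp only [neg_zero, mul_zero, zero_smul, add_zero] at h
  obtain ⟨hα, hβ⟩ := hJ.coeff_eq_zero bot_stable (b := y) (by simpa using hy0)
    (u := α) (w := β - 1) (by rw [Submodule.mem_bot, sub_smul, one_smul, ← add_sub_assoc, ← h, sub_self])
  rw [sub_eq_zero] at hβ
  subst hα hβ
  obtain ⟨x, hx⟩ := SpGeom.exists_form_ne_zero (F := F) (v := v) hv0
  have h := hcon x
  rw [tvGL_mulVec, tvGL_mulVec, hJ.skew, mulVec_add, mulVec_smul] at h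
  simp only [one_mul, zero_smul, one_smul, zero_add, add_right_inj] at h
  obtain ⟨-, h1⟩ := hJ.coeff_eq_zero bot_stable (b := v) (by simpa using hv0)
    (u := f x (jK *ᵥ v)) (w := f x v) (by rw [Submodule.mem_bot, ← h]; module)
  exact hx (by rw [SpGeom.form_skew, h1, neg_zero])

/-- An element moving the field moves some isotropic kline. -/
theorem exists_moved (hJ : SkewRoot jK δ) (h2 : (2 : F) ≠ 0) (hm : 7 ≤ m) (g : G)
    (hg : ∀ α β : F, ∃ x, (g : Mat) *ᵥ (jK *ᵥ x) ≠ α • ((g : Mat) *ᵥ x) + β • (jK *ᵥ ((g : Mat) *ᵥ x))) :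
    ∃ v, quad jK v = 0 ∧ v ≠ 0 ∧ (g : Mat) *ᵥ (jK *ᵥ v) ∉ kline jK ((g : Mat) *ᵥ v) 0 := by
  by_contra! hcon
  have hpair : ∀ v, quad jK v = 0 → v ≠ 0 → ∃ α β : F,
      (g : Mat) *ᵥ (jK *ᵥ v) = α • ((g : Mat) *ᵥ v) + β • (jK *ᵥ ((g : Mat) *ᵥ v)) := by
    intro v hv hv0
    have h := hcon v hv hv0
    simp only [kline, mulVec_zero] at h
    rw [Set.insert_comm, Submodule.span_insert] at h
    obtain ⟨p, hp, q, hq, e⟩ := Submodule.mem_sup.1 h
    obtain ⟨b, rfl⟩ := Submodule.mem_span_singleton.1 hp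
    rw [Set.pair_eq_singleton, Set.pair_comm, Submodule.span_insert_zero, Submodule.mem_span_singleton] at hq
    obtain ⟨a, rfl⟩ := hq
    exact ⟨a, b, by rw [← e, add_comm]⟩
  choose α β hαβ using hpair
  -- orthogonal isotropic vectors have the same coefficients
  have hlink : ∀ v y (hv : quad jK v = 0) (hv0 : v ≠ 0) (hy : quad jK y = 0) (hy0 : y ≠ 0), Orth jK y v →
      y ∉ kline jK v v → α v hv hv0 = α y hy hy0 ∧ β v hv hv0 = β y hy hy0 := by
    intro v y hv hv0 hy hy0 hyv hyU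
    have hs0 : v + y ≠ 0 := fun h => hyU (by
      rw [eq_neg_of_add_eq_zero_right h]; exact neg_mem (left_mem _ _))
    have hs : quad jK (v + y) = 0 := by
      rw [QuadraticMap.map_add (quad jK), hv, hy, hJ.polar_quad, hJ.skew, (hyv.symm hJ).2]
      simp
    have e := hαβ (v + y) hs hs0
    rw [mulVec_add, mulVec_add, hαβ v hv hv0, hαβ y hy hy0, mulVec_add, mulVec_add] at e
    generalize α v hv hv0 = a, β v hv hv0 = b, α y hy hy0 = c, β y hy hy0 = d, α (v + y) hs hs0 = p,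
      β (v + y) hs hs0 = q at e ⊢
    have hg0 : (g : Mat) *ᵥ v ≠ 0 := fun h => hv0 (by
      rw [← GeoFull.inv_mulVec_cancel g v, h, mulVec_zero])
    have hgy : (g : Mat) *ᵥ y ∉ kline jK ((g : Mat) *ᵥ v) ((g : Mat) *ᵥ v) := by
      intro h
      -- the `K`-kline of `g v` is the image of that of `v`
      have hsub : kline jK ((g : Mat) *ᵥ v) ((g : Mat) *ᵥ v) ≤ (kline jK v v).map (Matrix.toLin' (g : Mat)) := by
        have h1 : (g : Mat) *ᵥ v ∈ (kline jK v v).map (Matrix.toLin' (g : Mat)) := ⟨v, left_mem _ _, rfl⟩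
        have h2 : (g : Mat) *ᵥ (jK *ᵥ v) ∈ (kline jK v v).map (Matrix.toLin' (g : Mat)) :=
          ⟨_, left_mem' _ _, rfl⟩
        obtain ⟨a', b', hab⟩ : ∃ a' b' : F, (g : Mat) *ᵥ (jK *ᵥ v) =
            a' • ((g : Mat) *ᵥ v) + b' • (jK *ᵥ ((g : Mat) *ᵥ v)) := ⟨_, _, hαβ v hv hv0⟩
        have hb' : b' ≠ 0 := by
          rintro rfl
          rw [zero_smul, add_zero, ← mulVec_smul] at hab
          have := congrArg (fun x => ((g⁻¹ : G) : Mat) *ᵥ x) hab
          simp only [GeoFull.inv_mulVec_cancel] at this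
          exact one_ne_zero (hJ.coeff_eq_zero bot_stable (b := v) (by simpa using hv0) (u := -a') (w := 1)
            (by rw [Submodule.mem_bot, this]; module)).2
        have h3 : jK *ᵥ ((g : Mat) *ᵥ v) ∈ (kline jK v v).map (Matrix.toLin' (g : Mat)) := by
          rw [← Submodule.smul_mem_iff _ hb']
          rw [eq_sub_of_add_eq' hab.symm]
          exact sub_mem h2 (Submodule.smul_mem _ _ h1)
        rw [kline]
        refine Submodule.span_le.2 ?_
        intro x hx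
        simp only [Set.mem_insert_iff, Set.mem_singleton_iff] at hx
        rcases hx with rfl | rfl | rfl | rfl <;> assumption
      obtain ⟨x, hx, hxy⟩ := hsub h
      rw [Matrix.toLin'_apply] at hxy
      exact hyU (by rwa [← GeoFull.inv_mulVec_cancel g y, ← hxy, GeoFull.inv_mulVec_cancel])
    have hd : (c - p) • ((g : Mat) *ᵥ y) + (d - q) • (jK *ᵥ ((g : Mat) *ᵥ y)) ∈
        kline jK ((g : Mat) *ᵥ v) ((g : Mat) *ᵥ v) := by
      rw [show (c - p) • ((g : Mat) *ᵥ y) + (d - q) • (jK *ᵥ ((g : Mat) *ᵥ y)) =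
        (p - a) • ((g : Mat) *ᵥ v) + (q - b) • (jK *ᵥ ((g : Mat) *ᵥ v)) by
          linear_combination (norm := module) e]
      exact add_mem (Submodule.smul_mem _ _ (left_mem _ _)) (Submodule.smul_mem _ _ (left_mem' _ _))
    obtain ⟨h1, h2⟩ := hJ.coeff_eq_zero (hJ.kline_stable _ _) hgy hd
    rw [sub_eq_zero] at h1 h2
    subst h1 h2
    obtain ⟨h3, h4⟩ := hJ.coeff_eq_zero bot_stable (b := (g : Mat) *ᵥ v) (by simpa using hg0)
      (u := a - c) (w := b - d) (by rw [Submodule.mem_bot]; linear_combination (norm := module) e)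
    exact ⟨sub_eq_zero.1 h3, sub_eq_zero.1 h4⟩
  obtain ⟨v₁, hv₁, -, -, hv₁'⟩ := hJ.exists_isotropic_out h2 hm 0 0
  have hv₁0 : v₁ ≠ 0 := fun h => hv₁' (by rw [h]; exact zero_mem _)
  let a := α v₁ hv₁ hv₁0
  let b := β v₁ hv₁ hv₁0
  obtain ⟨x, hx⟩ := hg a b
  let L : V →ₗ[F] V := (Matrix.toLin' (g : Mat)).comp (Matrix.toLin' jK) - a • Matrix.toLin' (g : Mat) -
    b • (Matrix.toLin' jK).comp (Matrix.toLin' (g : Mat))
  have hL : ∀ y, L y = (g : Mat) *ᵥ (jK *ᵥ y) - a • ((g : Mat) *ᵥ y) - b • (jK *ᵥ ((g : Mat) *ᵥ y)) :=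
    fun y => by simp [L, Matrix.toLin'_apply]
  have hker : Forms.perp (quad jK) ⊥ ≤ LinearMap.ker L := by
    refine GeoOrth.perp_le_of_singular (hJ.quad_nondegenerate h2) (by simp; omega) fun e _ he he0 => ?_
    have he0' : e ≠ 0 := by simpa using he0
    obtain ⟨y, hy, hy1, hy2, hyU⟩ := hJ.exists_isotropic_out h2 hm v₁ e
    have hy0 : y ≠ 0 := fun h => hyU (by rw [h]; exact zero_mem _)
    have l1 := hlink v₁ y hv₁ hv₁0 hy hy0 hy1 fun h => hyU (Submodule.span_mono (by simp [Set.insert_subset_iff]) h)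
    have l2 := hlink e y he he0' hy hy0 hy2 fun h => hyU (Submodule.span_mono (by
      simp [Set.insert_subset_iff]) h)
    rw [LinearMap.mem_ker, hL, hαβ e he he0', l2.1, l2.2, ← l1.1, ← l1.2]
    simp [a, b]
  have := hker (show x ∈ Forms.perp (quad jK) ⊥ from Forms.mem_perp.2 fun u hu => by
    rw [Submodule.mem_bot] at hu; rw [hu, QuadraticMap.polar_zero_right])
  rw [LinearMap.mem_ker, hL, sub_sub, sub_eq_zero] at this
  exact hx this

/-- A subgroup with the `jK`-centralising isometries and one element moving the field is everything. -/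
theorem spGL_le (hJ : SkewRoot jK δ) (h2 : (2 : F) ≠ 0) (hm : 7 ≤ m) {M : Subgroup G}
    (hM : ∀ h ∈ Cfsg.spGL m F, (∀ x, (h : Mat) *ᵥ (jK *ᵥ x) = jK *ᵥ ((h : Mat) *ᵥ x)) → h ∈ M)
    {g : G} (hgM : g ∈ M) (hgS : g ∈ Cfsg.spGL m F)
    (hg : ∀ α β : F, ∃ x, (g : Mat) *ᵥ (jK *ᵥ x) ≠ α • ((g : Mat) *ᵥ x) + β • (jK *ᵥ ((g : Mat) *ᵥ x))) :
    Cfsg.spGL m F ≤ M := by
  obtain ⟨v₀, hv₀, hv₀0, hout⟩ := hJ.exists_moved h2 hm g hg
  set u₁ := (g : Mat) *ᵥ v₀ with hu₁
  set u₂ := (g : Mat) *ᵥ (jK *ᵥ v₀) with hu₂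
  have hu₁0 : u₁ ≠ 0 := fun h => hv₀0 (by rw [← GeoFull.inv_mulVec_cancel g v₀, ← hu₁, h, mulVec_zero])
  have hY : tvGL u₁ 1 * tvGL u₂ (-δ⁻¹) ∈ M := by
    have := mul_mem (mul_mem hgM (hM _ (mul_mem (tvGL_mem _ _) (tvGL_mem _ _)) (hJ.tv_pair_comm hv₀))) (inv_mem hgM)
    rwa [← conj_mul, tvGL_conj hgS, tvGL_conj hgS] at this
  obtain ⟨z, hz, hz1, hz2, hzU⟩ := hJ.exists_isotropic_out h2 hm u₁ u₂
  have hu₁U : u₁ ∉ kline jK z u₂ := by
    intro h
    rw [kline, Submodule.span_insert, Submodule.mem_sup] at h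
    obtain ⟨p, hp, q, hq, e⟩ := h
    obtain ⟨s, rfl⟩ := Submodule.mem_span_singleton.1 hp
    rw [Submodule.span_insert, Submodule.mem_sup] at hq
    obtain ⟨p', hp', q', hq', rfl⟩ := hq
    obtain ⟨t, rfl⟩ := Submodule.mem_span_singleton.1 hp'
    obtain ⟨c, d, rfl⟩ := Submodule.mem_span_pair.1 hq'
    have hst := hJ.coeff_eq_zero (hJ.kline_stable u₁ u₂) hzU (u := s) (w := t) (by
      rw [show s • z + t • (jK *ᵥ z) = u₁ - (c • u₂ + d • (jK *ᵥ u₂)) by rw [← e]; module]
      exact sub_mem (left_mem _ _) (add_mem (Submodule.smul_mem _ _ (right_mem _ _))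
        (Submodule.smul_mem _ _ (right_mem' _ _))))
    obtain ⟨rfl, rfl⟩ := hst
    have hcd := hJ.coeff_eq_zero (hJ.kline_stable u₁ 0) (b := u₂) hout (u := c) (w := d) (by
      rw [show c • u₂ + d • (jK *ᵥ u₂) = u₁ by rw [← e]; module]
      exact left_mem _ _)
    exact hu₁0 (by rw [← e, hcd.1, hcd.2]; module)
  have hP : ∀ a : F, tvGL (u₁ + a • z) 1 * tvGL u₁ (-1) ∈ M := by
    intro a
    obtain ⟨h, hhS, hhJ, hh1, hh2⟩ := hJ.exists_move h2 hm (d := u₁) (z := a • z) (s := u₂)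
      (by rw [QuadraticMap.map_smul, hz, smul_zero])
      ⟨by rw [SpGeom.form_smul_left, hz1.1, mul_zero], by rw [SpGeom.form_smul_left, hz1.2, mul_zero]⟩
      ⟨by rw [SpGeom.form_smul_left, hz2.1, mul_zero], by rw [SpGeom.form_smul_left, hz2.2, mul_zero]⟩
      (fun hc => hu₁U ((Submodule.span_le.2 (by
        intro x hx
        simp only [Set.mem_insert_iff, Set.mem_singleton_iff] at hx
        rcases hx with rfl | rfl | rfl | rfl
        · exact Submodule.smul_mem _ _ (left_mem _ _)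
        · rw [mulVec_smul]; exact Submodule.smul_mem _ _ (left_mem' _ _)
        · exact right_mem _ _
        · exact right_mem' _ _)) hc))
    have hh := hM h hhS hhJ
    have := mul_mem (mul_mem (mul_mem hh hY) (inv_mem hh)) (inv_mem hY)
    rwa [← conj_mul, tvGL_conj hhS, tvGL_conj hhS, hh1, hh2, _root_.mul_inv_rev, tvGL_inv, tvGL_inv,
      mul_assoc, ← mul_assoc (tvGL u₂ (-δ⁻¹)), tvGL_mul, add_neg_cancel, tvGL_zero, one_mul] at this
  have hzu : f z u₁ = 0 := hz1.1
  have huz : f u₁ z = 0 := (hz1.symm hJ).1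
  have htv : ∀ a : F, tvGL z (2 * a ^ 2) ∈ M := by
    intro a
    have := mul_mem (hP a) (hP (-a))
    convert this using 1
    refine GeoFull.gl_ext fun x => ?_
    simp only [Units.val_mul, ← mulVec_mulVec, tvGL_mulVec, SpGeom.form_add_left, SpGeom.form_add_right,
      SpGeom.form_smul_left, SpGeom.form_smul_right, SpGeom.form_self, hzu, huz]
    module
  have h4 : (4 : F) ≠ 0 := by rw [show (4 : F) = 2 * 2 by norm_num]; exact mul_ne_zero h2 h2
  have hCz : Cen M z := fun c => by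
    have := mul_mem (htv (c / 4 + 1)) (mul_mem (inv_mem (htv (c / 4))) (inv_mem (htv 1)))
    rw [tvGL_inv, tvGL_inv, tvGL_mul, tvGL_mul] at this
    convert this using 2
    field_simp
    ring
  have hz0 : z ≠ 0 := fun h => hzU (by rw [h]; exact zero_mem _)
  have hCiso : ∀ e, quad jK e = 0 → e ≠ 0 → Cen M e := by
    -- move through a vector orthogonal to both
    have hstep : ∀ a b, quad jK a = 0 → quad jK b = 0 → Orth jK b a → a ∉ kline jK (b - a) 0 → Cen M a → Cen M b := by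
      intro a b ha hb hba hout' hC
      obtain ⟨h, hhS, hhJ, hh, -⟩ := hJ.exists_move h2 hm (d := a) (z := b - a) (s := 0)
        (by
          rw [sub_eq_add_neg, QuadraticMap.map_add (quad jK), QuadraticMap.map_neg, ha, hb,
            QuadraticMap.polar_neg_right, hJ.polar_quad, hJ.skew, hba.2]
          simp)
        ⟨by rw [SpGeom.form_sub_left, hba.1, SpGeom.form_self, sub_zero],
         by rw [SpGeom.form_sub_left, hba.2, SpGeom.form_skew, ← quad_apply, ha, neg_zero, sub_zero]⟩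
        ⟨SpGeom.form_zero_right _, by rw [mulVec_zero]; exact SpGeom.form_zero_right _⟩ hout'
      simpa [hh] using cen_map (hM h hhS hhJ) hhS hC
    intro e he he0
    obtain ⟨y, hy, hy1, hy2, hyU⟩ := hJ.exists_isotropic_out h2 hm z e
    have hline : ∀ a b : V, a ∈ kline jK b 0 → ∃ s t : F, a = s • b + t • (jK *ᵥ b) := by
      intro a b h
      rw [kline, mulVec_zero, Submodule.span_insert, Submodule.mem_sup] at h
      obtain ⟨p, hp, q, hq, e⟩ := h
      obtain ⟨s, rfl⟩ := Submodule.mem_span_singleton.1 hp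
      rw [Set.pair_eq_singleton, Set.pair_comm, Submodule.span_insert_zero, Submodule.mem_span_singleton] at hq
      obtain ⟨t, rfl⟩ := hq
      exact ⟨s, t, e.symm⟩
    refine hstep y e hy he (hy2.symm hJ) ?_ (hstep z y hz hy hy1 ?_ hCz)
    · intro h
      obtain ⟨s, t, hst⟩ := hline _ _ h
      rw [mulVec_sub] at hst
      obtain ⟨h1, h3⟩ := hJ.coeff_eq_zero (hJ.kline_stable z e) hyU (u := 1 + s) (w := t) (by
        rw [show (1 + s) • y + t • (jK *ᵥ y) = s • e + t • (jK *ᵥ e) by linear_combination (norm := module) hst]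
        exact add_mem (Submodule.smul_mem _ _ (right_mem _ _)) (Submodule.smul_mem _ _ (right_mem' _ _)))
      rw [h3, eq_neg_of_add_eq_zero_right h1, zero_smul, add_zero] at hst
      exact he0 (by linear_combination (norm := module) hst)
    · intro h
      obtain ⟨s, t, hst⟩ := hline _ _ h
      rw [mulVec_sub] at hst
      obtain ⟨h1, h3⟩ := hJ.coeff_eq_zero (hJ.kline_stable z e) hyU (u := s) (w := t) (by
        rw [show s • y + t • (jK *ᵥ y) = (1 + s) • z + t • (jK *ᵥ z) by linear_combination (norm := module) (-1 : F) • hst]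
        exact add_mem (Submodule.smul_mem _ _ (left_mem _ _)) (Submodule.smul_mem _ _ (left_mem' _ _)))
      exact hz0 (by rw [hst, h1, h3]; module)
  have hQ := hJ.quad_nondegenerate h2
  have hC : ∀ x, x ≠ 0 → Cen M x := by
    intro x hx0
    by_cases hx : quad jK x = 0
    · exact hCiso x hx hx0
    have hbot : ∀ a : V, 2 * Module.finrank F (⊥ : Submodule F V) + 3 ≤ Fintype.card (Fin m ⊕ Fin m) :=
      fun _ => by simp; omega
    obtain ⟨v₁, -, hv₁, hxv₁⟩ := GeoOrth.exists_singular_ne hQ (hbot x) (a := x) (by simpa using hx0)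
    obtain ⟨v, hv, hxv, hJxv⟩ : ∃ v, quad jK v = 0 ∧ QuadraticMap.polar (quad jK) x v ≠ 0 ∧ f x v ≠ 0 := by
      by_cases hJ1 : f x v₁ = 0
      swap
      · exact ⟨v₁, hv₁, hxv₁, hJ1⟩
      have hJx : quad jK (jK *ᵥ x) ≠ 0 := by
        rw [quad_apply, hJ.jj, ← quad_apply]
        exact neg_ne_zero.2 (mul_ne_zero hJ.ne_zero hx)
      obtain ⟨v₂, hv₂, hv₂0, hxv₂⟩ := GeoOrth.exists_singular_ne hQ (U := Submodule.span F {v₁})
        (by
          have : Module.finrank F (Submodule.span F {v₁}) ≤ 1 :=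
            (finrank_span_le_card ({v₁} : Set V)).trans (by simp)
          simp; omega) (a := jK *ᵥ x) (fun h => by
          obtain ⟨c, hc⟩ := Submodule.mem_span_singleton.1 h
          exact hJx (by rw [← hc, QuadraticMap.map_smul, hv₁, smul_zero]))
      rw [QuadraticMap.polar_comm, hJ.polar_quad', neg_ne_zero, SpGeom.form_skew] at hxv₂
      have h12 : f x v₂ ≠ 0 := fun h => hxv₂ (by rw [h]; simp)
      by_cases hx2 : QuadraticMap.polar (quad jK) x v₂ = 0
      swap
      · exact ⟨v₂, hv₂0, hx2, h12⟩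
      refine ⟨v₁ + v₂, ?_, ?_, ?_⟩
      · rw [QuadraticMap.map_add (quad jK), hv₁, hv₂0, QuadraticMap.polar_comm,
          Forms.mem_perp.1 hv₂ v₁ (Submodule.mem_span_singleton_self _)]
        simp
      · rwa [QuadraticMap.polar_add_right, hx2, add_zero]
      · rwa [SpGeom.form_add_right, hJ1, zero_add]
    set b := quad jK x / QuadraticMap.polar (quad jK) x v with hb
    have hb0 : b ≠ 0 := div_ne_zero hx hxv
    have hbv : b • v ≠ 0 := smul_ne_zero hb0 fun h => hJxv (by rw [h, SpGeom.form_zero_right])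
    have hd : quad jK (x - b • v) = 0 := by
      rw [sub_eq_add_neg, QuadraticMap.map_add (quad jK), QuadraticMap.map_neg, QuadraticMap.map_smul, hv,
        QuadraticMap.polar_neg_right, QuadraticMap.polar_smul_right, smul_eq_mul, smul_eq_mul,
        mul_zero, hb, div_mul_cancel₀ _ hxv]
      ring
    have hd0 : x - b • v ≠ 0 := fun h => hx (by
      rw [sub_eq_zero.1 h, QuadraticMap.map_smul, hv, smul_zero])
    simpa using cen_add' (hCiso _ hd hd0) (hCiso _ (by rw [QuadraticMap.map_smul, hv, smul_zero]) hbv)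
      (by rw [SpGeom.form_sub_left, SpGeom.form_self, sub_zero, SpGeom.form_smul_right]
          exact mul_ne_zero hb0 hJxv)
  refine spGL_le_of_tv M fun v c => ?_
  rcases eq_or_ne v 0 with rfl | hv
  · convert one_mem M using 1
    exact GeoFull.gl_ext fun x => by rw [tvGL_mulVec, smul_zero, add_zero, Units.val_one, one_mulVec]
  · exact hC v hv c

end SkewRoot

end CfsgLib.GeoSp
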