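import Cfsg.Agent.GeoLib.FullSL

/-!
The subfield groups `Cfsg.Geo.subfieldSubgroup`: rational vectors and membership.
-/

set_option autoImplicit false

namespace CfsgLib.GeoSubfield

open Matrix CfsgLib.GeoFull

variable {ι : Type} [Fintype ι] [DecidableEq ι] {F : Type*} [Field F]

/-- The vectors of the rational structure of `P`. -/
def Rat' (F₀ : Subfield F) (P : GL ι F) (u : ι → F) : Prop :=
  ∀ i, (((P⁻¹ : GL ι F) : Matrix ι ι F) *ᵥ u) i ∈ F₀

variable {F₀ : Subfield F} {P : GL ι F}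

theorem rat_add {u v : ι → F} (hu : Rat' F₀ P u) (hv : Rat' F₀ P v) : Rat' F₀ P (u + v) := fun i => by
  rw [mulVec_add, Pi.add_apply]; exact add_mem (hu i) (hv i)

theorem rat_smul {u : ι → F} {c : F} (hc : c ∈ F₀) (hu : Rat' F₀ P u) : Rat' F₀ P (c • u) := fun i => by
  rw [mulVec_smul, Pi.smul_apply, smul_eq_mul]; exact mul_mem hc (hu i)

theorem rat_sub {u v : ι → F} (hu : Rat' F₀ P u) (hv : Rat' F₀ P v) : Rat' F₀ P (u - v) := fun i => by
  rw [mulVec_sub, Pi.sub_apply]; exact sub_mem (hu i) (hv i)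

theorem rat_mulVec {a : ι → F} (ha : ∀ i, a i ∈ F₀) : Rat' F₀ P ((P : Matrix ι ι F) *ᵥ a) := fun i => by
  rw [inv_mulVec_cancel]; exact ha i

theorem rat_eq {u : ι → F} (hu : Rat' F₀ P u) :
    ∃ a : ι → F, (∀ i, a i ∈ F₀) ∧ u = (P : Matrix ι ι F) *ᵥ a :=
  ⟨_, hu, (mulVec_inv_cancel P u).symm⟩

/-- A scalar carrying a non-zero rational vector to a rational one is rational. -/
theorem mem_of_smul {u : ι → F} {c : F} (hu : Rat' F₀ P u) (hu0 : u ≠ 0) (h : Rat' F₀ P (c • u)) : c ∈ F₀ := by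
  obtain ⟨a, ha, rfl⟩ := rat_eq hu
  obtain ⟨i, hi⟩ : ∃ i, a i ≠ 0 := Function.ne_iff.1 (show a ≠ 0 from fun h0 => hu0 (by rw [h0, mulVec_zero]))
  have := h i
  rw [mulVec_smul, inv_mulVec_cancel, Pi.smul_apply, smul_eq_mul] at this
  simpa [hi] using div_mem this (ha i)

theorem rat_single (i : ι) : Rat' F₀ P ((P : Matrix ι ι F) *ᵥ Pi.single i 1) :=
  rat_mulVec fun j => by rcases eq_or_ne j i with rfl | h <;> simp [*, one_mem, zero_mem]

/-- Criterion for membership. -/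
theorem mem_subfield {g : GL ι F} {c : F} (hc : c ≠ 0)
    (h : ∀ i, Rat' F₀ P (c • ((g : Matrix ι ι F) *ᵥ ((P : Matrix ι ι F) *ᵥ Pi.single i 1)))) :
    g ∈ Cfsg.Geo.subfieldSubgroup F₀ P := by
  classical
  set M : Matrix ι ι F := c • (((P⁻¹ * g * P : GL ι F)) : Matrix ι ι F)
  have hM : ∀ i j, M i j ∈ F₀ := fun i j => by
    have := h j i
    rw [mulVec_smul, mulVec_mulVec, mulVec_mulVec, mulVec_single_one] at this
    simpa [M, Matrix.mul_assoc] using this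
  let M₀ : Matrix ι ι F₀ := fun i j => ⟨M i j, hM i j⟩
  have hmap : M₀.map F₀.subtype = M := rfl
  have hdet : M₀.det ≠ 0 := fun h0 => by
    have h1 : F₀.subtype M₀.det = M.det := RingHom.map_det _ _
    rw [h0, map_zero, det_smul] at h1
    exact mul_ne_zero (pow_ne_zero _ hc) ((P⁻¹ * g * P).isUnit.map Matrix.detMonoidHom).ne_zero h1.symm
  refine ⟨P⁻¹ * g * P, ?_, by simp [mul_assoc]⟩
  have e : P⁻¹ * g * P = Matrix.GeneralLinearGroup.map (F₀.subtype : F₀ →+* F)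
      (GeneralLinearGroup.mkOfDetNeZero M₀ hdet) *
      Units.map (Matrix.scalar ι : F →+* Matrix ι ι F).toMonoidHom (Units.mk0 c hc)⁻¹ := by
    refine Units.ext ?_
    show _ = M * Matrix.scalar ι c⁻¹
    simp [M, Matrix.smul_eq_mul_diagonal, Matrix.mul_assoc, hc]
  rw [e]
  exact mul_mem (Subgroup.mem_sup_left ⟨_, rfl⟩) (Subgroup.mem_sup_right ⟨_, rfl⟩)

/-- Every element maps rational vectors to rational ones up to one scalar. -/
theorem exists_scalar {g : GL ι F} (hg : g ∈ Cfsg.Geo.subfieldSubgroup F₀ P) :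
    ∃ c : F, c ≠ 0 ∧ ∀ u, Rat' F₀ P u → Rat' F₀ P (c • ((g : Matrix ι ι F) *ᵥ u)) := by
  obtain ⟨x, hx, rfl⟩ := hg
  rw [SetLike.mem_coe, Subgroup.sup_eq_closure] at hx
  suffices h : ∃ c : F, c ≠ 0 ∧ ∀ a : ι → F, (∀ i, a i ∈ F₀) → ∀ i, (c • ((x : Matrix ι ι F) *ᵥ a)) i ∈ F₀ by
    obtain ⟨c, hc, h⟩ := h
    refine ⟨c, hc, fun u hu i => ?_⟩
    simp only [MulEquiv.coe_toMonoidHom, MulAut.conj_apply, Units.val_mul, ← mulVec_mulVec, ← mulVec_smul,
      inv_mulVec_cancel]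
    simpa [mulVec_smul] using h _ hu i
  induction hx using Subgroup.closure_induction'' with
  | one => exact ⟨1, one_ne_zero, fun a ha i => by simpa using ha i⟩
  | mem y hy =>
    rcases hy with ⟨A, rfl⟩ | ⟨c, rfl⟩
    · refine ⟨1, one_ne_zero, fun a ha i => ?_⟩
      rw [one_smul]
      exact Subfield.sum_mem _ fun j _ => mul_mem (SetLike.coe_mem _) (ha j)
    · refine ⟨(c : F)⁻¹, inv_ne_zero c.ne_zero, fun a ha i => ?_⟩
      simpa [mulVec_diagonal] using ha i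
  | inv_mem y hy =>
    rcases hy with ⟨A, rfl⟩ | ⟨c, rfl⟩
    · refine ⟨1, one_ne_zero, fun a ha i => ?_⟩
      rw [one_smul, ← map_inv]
      exact Subfield.sum_mem _ fun j _ => mul_mem (SetLike.coe_mem _) (ha j)
    · refine ⟨c, c.ne_zero, fun a ha i => ?_⟩
      rw [← map_inv]
      simpa [mulVec_diagonal] using ha i
  | mul y z _ _ hy hz =>
    obtain ⟨c, hc, hy⟩ := hy
    obtain ⟨d, hd, hz⟩ := hz
    refine ⟨c * d, mul_ne_zero hc hd, fun a ha i => ?_⟩
    have := hy _ (hz a ha) i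
    rwa [mulVec_smul, mulVec_mulVec, ← Units.val_mul, smul_smul] at this

end CfsgLib.GeoSubfield
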