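import Mathlib

/-!
Products of matrices on tensor powers and the span of the square-zero self-adjoint operators of the factors,
in characteristic two.
-/

set_option autoImplicit false
set_option linter.style.haveILetI false

open Matrix

namespace CfsgLib.GeoClifford

variable {F : Type*} [Field F] {k t : ℕ}

/-- The monomial product of factor matrices along a permutation of the factors. -/
def ptMat (a : Fin t → Matrix (Fin k) (Fin k) F) (σ : Equiv.Perm (Fin t)) :
    Matrix (Fin t → Fin k) (Fin t → Fin k) F := fun x y => ∏ i, a i (x i) (y (σ i))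

/-- A pure tensor. -/
def pureVec (v : Fin t → Fin k → F) : (Fin t → Fin k) → F := fun x => ∏ i, v i (x i)

theorem sum_perm_prod (σ : Equiv.Perm (Fin t)) (h : Fin t → Fin k → F) :
    ∑ y : Fin t → Fin k, ∏ i, h i (y (σ i)) = ∏ i, ∑ s, h i s := by
  rw [Fintype.prod_sum]
  exact Fintype.sum_equiv (Equiv.arrowCongr σ.symm (Equiv.refl _)) _ _ fun y => rfl

theorem ptMat_mul (a b : Fin t → Matrix (Fin k) (Fin k) F) (σ τ : Equiv.Perm (Fin t)) :
    ptMat a σ * ptMat b τ = ptMat (fun i => a i * b (σ i)) (σ.trans τ) := by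
  ext x z
  simp only [Matrix.mul_apply, ptMat, Equiv.trans_apply]
  rw [← sum_perm_prod σ]
  refine Finset.sum_congr rfl fun y _ => ?_
  rw [← Equiv.prod_comp σ (fun j => b j (y j) (z (τ j))), ← Finset.prod_mul_distrib]

theorem ptMat_one : ptMat (fun _ : Fin t => (1 : Matrix (Fin k) (Fin k) F)) 1 = 1 := by
  ext x y
  rcases eq_or_ne x y with rfl | h
  · rw [Matrix.one_apply_eq]; exact Finset.prod_eq_one fun i _ => Matrix.one_apply_eq (x i)
  · obtain ⟨i, hi⟩ := Function.ne_iff.mp h
    rw [Matrix.one_apply_ne h]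
    exact Finset.prod_eq_zero (Finset.mem_univ i) (Matrix.one_apply_ne (by simpa using hi))

theorem ptMat_transpose (a : Fin t → Matrix (Fin k) (Fin k) F) (σ : Equiv.Perm (Fin t)) :
    (ptMat a σ)ᵀ = ptMat (fun i => (a (σ.symm i))ᵀ) σ.symm := by
  ext x y
  simp only [Matrix.transpose_apply, ptMat]
  rw [← Equiv.prod_comp σ (fun j => a (σ.symm j) (y (σ.symm j)) (x j))]
  simp

theorem ptMat_mulVec (a : Fin t → Matrix (Fin k) (Fin k) F) (σ : Equiv.Perm (Fin t)) (v : Fin t → Fin k → F) :
    ptMat a σ *ᵥ pureVec v = pureVec fun i => a i *ᵥ v (σ i) := by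
  funext x
  simp only [Matrix.mulVec, dotProduct, ptMat, pureVec]
  rw [← sum_perm_prod σ]
  refine Finset.sum_congr rfl fun y _ => ?_
  rw [← Equiv.prod_comp σ (fun j => v j (y j)), ← Finset.prod_mul_distrib]

theorem pureVec_dot (u w : Fin t → Fin k → F) : pureVec u ⬝ᵥ pureVec w = ∏ i, u i ⬝ᵥ w i := by
  simp only [dotProduct, pureVec, ← Finset.prod_mul_distrib, Fintype.prod_sum]

theorem pureVec_single (y : Fin t → Fin k) : pureVec (fun i => (Pi.single (y i) 1 : Fin k → F)) = Pi.single y 1 := by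
  funext x
  rcases eq_or_ne x y with rfl | h
  · simp [pureVec]
  · obtain ⟨i, hi⟩ := Function.ne_iff.mp h
    rw [Pi.single_eq_of_ne h]
    exact Finset.prod_eq_zero (Finset.mem_univ i) (Pi.single_eq_of_ne hi 1)

theorem pureVec_update_zero (v : Fin t → Fin k → F) (i : Fin t) : pureVec (Function.update v i 0) = 0 :=
  funext fun x => Finset.prod_eq_zero (Finset.mem_univ i) (by simp)

theorem pureVec_update_add (v : Fin t → Fin k → F) (i : Fin t) (u w : Fin k → F) :
    pureVec (Function.update v i (u + w)) = pureVec (Function.update v i u) + pureVec (Function.update v i w) := by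
  funext x
  simp only [pureVec, Pi.add_apply]
  rw [← Finset.mul_prod_erase _ _ (Finset.mem_univ i), ← Finset.mul_prod_erase _ _ (Finset.mem_univ i),
    ← Finset.mul_prod_erase _ _ (Finset.mem_univ i)]
  have h : ∀ z : Fin k → F, ∏ l ∈ Finset.univ.erase i, Function.update v i z l (x l) =
      ∏ l ∈ Finset.univ.erase i, v l (x l) := fun z =>
    Finset.prod_congr rfl fun l hl => by rw [Function.update_of_ne (Finset.ne_of_mem_erase hl)]
  rw [h, h, h]
  simp [add_mul]

/-- An operator of one factor. -/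
def slot (i : Fin t) (A : Matrix (Fin k) (Fin k) F) : Matrix (Fin t → Fin k) (Fin t → Fin k) F :=
  ptMat (Function.update (fun _ => (1 : Matrix (Fin k) (Fin k) F)) i A) 1

theorem slot_apply (i : Fin t) (A : Matrix (Fin k) (Fin k) F) (x y : Fin t → Fin k) :
    slot i A x y = A (x i) (y i) * ∏ l ∈ Finset.univ.erase i, (1 : Matrix (Fin k) (Fin k) F) (x l) (y l) := by
  rw [slot, ptMat, ← Finset.mul_prod_erase _ _ (Finset.mem_univ i)]
  simp only [Function.update_self, Equiv.Perm.one_apply]
  exact congrArg _ (Finset.prod_congr rfl fun l hl => by rw [Function.update_of_ne (Finset.ne_of_mem_erase hl)])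

theorem slot_add (i : Fin t) (A A' : Matrix (Fin k) (Fin k) F) : slot i (A + A') = slot i A + slot i A' := by
  ext x y; simp [slot_apply, add_mul]

theorem slot_smul (i : Fin t) (s : F) (A : Matrix (Fin k) (Fin k) F) : slot i (s • A) = s • slot i A := by
  ext x y; simp [slot_apply, mul_assoc]

theorem slot_one (i : Fin t) : slot i (1 : Matrix (Fin k) (Fin k) F) = 1 := by
  rw [slot, Function.update_eq_self_iff.mpr rfl]
  exact ptMat_one

theorem slot_zero (i : Fin t) : slot i (0 : Matrix (Fin k) (Fin k) F) = 0 := by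
  ext x y; simp [slot_apply]

theorem slot_mul (i : Fin t) (A A' : Matrix (Fin k) (Fin k) F) : slot i A * slot i A' = slot i (A * A') := by
  rw [slot, slot, ptMat_mul, slot]
  refine congrArg₂ ptMat (funext fun l => ?_) (by ext; rfl)
  rcases eq_or_ne l i with rfl | h
  · simp
  · simp [Function.update_of_ne h]

theorem slot_comm {i j : Fin t} (hij : i ≠ j) (A A' : Matrix (Fin k) (Fin k) F) :
    slot i A * slot j A' = slot j A' * slot i A := by
  rw [slot, slot, ptMat_mul, ptMat_mul]
  refine congrArg₂ ptMat (funext fun l => ?_) (by ext; rfl)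
  rcases eq_or_ne l i with rfl | h
  · simp [Function.update_of_ne hij]
  · simp [Function.update_of_ne h]

theorem slot_mulVec (i : Fin t) (A : Matrix (Fin k) (Fin k) F) (v : Fin t → Fin k → F) :
    slot i A *ᵥ pureVec v = pureVec (Function.update v i (A *ᵥ v i)) := by
  rw [slot, ptMat_mulVec]
  refine congrArg pureVec (funext fun l => ?_)
  rcases eq_or_ne l i with rfl | h
  · simp
  · simp [Function.update_of_ne h]

/-- A symmetric matrix with zero diagonal has zero quadratic form in characteristic two. -/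
theorem qzero (h2 : (2 : F) = 0) {κ : Type*} [Fintype κ] [DecidableEq κ] {M : Matrix κ κ F} (hs : Mᵀ = M)
    (hd : ∀ i, M i i = 0) (v : κ → F) : v ⬝ᵥ M *ᵥ v = 0 := by
  simp only [dotProduct, Matrix.mulVec, Finset.mul_sum]
  rw [← Fintype.sum_prod_type' (f := fun i j => v i * (M i j * v j))]
  refine Finset.sum_involution (fun p _ => p.swap) (fun p _ => ?_) (fun p _ hp h => hp ?_)
    (fun _ _ => Finset.mem_univ _) (fun _ _ => Prod.swap_swap _)
  · have : M p.2 p.1 = M p.1 p.2 := congrFun (congrFun hs p.1) p.2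
    simp only [Prod.fst_swap, Prod.snd_swap, this]
    linear_combination (v p.1 * v p.2 * M p.1 p.2) * h2
  · have : p.2 = p.1 := congrArg Prod.fst h
    rw [this, hd, zero_mul, mul_zero]

/-- A square-zero operator self-adjoint for the Gram matrix, alternating if the factor has dimension four. -/
def Gen (G A : Matrix (Fin k) (Fin k) F) : Prop :=
  A * A = 0 ∧ (G * A)ᵀ = G * A ∧ (k = 4 → ∀ i, (G * A) i i = 0)

/-- The span of the unit and the factor operators. -/
def cliffordSpan (t : ℕ) (G : Matrix (Fin k) (Fin k) F) : Submodule F (Matrix (Fin t → Fin k) (Fin t → Fin k) F) :=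
  Submodule.span F ({1} ∪ {X | ∃ i A, Gen G A ∧ X = slot i A})

theorem one_mem_cliffordSpan (G : Matrix (Fin k) (Fin k) F) : (1 : Matrix _ _ F) ∈ cliffordSpan t G :=
  Submodule.subset_span (Or.inl rfl)

theorem slot_mem_cliffordSpan {G A : Matrix (Fin k) (Fin k) F} (i : Fin t) (hA : Gen G A) :
    slot i A ∈ cliffordSpan t G := Submodule.subset_span (Or.inr ⟨i, A, hA, rfl⟩)

theorem identity_four (a b c d e f a' b' c' d' e' f' : F) :
    let N := !![0, a, b, c; -a, 0, d, e; -b, -d, 0, f; -c, -e, -f, 0]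
    let M := !![0, a', b', c'; -a', 0, d', e'; -b', -d', 0, f'; -c', -e', -f', 0]
    (N * M) * (N * M) + (a * a' + b * b' + c * c' + d * d' + e * e' + f * f') • (N * M) +
      ((a * f - b * e + c * d) * (a' * f' - b' * e' + c' * d')) • (1 : Matrix (Fin 4) (Fin 4) F) = 0 := by
  intro N M
  ext i j
  fin_cases i <;> fin_cases j <;> simp [N, M, Matrix.mul_apply, Fin.sum_univ_four] <;> ring

theorem identity_four_two (a b c d e f a' b' c' d' e' f' a'' b'' c'' d'' e'' f'' : F) :
    let N := !![0, a, b, c; -a, 0, d, e; -b, -d, 0, f; -c, -e, -f, 0]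
    let M := !![0, a', b', c'; -a', 0, d', e'; -b', -d', 0, f'; -c', -e', -f', 0]
    let M' := !![0, a'', b'', c''; -a'', 0, d'', e''; -b'', -d'', 0, f''; -c'', -e'', -f'', 0]
    (N * M) * (N * M') + (N * M') * (N * M) + (a * a' + b * b' + c * c' + d * d' + e * e' + f * f') • (N * M') +
      (a * a'' + b * b'' + c * c'' + d * d'' + e * e'' + f * f'') • (N * M) +
      ((a * f - b * e + c * d) * (a' * f'' + a'' * f' - b' * e'' - b'' * e' + c' * d'' + c'' * d')) •
        (1 : Matrix (Fin 4) (Fin 4) F) = 0 := by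
  intro N M M'
  ext i j
  fin_cases i <;> fin_cases j <;> simp [N, M, M', Matrix.mul_apply, Fin.sum_univ_four] <;> ring

theorem eq_alt_four (h2 : (2 : F) = 0) {M : Matrix (Fin 4) (Fin 4) F} (hs : Mᵀ = M) (hd : ∀ i, M i i = 0) :
    M = !![0, M 0 1, M 0 2, M 0 3; -M 0 1, 0, M 1 2, M 1 3; -M 0 2, -M 1 2, 0, M 2 3; -M 0 3, -M 1 3, -M 2 3, 0] := by
  have hn : ∀ z : F, -z = z := fun z => by linear_combination (-z) * h2
  have h : ∀ i j, M j i = M i j := fun i j => congrFun (congrFun hs i) j
  ext i j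
  fin_cases i <;> fin_cases j <;> simp [hn, hd, h 0 1, h 0 2, h 0 3, h 1 2, h 1 3, h 2 3]

/-- Two such operators of a factor anticommute up to scalars. -/
theorem gen_anticomm (h2 : (2 : F) = 0) (hk : k = 2 ∨ k = 4) {G : Matrix (Fin k) (Fin k) F} (hG : Gᵀ = G)
    (hGd : ∀ i, G i i = 0) (hdet : IsUnit G.det) {A A' : Matrix (Fin k) (Fin k) F} (hA : Gen G A) (hA' : Gen G A') :
    ∃ s : F, A * A' + A' * A = s • 1 := by
  classical
  rcases hk with rfl | rfl
  · have hg : G 0 1 ≠ 0 := fun h => hdet.ne_zero (by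
      rw [Matrix.det_fin_two, hGd, hGd, h]; ring)
    have h10 : G 1 0 = G 0 1 := congrFun (congrFun hG 0) 1
    have tr : ∀ {A : Matrix (Fin 2) (Fin 2) F}, Gen G A → A 1 1 = A 0 0 := fun {A} hA => by
      have h := congrFun (congrFun hA.2.1 1) 0
      simp only [Matrix.transpose_apply, Matrix.mul_apply, Fin.sum_univ_two, hGd, h10, zero_mul, zero_add,
        add_zero] at h
      exact mul_left_cancel₀ hg h
    refine ⟨A 0 1 * A' 1 0 + A 1 0 * A' 0 1, ?_⟩
    ext i j
    fin_cases i <;> fin_cases j <;> simp [Matrix.mul_apply, Fin.sum_univ_two, tr hA, tr hA']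
    · linear_combination (A 0 0 * A' 0 0) * h2
    · linear_combination (A 0 0 * A' 0 1 + A' 0 0 * A 0 1) * h2
    · linear_combination (A 0 0 * A' 1 0 + A' 0 0 * A 1 0) * h2
    · linear_combination (A 0 0 * A' 0 0) * h2
  · obtain ⟨N, hN⟩ : ∃ N, N = G⁻¹ := ⟨_, rfl⟩
    have hGN : G * N = 1 := hN ▸ Matrix.mul_nonsing_inv G hdet
    have hNG : N * G = 1 := hN ▸ Matrix.nonsing_inv_mul G hdet
    have hNs : Nᵀ = N := by rw [hN, Matrix.transpose_nonsing_inv, hG]
    have hNd : ∀ i, N i i = 0 := fun i => by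
      have e : N = Nᵀ * G * N := by rw [hNs, hNG, one_mul]
      rw [e]
      have := qzero h2 hG hGd (fun l => N l i)
      simp only [dotProduct, Matrix.mulVec, Finset.mul_sum] at this
      simp only [Matrix.mul_apply, Matrix.transpose_apply, Finset.sum_mul]
      rw [Finset.sum_comm, ← this]
      exact Finset.sum_congr rfl fun _ _ => Finset.sum_congr rfl fun _ _ => by ring
    have key : ∀ {A : Matrix (Fin 4) (Fin 4) F}, Gen G A →
        ∃ a b c d e f : F, A = N * !![0, a, b, c; -a, 0, d, e; -b, -d, 0, f; -c, -e, -f, 0] ∧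
          N 0 1 * a + N 0 2 * b + N 0 3 * c + N 1 2 * d + N 1 3 * e + N 2 3 * f = 0 := by
      intro A hA
      have hM := eq_alt_four h2 hA.2.1 (hA.2.2 rfl)
      refine ⟨_, _, _, _, _, _, by rw [← hM, ← mul_assoc, hNG, one_mul], ?_⟩
      by_contra hs
      have h := identity_four (N 0 1) (N 0 2) (N 0 3) (N 1 2) (N 1 3) (N 2 3)
        ((G * A) 0 1) ((G * A) 0 2) ((G * A) 0 3) ((G * A) 1 2) ((G * A) 1 3) ((G * A) 2 3)
      simp only [← eq_alt_four h2 hNs hNd, ← hM] at h
      rw [← mul_assoc N G, hNG, one_mul, hA.1, zero_add] at h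
      obtain ⟨σ, hσ⟩ : ∃ σ, σ = N 0 1 * (G * A) 0 1 + N 0 2 * (G * A) 0 2 + N 0 3 * (G * A) 0 3 + N 1 2 * (G * A) 1 2 +
          N 1 3 * (G * A) 1 3 + N 2 3 * (G * A) 2 3 := ⟨_, rfl⟩
      rw [← hσ] at h hs
      generalize hc : (_ * (_ : F)) = cc at h
      obtain ⟨c', hc'⟩ : ∃ c' : F, A = c' • 1 := by
        refine ⟨σ⁻¹ * -cc, ?_⟩
        have h' := eq_neg_of_add_eq_zero_left h
        rw [← neg_smul] at h'
        rw [mul_smul, ← h', inv_smul_smul₀ hs]
      have h0 := hA.1
      rw [hc', smul_mul_smul_comm, one_mul, smul_eq_zero, mul_self_eq_zero] at h0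
      rw [h0.resolve_right one_ne_zero, zero_smul] at hc'
      exact hs (by rw [hσ, hc']; simp)
    obtain ⟨a', b', c', d', e', f', eA, sA⟩ := key hA
    obtain ⟨a'', b'', c'', d'', e'', f'', eA', sA'⟩ := key hA'
    have h := identity_four_two (N 0 1) (N 0 2) (N 0 3) (N 1 2) (N 1 3) (N 2 3) a' b' c' d' e' f' a'' b'' c'' d'' e'' f''
    simp only [← eq_alt_four h2 hNs hNd, ← eA, ← eA', sA, sA', zero_smul, add_zero] at h
    exact ⟨_, (eq_neg_of_add_eq_zero_left h).trans (neg_smul _ _).symm⟩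

/-- The span anticommutes up to scalars. -/
theorem span_anticomm (h2 : (2 : F) = 0) (hk : k = 2 ∨ k = 4) {G : Matrix (Fin k) (Fin k) F} (hG : Gᵀ = G)
    (hGd : ∀ i, G i i = 0) (hdet : IsUnit G.det) {X Y : Matrix (Fin t → Fin k) (Fin t → Fin k) F}
    (hX : X ∈ cliffordSpan t G) (hY : Y ∈ cliffordSpan t G) : ∃ s : F, X * Y + Y * X = s • 1 := by
  have htwo : ∀ Z : Matrix (Fin t → Fin k) (Fin t → Fin k) F, Z + Z = 0 := fun Z => by
    rw [← two_smul F, h2, zero_smul]
  induction hY using Submodule.span_induction with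
  | mem Y hY =>
    induction hX using Submodule.span_induction with
    | mem X hX =>
      rcases hX with rfl | ⟨i, A, hA, rfl⟩
      · exact ⟨0, by rw [one_mul, mul_one, htwo, zero_smul]⟩
      rcases hY with rfl | ⟨j, A', hA', rfl⟩
      · exact ⟨0, by rw [one_mul, mul_one, htwo, zero_smul]⟩
      rcases eq_or_ne i j with rfl | hij
      · obtain ⟨s, hs⟩ := gen_anticomm h2 hk hG hGd hdet hA hA'
        exact ⟨s, by rw [slot_mul, slot_mul, ← slot_add, hs, slot_smul, slot_one]⟩
      · exact ⟨0, by rw [slot_comm hij, htwo, zero_smul]⟩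
    | zero => exact ⟨0, by simp⟩
    | add a b _ _ ha hb =>
      obtain ⟨s, hs⟩ := ha
      obtain ⟨s', hs'⟩ := hb
      exact ⟨s + s', by rw [add_smul, ← hs, ← hs']; noncomm_ring⟩
    | smul c a _ ha =>
      obtain ⟨s, hs⟩ := ha
      exact ⟨c * s, by rw [mul_smul, ← hs, smul_mul_assoc, mul_smul_comm, smul_add]⟩
  | zero => exact ⟨0, by simp⟩
  | add a b _ _ ha hb =>
    obtain ⟨s, hs⟩ := ha
    obtain ⟨s', hs'⟩ := hb
    exact ⟨s + s', by rw [add_smul, ← hs, ← hs']; noncomm_ring⟩
  | smul c a _ ha =>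
    obtain ⟨s, hs⟩ := ha
    exact ⟨c * s, by rw [mul_smul, ← hs, smul_mul_assoc, mul_smul_comm, smul_add]⟩

/-- The invertible matrices normalising a space of matrices. -/
def spanNormalizer {κ : Type} [Fintype κ] [DecidableEq κ] [Finite F] (W : Submodule F (Matrix κ κ F)) :
    Subgroup (GL κ F) where
  carrier := {g | ∀ X ∈ W, (g : Matrix κ κ F) * X * ((g⁻¹ : GL κ F) : Matrix κ κ F) ∈ W}
  one_mem' := fun X hX => by simpa using hX
  mul_mem' := fun {a b} ha hb X hX => by
    have := ha _ (hb X hX)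
    simpa [mul_assoc] using this
  inv_mem' := fun {a} ha => by
    have hp : ∀ m : ℕ, ∀ X ∈ W, ((a ^ m : GL κ F) : Matrix κ κ F) * X * (((a ^ m)⁻¹ : GL κ F) : Matrix κ κ F) ∈ W := by
      intro m
      induction m with
      | zero => intro X hX; simpa using hX
      | succ m ih =>
        intro X hX
        have := ha _ (ih X hX)
        rw [pow_succ']
        simpa [mul_assoc] using this
    have e : a⁻¹ = a ^ (orderOf a - 1) := inv_eq_of_mul_eq_one_left (by
      rw [← pow_succ, Nat.sub_add_cancel (orderOf_pos a), pow_orderOf_eq_one])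
    intro X hX
    rw [e]
    exact hp _ X hX

end CfsgLib.GeoClifford
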